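import Mathlib
import Cfsg.Agent.FischerGQ.Local
import Cfsg.Agent.FischerGQ.Star

/-!
Primitive 3-transposition groups with a non-central local 2-core: the lines of the polar space.
-/

set_option autoImplicit false
set_option linter.unusedSectionVars false
set_option linter.style.haveILetI false

namespace CfsgLib.FischerPolar

open Cfsg CfsgLib.ThreeTransp CfsgLib.FischerGQ

variable {G : Type*} [Group G] {D : Set G}

/-- The standing hypotheses. -/
structure Hyp (D : Set G) : Prop where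
  ttg : IsThreeTranspositionGroup D
  prim : IsPrimitiveUnderConj D
  noncomm : ∃ a ∈ D, ∃ c ∈ D, ¬ Commute a c
  central : ∀ u : G, (∀ d ∈ D, Commute u d) → u = 1
  nonempty : ∀ x ∈ D, (nbr D x).Nonempty
  two_core : ∀ x ∈ D, ¬ Cfsg.pCore 2 ↥(Subgroup.closure (nbr D x)) ≤
    Subgroup.center ↥(Subgroup.closure (nbr D x))

namespace Hyp

variable [Finite G] (h : Hyp D)

include h

theorem noTwins : NoTwins D := by
  obtain ⟨a, ha, c, hc, hac⟩ := h.noncomm
  exact primitive_noTwins h.ttg h.prim ha hc hac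

theorem singleClass_in {x : G} (hx : x ∈ D) : SingleClass (nbrIn D x) := by
  intro a ha b hb
  obtain ⟨p, hp, c, hc, hpc⟩ := h.noncomm
  obtain ⟨g, hg, hg'⟩ := nbr_singleClass h.ttg h.prim hp hc hpc hx ha hb
  exact ⟨⟨g, hg⟩, Subtype.ext (by simpa using hg')⟩

theorem exists_moved {x : G} (hx : x ∈ D) {d : ↥(Subgroup.closure (nbr D x))}
    (hd : d ∈ nbrIn D x) :
    ∃ u ∈ Cfsg.pCore 2 ↥(Subgroup.closure (nbr D x)), u * d * u⁻¹ ≠ d := by
  by_contra hall
  push Not at hall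
  apply h.two_core x hx
  intro u hu
  rw [mem_center_closure]
  intro s hs
  obtain ⟨g, hg⟩ := h.singleClass_in hx d hd ⟨s, Subgroup.subset_closure hs⟩ hs
  haveI : (Cfsg.pCore 2 ↥(Subgroup.closure (nbr D x))).Normal := inferInstance
  have h1 := hall (g⁻¹ * u * g) (by
    simpa using (inferInstance : (Cfsg.pCore 2 ↥(Subgroup.closure (nbr D x))).Normal).conj_mem u hu
      g⁻¹)
  have h2 : Commute (g * d * g⁻¹) u := by
    have h3 : Commute (g⁻¹ * u * g) d := by
      show _ * _ = _ * _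
      conv_rhs => rw [← h1]
      rw [inv_mul_cancel_right]
    have h4 := h3.map (MulAut.conj g).toMonoidHom
    simpa [mul_assoc] using h4.symm
  rw [hg] at h2
  exact commute_coe.2 h2

theorem exists_twin {x e : G} (hx : x ∈ D) (he : e ∈ nbr D x) :
    ∃ e', e' ≠ e ∧ AreTwins (nbr D x) e e' := by
  have hd : (⟨e, Subgroup.subset_closure he⟩ : ↥(Subgroup.closure (nbr D x))) ∈ nbrIn D x := he
  obtain ⟨u, hu, hne⟩ := h.exists_moved hx hd
  have hC := nbrIn_ttg h.ttg x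
  set d : ↥(Subgroup.closure (nbr D x)) := ⟨e, Subgroup.subset_closure he⟩
  refine ⟨(u * d * u⁻¹ : ↥(Subgroup.closure (nbr D x))), fun eq => hne (Subtype.ext eq),
    twins_in_iff.1 ((twins_iff_pCore hC hd (hC.2.1 u d hd)).2 ?_)⟩
  have h1 := (Cfsg.pCore 2 ↥(Subgroup.closure (nbr D x))).mul_mem
    ((inferInstance : (Cfsg.pCore 2 ↥(Subgroup.closure (nbr D x))).Normal).conj_mem u hu d⁻¹)
    (inv_mem hu)
  simpa [mul_assoc] using h1

/-- A member commuting with two members of a line commutes with the third. -/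
theorem three {x e e' f : G} (hx : x ∈ D) (ht : AreTwins (nbr D x) e e') (hne : e' ≠ e)
    (hf : f ∈ D) (hfe : f ≠ e) (hfe' : f ≠ e') (h1 : Commute f e) (h2 : Commute f e') :
    Commute f x := by
  classical
  by_cases hfx : f = x
  · rw [hfx]
  obtain ⟨he, he', hee, htw⟩ := ht
  have hxe : x ∈ nbr D e := ⟨hx, fun eq => he.2.1 eq.symm, he.2.2.symm⟩
  have hxe' : x ∈ nbr D e' := ⟨hx, fun eq => he'.2.1 eq.symm, he'.2.2.symm⟩
  have hee' : e' ∈ nbr D e := ⟨he'.1, hne, hee⟩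
  set A := (nbr D x ∩ nbr D e) \ {e'} with hA
  set B := (nbr D e ∩ nbr D e') \ {x} with hB
  have hsub : A ⊆ B := by
    rintro g ⟨⟨hg1, hg2⟩, hg3⟩
    refine ⟨⟨hg2, hg1.1, hg3, ((htw g hg1).1 hg2.2.2.symm).symm⟩, hg1.2.1⟩
  have hcard : A.ncard = B.ncard := by
    rw [hA, hB, Set.ncard_sdiff_singleton_of_mem (show e' ∈ nbr D x ∩ nbr D e from ⟨he', hee'⟩),
      Set.ncard_sdiff_singleton_of_mem (show x ∈ nbr D e ∩ nbr D e' from ⟨hxe, hxe'⟩)]
    obtain ⟨g, g1, g2⟩ := pairConj_edge h.ttg h.prim h.noncomm hx he.1 he hee'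
    have himg : nbr D e ∩ nbr D e' = conjImg g (nbr D x ∩ nbr D e) := by
      rw [FischerCore.conjImg_inter, ← nbr_conjImg h.ttg, ← nbr_conjImg h.ttg, g1, g2]
    rw [himg, FischerCore.ncard_conjImg]
  have hfB : f ∈ B := ⟨⟨⟨hf, hfe, h1.symm⟩, hf, hfe', h2.symm⟩, hfx⟩
  rw [← Set.eq_of_subset_of_ncard_le hsub hcard.ge (Set.toFinite _)] at hfB
  exact hfB.1.1.2.2.symm

theorem blk_card {x a y : G} (hx : x ∈ D) (ha : a ∈ nbr D x) (hy : y ∈ nbr D x) :
    (blk D x a).ncard = (blk D x y).ncard := by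
  obtain ⟨g, g1, g2⟩ := pairConj_edge h.ttg h.prim h.noncomm hx hx ha hy
  calc (blk D x a).ncard = (blk D (g * x * g⁻¹) (g * a * g⁻¹)).ncard := (ncard_blk_conj h.ttg g x a).symm
    _ = _ := by rw [g1, g2]

end Hyp

end CfsgLib.FischerPolar
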