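import Mathlib
import Cfsg.Agent.FischerPolar.Base

/-!
The lines: every member outside a line commutes with exactly one or with all of its points.
-/

set_option autoImplicit false
set_option linter.unusedSectionVars false
set_option linter.style.haveILetI false

namespace CfsgLib.FischerPolar

open Cfsg CfsgLib.ThreeTransp CfsgLib.FischerGQ

variable {G : Type*} [Group G] {D : Set G}

/-- The members commuting with two given ones. -/
def com (D : Set G) (a b : G) : Set G := {g | g ∈ D ∧ Commute g a ∧ Commute g b}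

/-- The line through two commuting members: what commutes with all that commutes with both. -/
def pl (D : Set G) (a b : G) : Set G :=
  {f | f ∈ D ∧ ∀ g ∈ com D a b, Commute g f}

theorem com_comm (a b : G) : com D a b = com D b a := by
  ext g; exact ⟨fun h => ⟨h.1, h.2.2, h.2.1⟩, fun h => ⟨h.1, h.2.2, h.2.1⟩⟩

theorem pl_comm (a b : G) : pl D a b = pl D b a := by
  unfold pl; rw [com_comm]

theorem com_conj (hG : IsThreeTranspositionGroup D) (g a b : G) :
    com D (g * a * g⁻¹) (g * b * g⁻¹) = conjImg g (com D a b) := by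
  ext f
  constructor
  · rintro ⟨h1, h2, h3⟩
    have e : g * (g⁻¹ * f * g) * g⁻¹ = f := by simp [mul_assoc]
    refine ⟨g⁻¹ * f * g, ⟨by simpa using hG.2.1 g⁻¹ f h1, ?_, ?_⟩, e⟩
    · rw [← commute_conj_iff' (g := g), e]; exact h2
    · rw [← commute_conj_iff' (g := g), e]; exact h3
  · rintro ⟨f', ⟨h1, h2, h3⟩, rfl⟩
    exact ⟨hG.2.1 g f' h1, commute_conj_iff'.2 h2, commute_conj_iff'.2 h3⟩

theorem pl_conj (hG : IsThreeTranspositionGroup D) (g a b : G) :
    pl D (g * a * g⁻¹) (g * b * g⁻¹) = conjImg g (pl D a b) := by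
  ext f
  constructor
  · rintro ⟨h1, h2⟩
    have e : g * (g⁻¹ * f * g) * g⁻¹ = f := by simp [mul_assoc]
    refine ⟨g⁻¹ * f * g, ⟨by simpa using hG.2.1 g⁻¹ f h1, fun k hk => ?_⟩, e⟩
    rw [← commute_conj_iff' (g := g), e]
    exact h2 _ (by rw [com_conj hG]; exact ⟨k, hk, rfl⟩)
  · rintro ⟨f', ⟨h1, h2⟩, rfl⟩
    refine ⟨hG.2.1 g f' h1, fun k hk => ?_⟩
    rw [com_conj hG] at hk
    obtain ⟨k', hk', rfl⟩ := hk
    exact commute_conj_iff'.2 (h2 k' hk')

namespace Hyp

variable [Finite G] (h : Hyp D)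

include h

theorem mul_self {d : G} (hd : d ∈ D) : d * d = 1 := tt_mul_self h.ttg.1 hd

theorem inv_eq {d : G} (hd : d ∈ D) : d⁻¹ = d := tt_inv h.ttg.1 hd

theorem braid {d e : G} (hd : d ∈ D) (he : e ∈ D) (hc : ¬ Commute d e) :
    d * e * d = e * d * e := tt_braid h.ttg.1 hd he hc

theorem conj_mem {x d : G} (hx : x ∈ D) (hd : d ∈ D) : x * d * x ∈ D :=
  tt_conj_mem' h.ttg hx hd

theorem self_mem {a b : G} (ha : a ∈ D) (hb : b ∈ nbr D a) : a ∈ pl D a b ∧ b ∈ pl D a b :=
  ⟨⟨ha, fun _ hg => hg.2.1⟩, hb.1, fun _ hg => hg.2.2⟩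

theorem self_com {a b : G} (ha : a ∈ D) (hb : b ∈ nbr D a) : a ∈ com D a b ∧ b ∈ com D a b :=
  ⟨⟨ha, Commute.refl a, hb.2.2⟩, hb.1, hb.2.2.symm, Commute.refl b⟩

theorem pl_subset_com {a b f : G} (ha : a ∈ D) (hb : b ∈ nbr D a) (hf : f ∈ pl D a b) :
    f ∈ com D a b :=
  ⟨hf.1, (hf.2 a (h.self_com ha hb).1).symm, (hf.2 b (h.self_com ha hb).2).symm⟩

theorem clique {a b f g : G} (ha : a ∈ D) (hb : b ∈ nbr D a) (hf : f ∈ pl D a b)
    (hg : g ∈ pl D a b) : Commute f g :=
  hg.2 f (h.pl_subset_com ha hb hf)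

/-- The points of a line other than one of them are its twins among the neighbours. -/
theorem mem_pl_iff {a b f : G} (ha : a ∈ D) (hb : b ∈ nbr D a) :
    f ∈ pl D a b ↔ f = a ∨ AreTwins (nbr D a) b f := by
  constructor
  · intro hf
    by_cases hfa : f = a
    · exact Or.inl hfa
    right
    have hc := h.pl_subset_com ha hb hf
    have hfn : f ∈ nbr D a := ⟨hf.1, hfa, hc.2.1.symm⟩
    refine ⟨hb, hfn, hc.2.2.symm, ?_⟩
    have hsub : blk D a b ⊆ blk D a f :=
      fun g hg => ⟨hg.1, hf.2 g ⟨hg.1.1, hg.1.2.2.symm, hg.2⟩⟩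
    have heq := Set.eq_of_subset_of_ncard_le hsub (h.blk_card ha hfn hb).le (Set.toFinite _)
    intro g hg
    exact ⟨fun hgb => (hsub ⟨hg, hgb⟩).2,
      fun hgf => (show g ∈ blk D a b from heq.symm ▸ ⟨hg, hgf⟩).2⟩
  · rintro (rfl | ⟨-, hf, hbf, htw⟩)
    · exact (h.self_mem ha hb).1
    · refine ⟨hf.1, fun g hg => ?_⟩
      by_cases hga : g = a
      · rw [hga]; exact hf.2.2
      · exact (htw g ⟨hg.1, hga, hg.2.1.symm⟩).1 hg.2.2

theorem com_eq_left {a b c : G} (ha : a ∈ D) (hb : b ∈ nbr D a) (hc : c ∈ pl D a b) (hne : c ≠ a) :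
    com D a c = com D a b := by
  have ht := ((h.mem_pl_iff ha hb).1 hc).resolve_left hne
  refine Set.Subset.antisymm (fun g hg => ⟨hg.1, hg.2.1, ?_⟩) fun g hg => ⟨hg.1, hg.2.1, hc.2 g hg⟩
  by_cases hga : g = a
  · rw [hga]; exact hb.2.2
  · exact (ht.2.2.2 g ⟨hg.1, hga, hg.2.1.symm⟩).2 hg.2.2

/-- Two points of a line have the same common perp as the line. -/
theorem com_eq {a b c d : G} (ha : a ∈ D) (hb : b ∈ nbr D a) (hc : c ∈ pl D a b)
    (hd : d ∈ pl D a b) (hne : c ≠ d) : com D c d = com D a b := by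
  by_cases hca : c = a
  · rw [hca]; exact h.com_eq_left ha hb hd (hca ▸ hne.symm)
  by_cases hda : d = a
  · rw [hda, com_comm]; exact h.com_eq_left ha hb hc hca
  have t1 := ((h.mem_pl_iff ha hb).1 hc).resolve_left hca
  have t2 := ((h.mem_pl_iff ha hb).1 hd).resolve_left hda
  have t : AreTwins (nbr D a) c d := ⟨t1.2.1, t2.2.1, h.clique ha hb hc hd,
    fun g hg => (t1.2.2.2 g hg).symm.trans (t2.2.2.2 g hg)⟩
  refine Set.Subset.antisymm (fun g hg => ?_) fun g hg => ⟨hg.1, hc.2 g hg, hd.2 g hg⟩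
  have hga : Commute g a := by
    by_cases hgc : g = c
    · rw [hgc]; exact (h.pl_subset_com ha hb hc).2.1
    by_cases hgd : g = d
    · rw [hgd]; exact (h.pl_subset_com ha hb hd).2.1
    exact h.three ha t hne.symm hg.1 hgc hgd hg.2.1 hg.2.2
  rw [← h.com_eq_left ha hb hc hca]
  exact ⟨hg.1, hga, hg.2.1⟩

theorem pl_eq {a b c d : G} (ha : a ∈ D) (hb : b ∈ nbr D a) (hc : c ∈ pl D a b)
    (hd : d ∈ pl D a b) (hne : c ≠ d) : pl D c d = pl D a b := by
  unfold pl; rw [h.com_eq ha hb hc hd hne]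

theorem mem_nbr_comm {x y : G} (hx : x ∈ D) (hy : y ∈ nbr D x) : x ∈ nbr D y :=
  ⟨hx, fun e => hy.2.1 e.symm, hy.2.2.symm⟩

theorem mem_nbr_of_pl {a b c d : G} (ha : a ∈ D) (hb : b ∈ nbr D a) (hc : c ∈ pl D a b)
    (hd : d ∈ pl D a b) (hne : c ≠ d) : d ∈ nbr D c :=
  ⟨hd.1, hne.symm, h.clique ha hb hc hd⟩

/-- A member commuting with two points of a line commutes with all of them. -/
theorem commute_line {a b c d f z : G} (ha : a ∈ D) (hb : b ∈ nbr D a) (hc : c ∈ pl D a b)
    (hd : d ∈ pl D a b) (hne : c ≠ d) (hz : z ∈ D) (h1 : Commute z c) (h2 : Commute z d)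
    (hf : f ∈ pl D a b) : Commute z f := by
  refine hf.2 z ?_
  rw [← h.com_eq ha hb hc hd hne]
  exact ⟨hz, h1, h2⟩

theorem unique_proj {a b c d f z : G} (ha : a ∈ D) (hb : b ∈ nbr D a) (hc : c ∈ pl D a b)
    (hd : d ∈ pl D a b) (hf : f ∈ pl D a b) (hz : z ∈ D) (hzf : ¬ Commute z f) (h1 : Commute z c)
    (h2 : Commute z d) : c = d := by
  by_contra hne
  exact hzf (h.commute_line ha hb hc hd hne hz h1 h2 hf)

theorem pl_insert {a b : G} (ha : a ∈ D) (hb : b ∈ nbr D a) :
    pl D a b = insert a {f | AreTwins (nbr D a) b f} ∧ a ∉ {f | AreTwins (nbr D a) b f} :=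
  ⟨Set.ext fun _ => h.mem_pl_iff ha hb, fun hh => hh.2.1.2.1 rfl⟩

theorem even_twins {x e : G} (hx : x ∈ D) (he : e ∈ nbr D x) :
    Even ({f | AreTwins (nbr D x) e f}).ncard := by
  classical
  haveI : Fact (Nat.Prime 2) := ⟨Nat.prime_two⟩
  set K := Subgroup.closure (nbr D x) with hK
  set E := Cfsg.pCore 2 ↥K with hE
  have hC := nbrIn_ttg h.ttg x
  set d : ↥K := ⟨e, Subgroup.subset_closure he⟩ with hd
  have hdC : d ∈ nbrIn D x := he
  let S : Type _ := {f : ↥K // AreTwins (nbr D x) e (f : G)}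
  have hmem : ∀ (u : ↥E) (f : S),
      AreTwins (nbr D x) e (((u : ↥K) * f.1 * (u : ↥K)⁻¹ : ↥K) : G) := by
    intro u f
    have hfC : f.1 ∈ nbrIn D x := f.2.2.1
    have h1 : d⁻¹ * f.1 ∈ E := (twins_iff_pCore hC hdC hfC).1 (twins_in_iff.2 f.2)
    refine twins_in_iff.1 ((twins_iff_pCore hC hdC (hC.2.1 _ _ hfC)).2 ?_)
    have h2 : E.Normal := inferInstance
    have h3 := E.mul_mem h1 (E.mul_mem (h2.conj_mem _ u.2 f.1⁻¹) (E.inv_mem u.2))
    simpa [mul_assoc] using h3
  letI : MulAction ↥E S :=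
    { smul := fun u f => ⟨(u : ↥K) * f.1 * (u : ↥K)⁻¹, hmem u f⟩
      one_smul := fun f => Subtype.ext (by
        show ((1 : ↥E) : ↥K) * f.1 * ((1 : ↥E) : ↥K)⁻¹ = f.1
        simp)
      mul_smul := fun u v f => Subtype.ext (by
        show ((u * v : ↥E) : ↥K) * f.1 * ((u * v : ↥E) : ↥K)⁻¹ =
          (u : ↥K) * ((v : ↥K) * f.1 * (v : ↥K)⁻¹) * (u : ↥K)⁻¹
        simp [mul_assoc]) }
  have hfix : MulAction.fixedPoints ↥E S = ∅ := by
    rw [Set.eq_empty_iff_forall_notMem]
    intro f hf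
    obtain ⟨u, hu, hne⟩ := h.exists_moved hx (d := f.1) f.2.2.1
    exact hne (congrArg Subtype.val (hf ⟨u, hu⟩))
  have hmod := IsPGroup.card_modEq_card_fixedPoints
    (CfsgLib.LocalP.isPGroup_pCore (p := 2) (G := ↥K)) S
  rw [hfix, Nat.card_coe_set_eq, Set.ncard_empty] at hmod
  have hcard : Nat.card S = ({f | AreTwins (nbr D x) e f}).ncard := by
    rw [← Nat.card_coe_set_eq]
    exact Nat.card_congr
      { toFun := fun f => ⟨(f.1 : G), f.2⟩
        invFun := fun f => ⟨⟨f.1, Subgroup.subset_closure f.2.2.1⟩, f.2⟩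
        left_inv := fun f => rfl
        right_inv := fun f => rfl }
  rw [hcard] at hmod
  exact Nat.even_iff.2 hmod

theorem odd_pl {a b : G} (ha : a ∈ D) (hb : b ∈ nbr D a) : Odd (pl D a b).ncard := by
  obtain ⟨h1, h2⟩ := h.pl_insert ha hb
  rw [h1, Set.ncard_insert_of_notMem h2]
  exact (h.even_twins ha hb).add_one

theorem exists_third {a b : G} (ha : a ∈ D) (hb : b ∈ nbr D a) :
    ∃ c ∈ pl D a b, c ≠ a ∧ c ≠ b := by
  obtain ⟨c, hcb, ht⟩ := h.exists_twin ha hb
  exact ⟨c, (h.mem_pl_iff ha hb).2 (Or.inr ht), ht.2.1.2.1, hcb⟩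

theorem ncard_pl {a b c d : G} (ha : a ∈ D) (hb : b ∈ nbr D a) (hc : c ∈ D) (hd : d ∈ nbr D c) :
    (pl D c d).ncard = (pl D a b).ncard := by
  obtain ⟨g, rfl, rfl⟩ := pairConj_edge h.ttg h.prim h.noncomm ha hc hb hd
  rw [pl_conj h.ttg, FischerCore.ncard_conjImg]

/-! ### The star of three points of a line -/

theorem star_props {z a b e : G} (ha : a ∈ D) (hb : b ∈ nbr D a) (he : e ∈ pl D a b) (hea : e ≠ a)
    (heb : e ≠ b) (hz : z ∈ D) (hza : ¬ Commute z a) (hzb : ¬ Commute z b)
    (hze : ¬ Commute z e) :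
    star4 z (a * (b * e)) ∈ pl D a b ∧ star4 z (a * (b * e)) ≠ a ∧
      star4 z (a * (b * e)) ≠ b ∧ star4 z (a * (b * e)) ≠ e ∧
      ¬ Commute z (star4 z (a * (b * e))) := by
  have key : ∀ p q r : G, p ∈ D → q ∈ D → r ∈ D → Commute p q → Commute p r → Commute q r →
      q ≠ r → ¬ Commute z p → ¬ Commute z q → ¬ Commute z r →
      Commute p (star4 z (p * (q * r))) ∧ star4 z (p * (q * r)) ≠ p ∧
        ¬ Commute z (star4 z (p * (q * r))) := by
    intro p q r hp hq hr hpq hpr hqr hne hzp hzq hzr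
    have hc := pair_commute (h.mul_self hq) (h.mul_self hz) hqr (h.braid hz hq hzq)
      (h.braid hz hr hzr)
    have hb2 : (q * r) * (q * r) = 1 := by
      rw [hqr.symm.mul_mul_mul_comm, h.mul_self hq, h.mul_self hr, one_mul]
    have hpb : Commute p (q * r) := hpq.mul_right hpr
    have e1 : z * star4 z (p * (q * r)) * z = p * (q * r * z * (q * r)) * p := by
      rw [star4]
      simp only [mul_assoc, tt_cancel_left h.ttg.1 hz, h.mul_self hz, mul_one]
      rw [show q * (r * p) = p * (q * r) by rw [hpb.eq, mul_assoc]]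
    have h2 : star4 z (p * (q * r)) ≠ p := by
      intro eq
      rw [eq, h.braid hz hp hzp] at e1
      have hbz : z = q * r * z * (q * r) := mul_left_cancel (mul_right_cancel e1)
      have hcz : Commute z (q * r) := by
        show z * (q * r) = q * r * z
        conv_lhs => rw [hbz, mul_assoc, hb2, mul_one]
      exact hzq (commute_of_commute_mul h.ttg.1 hz hq hr hqr hne hcz).1
    have h3 : ¬ Commute z (star4 z (p * (q * r))) := by
      intro hcm
      have h4 : Commute z (p * (q * r * z * (q * r)) * p) := by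
        rw [← e1]
        exact ((Commute.refl z).mul_right hcm).mul_right (Commute.refl z)
      apply hzp
      -- conjugate by `p`
      have h5 : Commute (p * z * p) (q * r * z * (q * r)) := by
        have := h4.map (MulAut.conj p).toMonoidHom
        simpa [h.inv_eq hp, mul_assoc, tt_cancel_left h.ttg.1 hp, h.mul_self hp] using this
      have h6 : Commute (z * p * z) (q * r * z * (q * r)) := by
        rw [h.braid hz hp hzp]; exact h5
      have h7 : Commute p (q * r * z * (q * r)) := by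
        have := h6.map (MulAut.conj z).toMonoidHom
        simp only [MulEquiv.coe_toMonoidHom, MulAut.conj_apply, h.inv_eq hz] at this
        rwa [show z * (z * p * z) * z = p by
          simp only [mul_assoc, tt_cancel_left h.ttg.1 hz, h.mul_self hz, mul_one],
          show z * (q * r * z * (q * r)) * z = q * r * z * (q * r) by
            rw [hc.eq, mul_assoc, h.mul_self hz, mul_one]] at this
      have := h7.map (MulAut.conj (q * r)).toMonoidHom
      simp only [MulEquiv.coe_toMonoidHom, MulAut.conj_apply,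
        inv_eq_of_mul_eq_one_right hb2] at this
      rw [show q * r * p * (q * r) = p by rw [← hpb.eq, mul_assoc, hb2, mul_one],
        show q * r * (q * r * z * (q * r)) * (q * r) = z by
          rw [show q * r * (q * r * z * (q * r)) * (q * r) = q * r * (q * r) * z * (q * r * (q * r))
            by simp only [mul_assoc], hb2, one_mul, mul_one]] at this
      exact this.symm
    exact ⟨star_commute (h.mul_self hp) (h.mul_self hz) hpb (h.braid hz hp hzp) hc, h2, h3⟩
  have hab : Commute a b := hb.2.2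
  have hae : Commute a e := (h.pl_subset_com ha hb he).2.1.symm
  have hbe : Commute b e := (h.pl_subset_com ha hb he).2.2.symm
  have hwD : star4 z (a * (b * e)) ∈ D := by
    have h1 := h.ttg.2.1 (z * (a * (b * e))) z hz
    have hu : (a * (b * e))⁻¹ = a * (b * e) := by
      rw [mul_inv_rev, mul_inv_rev, h.inv_eq ha, h.inv_eq hb.1, h.inv_eq he.1, ← hbe.eq,
        ← (hab.mul_right hae).eq]
    rwa [mul_inv_rev, hu, h.inv_eq hz, ← mul_assoc] at h1
  obtain ⟨c1, n1, n0⟩ := key a b e ha hb.1 he.1 hab hae hbe (Ne.symm heb) hza hzb hze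
  have e2 : a * (b * e) = b * (a * e) := by rw [← mul_assoc, hab.eq, mul_assoc]
  have e3 : a * (b * e) = e * (a * b) := by rw [← mul_assoc, ((hae.symm).mul_right hbe.symm).eq]
  obtain ⟨c2, n2, -⟩ := key b a e hb.1 ha he.1 hab.symm hbe hae (Ne.symm hea) hzb hza hze
  obtain ⟨-, n3, -⟩ := key e a b he.1 ha hb.1 hae.symm hbe.symm hab hb.2.1.symm hze hza hzb
  rw [← e2] at c2 n2
  rw [← e3] at n3
  refine ⟨⟨hwD, fun g hg => ?_⟩, n1, n2, n3, n0⟩
  -- conjugation by `z a b z` fixes the pair and moves the star to the third point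
  set u := a * (b * e) with hu
  set k := z * (a * b) * z with hk
  have hz2 := h.mul_self hz
  have hab2 : (a * b) * (a * b) = 1 := by
    rw [hab.symm.mul_mul_mul_comm, h.mul_self ha, h.mul_self hb.1, one_mul]
  have hk2 : k * k = 1 := by
    rw [hk, show z * (a * b) * z * (z * (a * b) * z) = z * ((a * b) * (z * z) * (a * b)) * z by
      simp only [mul_assoc], hz2, mul_one, hab2, mul_one, hz2]
  have hki : k⁻¹ = k := inv_eq_of_mul_eq_one_right hk2
  have conjk : ∀ p q : G, p ∈ D → q * q = 1 → Commute p q → ¬ Commute z p →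
      z * q * z = q * z * q → z * (p * q) * z * p * (z * (p * q) * z) = q := by
    intro p q hp hq hpq hzp hzq'
    have hbr := h.braid hz hp hzp
    have hp2 := h.mul_self hp
    calc z * (p * q) * z * p * (z * (p * q) * z)
        = z * (p * q) * (z * p * z) * (p * q) * z := by simp only [mul_assoc]
      _ = z * (p * q) * (p * z * p) * (p * q) * z := by rw [hbr]
      _ = z * ((p * q) * p) * z * (p * (p * q)) * z := by simp only [mul_assoc]
      _ = z * q * z * q * z := by
          rw [show p * q * p = q by rw [hpq.eq, mul_assoc, hp2, mul_one],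
            show p * (p * q) = q by rw [← mul_assoc, hp2, one_mul]]
      _ = (z * q * z) * q * z := by simp only [mul_assoc]
      _ = (q * z * q) * q * z := by rw [hzq']
      _ = q := by simp only [mul_assoc, hq, hz2, mul_one]
  have ka : k * a * k⁻¹ = b := by
    rw [hki, hk]; exact conjk a b ha (h.mul_self hb.1) hab hza (h.braid hz hb.1 hzb)
  have kb : k * b * k⁻¹ = a := by
    rw [hki, hk, hab.eq]; exact conjk b a hb.1 (h.mul_self ha) hab.symm hzb (h.braid hz ha hza)
  have kw : k * star4 z u * k⁻¹ = e := by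
    rw [hki, hk, star4]
    have hue : a * b * u = e := by rw [hu, ← mul_assoc a b e, ← mul_assoc, hab2, one_mul]
    have heu : u * (a * b) = e := by
      rw [hu, ← mul_assoc a b e, mul_assoc, ((hae.symm).mul_right hbe.symm).eq, ← mul_assoc, hab2,
        one_mul]
    calc z * (a * b) * z * (z * u * z * u * z) * (z * (a * b) * z)
        = z * ((a * b) * (z * z) * u) * z * (u * (z * z) * (a * b)) * z := by simp only [mul_assoc]
      _ = z * e * z * e * z := by rw [hz2, mul_one, mul_one, hue, heu]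
      _ = (z * e * z) * e * z := by simp only [mul_assoc]
      _ = (e * z * e) * e * z := by rw [h.braid hz he.1 hze]
      _ = e := by simp only [mul_assoc, tt_cancel_left h.ttg.1 he.1, hz2, mul_one]
  have hg' : k * g * k⁻¹ ∈ com D a b := by
    have : k * g * k⁻¹ ∈ com D (k * b * k⁻¹) (k * a * k⁻¹) := by
      rw [com_conj h.ttg, com_comm]; exact ⟨g, hg, rfl⟩
    rwa [ka, kb] at this
  have := he.2 _ hg'
  rw [← kw] at this
  exact commute_conj_iff'.1 this

theorem star_star {a b e z : G} (ha : a ∈ D) (hb : b ∈ nbr D a) (he : e ∈ pl D a b) (hea : e ≠ a)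
    (heb : e ≠ b) (hz : z ∈ D) (hza : ¬ Commute z a) (hzb : ¬ Commute z b)
    (hze : ¬ Commute z e) :
    star4 z (a * (b * star4 z (a * (b * e)))) = e := by
  obtain ⟨hw, -, -, -, hzw⟩ := h.star_props ha hb he hea heb hz hza hzb hze
  set w := star4 z (a * (b * e)) with hwdef
  set u := a * (b * e) with hu
  set u' := a * (b * w) with hu'
  have hbr : z * w * z = w * z * w := h.braid hz hw.1 hzw
  have h1 : z * w * z = u * z * u := by
    rw [hwdef, star4]
    simp only [mul_assoc, tt_cancel_left h.ttg.1 hz, h.mul_self hz, mul_one]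
  have hcl := fun p (hp : p ∈ pl D a b) q (hq : q ∈ pl D a b) => h.clique ha hb hp hq
  have haL := (h.self_mem ha hb).1
  have hbL := (h.self_mem ha hb).2
  have hwu : w * u = u' * e := by
    rw [hu, hu']
    have e1 : Commute w (a * b) := (hcl w hw a haL).mul_right (hcl w hw b hbL)
    simp only [← mul_assoc]
    rw [mul_assoc w a b, e1.eq]
  have hue : Commute u' e := ((hcl a haL e he).mul_left ((hcl b hbL e he).mul_left (hcl w hw e he)))
  have hu2 : u * u = 1 := by
    rw [hu, show a * (b * e) * (a * (b * e)) = (a * a) * ((b * b) * (e * e)) by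
      rw [((hcl a haL b hbL).mul_right (hcl a haL e he)).symm.mul_mul_mul_comm,
        (hcl b hbL e he).symm.mul_mul_mul_comm]]
    rw [h.mul_self ha, h.mul_self hb.1, h.mul_self he.1, one_mul, one_mul]
  have hw2 : w * w = 1 := h.mul_self hw.1
  have hcz : Commute z (w * u) := by
    show z * (w * u) = w * u * z
    calc z * (w * u) = (w * w) * z * w * u := by rw [hw2, one_mul, mul_assoc]
      _ = w * (w * z * w) * u := by simp only [mul_assoc]
      _ = w * (u * z * u) * u := by rw [← hbr, h1]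
      _ = w * u * z := by simp only [mul_assoc, hu2, mul_one]
  rw [hwu, hue.eq] at hcz
  have he2 : e * e = 1 := h.mul_self he.1
  have hu'2 : u' * u' = 1 := by
    rw [hu', show a * (b * w) * (a * (b * w)) = (a * a) * ((b * b) * (w * w)) by
      rw [((hcl a haL b hbL).mul_right (hcl a haL w hw)).symm.mul_mul_mul_comm,
        (hcl b hbL w hw).symm.mul_mul_mul_comm]]
    rw [h.mul_self ha, h.mul_self hb.1, hw2, one_mul, one_mul]
  have h2 : u' * z * u' = e * z * e := by
    calc u' * z * u' = e * (e * u' * z) * u' := by simp only [← mul_assoc, he2, one_mul]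
      _ = e * (z * (e * u')) * u' := by rw [hcz.eq]
      _ = e * z * e := by simp only [mul_assoc, hu'2, mul_one]
  rw [star4]
  calc z * u' * z * u' * z = z * (u' * z * u') * z := by simp only [mul_assoc]
    _ = z * (e * z * e) * z := by rw [h2]
    _ = z * (z * e * z) * z := by rw [h.braid hz he.1 hze]
    _ = e := by simp only [mul_assoc, tt_cancel_left h.ttg.1 hz, h.mul_self hz, mul_one]

/-- Every member commutes with a point of every line. -/
theorem exists_proj {a b z : G} (ha : a ∈ D) (hb : b ∈ nbr D a) (hz : z ∈ D) :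
    ∃ c ∈ pl D a b, Commute z c := by
  classical
  haveI := Fintype.ofFinite G
  by_contra hall
  push Not at hall
  have haL := (h.self_mem ha hb).1
  have hbL := (h.self_mem ha hb).2
  set T := (pl D a b).toFinset \ {a, b} with hT
  have hmem : ∀ e, e ∈ T ↔ e ∈ pl D a b ∧ e ≠ a ∧ e ≠ b := fun e => by simp [hT, not_or]
  have key : (∏ _e ∈ T, (-1 : ℤ)) = 1 := by
    refine Finset.prod_involution (fun e _ => star4 z (a * (b * e))) (fun _ _ => by norm_num)
      (fun e he _ => ?_) (fun e he => ?_) (fun e he => ?_)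
    all_goals obtain ⟨he1, he2, he3⟩ := (hmem e).1 he
    all_goals obtain ⟨m1, m2, m3, m4, -⟩ :=
      h.star_props ha hb he1 he2 he3 hz (hall a haL) (hall b hbL) (hall e he1)
    · exact m4
    · exact (hmem _).2 ⟨m1, m2, m3⟩
    · exact h.star_star ha hb he1 he2 he3 hz (hall a haL) (hall b hbL) (hall e he1)
  rw [Finset.prod_const, neg_one_pow_eq_one_iff_even (by norm_num : (-1 : ℤ) ≠ 1)] at key
  have hsub : ({a, b} : Finset G) ⊆ (pl D a b).toFinset := by
    intro f hf
    rcases Finset.mem_insert.1 hf with rfl | hf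
    · exact Set.mem_toFinset.2 haL
    · rw [Finset.mem_singleton] at hf; exact Set.mem_toFinset.2 (hf ▸ hbL)
  rw [hT, Finset.card_sdiff_of_subset hsub, Finset.card_pair hb.2.1.symm,
    ← Set.ncard_eq_toFinset_card'] at key
  obtain ⟨k, hk⟩ := h.odd_pl ha hb
  obtain ⟨j, hj⟩ := key
  have h2 := Finset.card_le_card hsub
  rw [Finset.card_pair hb.2.1.symm, ← Set.ncard_eq_toFinset_card'] at h2
  omega

theorem exists_noncommute {x : G} (hx : x ∈ D) : ∃ z ∈ D, ¬ Commute x z := by
  obtain ⟨a, ha, c, hc, hac⟩ := h.noncomm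
  obtain ⟨g, hg⟩ := h.prim.1 a ha x hx
  exact ⟨g * c * g⁻¹, h.ttg.2.1 g c hc, hg ▸ fun hh => hac (commute_conj_iff'.1 hh)⟩

/-- The product of two points of a line through `x` moves a neighbour of `x` inside its line. -/
theorem conj_mem_pl {x e a g : G} (hx : x ∈ D) (he : e ∈ nbr D x) (ha : a ∈ pl D x e) (hax : a ≠ x)
    (hg : g ∈ nbr D x) : (e * a) * g * (e * a)⁻¹ ∈ pl D x g := by
  have ht := ((h.mem_pl_iff hx he).1 ha).resolve_left hax
  haveI : Fact (Nat.Prime 2) := ⟨Nat.prime_two⟩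
  set K := Subgroup.closure (nbr D x) with hK
  have hC := nbrIn_ttg h.ttg x
  set e' : ↥K := ⟨e, Subgroup.subset_closure he⟩ with he'
  set a' : ↥K := ⟨a, Subgroup.subset_closure ht.2.1⟩ with ha'
  set g' : ↥K := ⟨g, Subgroup.subset_closure hg⟩ with hg'
  have hgC : g' ∈ nbrIn D x := hg
  have hu : e'⁻¹ * a' ∈ Cfsg.pCore 2 ↥K :=
    (twins_iff_pCore hC (show e' ∈ nbrIn D x from he) (show a' ∈ nbrIn D x from ht.2.1)).1
      (twins_in_iff.2 ht)
  rw [h.inv_eq he.1 |> fun (hi : e⁻¹ = e) => show e'⁻¹ = e' from Subtype.ext hi] at hu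
  have hn : (Cfsg.pCore 2 ↥K).Normal := inferInstance
  have h1 : g'⁻¹ * ((e' * a') * g' * (e' * a')⁻¹) ∈ Cfsg.pCore 2 ↥K := by
    have h2 := (Cfsg.pCore 2 ↥K).mul_mem (hn.conj_mem _ hu g'⁻¹)
      ((Cfsg.pCore 2 ↥K).inv_mem hu)
    simpa [mul_assoc] using h2
  refine (h.mem_pl_iff hx hg).2 (Or.inr (twins_in_iff (a := g')
    (b := (e' * a') * g' * (e' * a')⁻¹) |>.1 ?_))
  exact (twins_iff_pCore hC hgC (hC.2.1 _ _ hgC)).2 h1

end Hyp

end CfsgLib.FischerPolar
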