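import Mathlib
import Cfsg.Agent.FischerPolar.Lines

/-!
Residual subspaces: common perps of non-commuting pairs, iterated.
-/

set_option autoImplicit false
set_option linter.unusedSectionVars false
set_option linter.style.haveILetI false

namespace CfsgLib.FischerPolar

open Cfsg CfsgLib.ThreeTransp CfsgLib.FischerGQ

variable {G : Type*} [Group G] {D : Set G}

/-- A non-degenerate subspace. -/
structure Good (D R : Set G) : Prop where
  sub : R ⊆ D
  conj : ∀ x ∈ R, ∀ y ∈ R, x * y * x ∈ R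
  line : ∀ a ∈ R, ∀ b ∈ R, b ∈ nbr D a → pl D a b ⊆ R
  opp : ∀ a ∈ R, ∃ b ∈ R, ¬ Commute a b

/-- Three pairwise commuting members not on one line. -/
def Tri (D R : Set G) : Prop :=
  ∃ a ∈ R, ∃ b ∈ R, ∃ c ∈ R, b ∈ nbr D a ∧ Commute c a ∧ Commute c b ∧ c ∉ pl D a b

/-- Some two different members commute. -/
def HasLine (D R : Set G) : Prop := ∃ a ∈ R, ∃ b ∈ R, b ∈ nbr D a

namespace Hyp

variable [Finite G] (h : Hyp D)

include h

theorem good_univ : Good D D where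
  sub := subset_rfl
  conj := fun _ hx _ hy => h.conj_mem hx hy
  line := fun _ _ _ _ _ _ hf => hf.1
  opp := fun _ ha => h.exists_noncommute ha

theorem hasLine_univ : HasLine D D := by
  obtain ⟨a, ha, -⟩ := h.noncomm
  obtain ⟨b, hb⟩ := h.nonempty a ha
  exact ⟨a, ha, b, hb.1, hb⟩

/-- The perp of a member of a good set is not contained in that of another. -/
theorem eq_of_perp_subset {R : Set G} (hR : Good D R) {x y : G} (hx : x ∈ R) (hy : y ∈ R)
    (hsub : ∀ g ∈ R, Commute g x → Commute g y) : x = y := by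
  by_contra hne
  have hxD := hR.sub hx
  have hyn : y ∈ nbr D x := ⟨hR.sub hy, Ne.symm hne, hsub x hx (Commute.refl x)⟩
  have hLR : pl D x y ⊆ R := hR.line x hx y hy hyn
  have hxL := (h.self_mem hxD hyn).1
  have hyL := (h.self_mem hxD hyn).2
  -- the perp of `x` commutes with the whole line
  have hperp : ∀ g ∈ R, Commute g x → ∀ f ∈ pl D x y, Commute g f :=
    fun g hg hgx f hf => hf.2 g ⟨hR.sub hg, hgx, hsub g hg hgx⟩
  have huniq : ∀ z ∈ R, ¬ Commute z x → ∀ c ∈ pl D x y, ∀ c' ∈ pl D x y,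
      Commute z c → Commute z c' → c = c' :=
    fun z hz hzx c hc c' hc' h1 h2 => h.unique_proj hxD hyn hc hc' hxL (hR.sub hz) hzx h1 h2
  have key : ∀ z ∈ R, ∀ w ∈ R, ¬ Commute z x → ¬ Commute w x → Commute z w →
      ∀ c ∈ pl D x y, Commute z c → Commute w c := by
    intro z hz w hw hzx hwx hzw c hc hzc
    by_cases hzw' : w = z
    · rw [hzw']; exact hzc
    have hwn : w ∈ nbr D z := ⟨hR.sub hw, hzw', hzw⟩
    obtain ⟨r, hr, hxr⟩ := h.exists_proj (hR.sub hz) hwn hxD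
    have hrR := hR.line z hz w hw hwn hr
    have hrc := hperp r hrR hxr.symm c hc
    have hzn : z ≠ r := fun e => hzx (e ▸ hxr.symm)
    exact (h.commute_line (hR.sub hz) hwn (h.self_mem (hR.sub hz) hwn).1 hr hzn (hLR hc |> fun hh => hR.sub hh)
      hzc.symm hrc.symm (h.self_mem (hR.sub hz) hwn).2).symm
  obtain ⟨z, hz, hxz⟩ := hR.opp x hx
  have hzx : ¬ Commute z x := fun hh => hxz hh.symm
  obtain ⟨c, hc, hzc⟩ := h.exists_proj hxD hyn (hR.sub hz)
  obtain ⟨g, hg, hcg⟩ := hR.opp c (hLR hc)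
  apply hcg
  by_cases hgx : Commute g x
  · exact (hperp g hg hgx c hc).symm
  by_cases hgz : Commute z g
  · exact (key z hz g hg hzx hgx hgz c hc hzc).symm
  have hczn : z ∈ nbr D c :=
    ⟨hR.sub hz, fun e => hzx (e ▸ (h.clique hxD hyn hc hxL)), hzc.symm⟩
  obtain ⟨d, hd, hgd⟩ := h.exists_proj (hR.sub (hLR hc)) hczn (hR.sub hg)
  have hdR := hR.line c (hLR hc) z hz hczn hd
  have hcS := (h.self_mem (hR.sub (hLR hc)) hczn).1
  have hzS := (h.self_mem (hR.sub (hLR hc)) hczn).2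
  by_cases hdc : d = c
  · exact hdc ▸ hgd.symm
  have hdx : ¬ Commute d x := fun hh =>
    hxz (h.commute_line (hR.sub (hLR hc)) hczn hcS hd (Ne.symm hdc) hxD
      (h.clique hxD hyn hxL hc) hh.symm hzS)
  exact (key d hdR g hg hdx hgx hgd.symm c hc (h.clique (hR.sub (hLR hc)) hczn hd hcS)).symm

/-- Different members of a good set differ in their perps, also modulo commuting. -/
theorem good_inter {R : Set G} (hR : Good D R) {p q : G} (hp : p ∈ R) (hq : q ∈ R)
    (hpq : ¬ Commute p q) : Good D (R ∩ com D p q) where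
  sub := fun x hx => hR.sub hx.1
  conj := fun x hx y hy => ⟨hR.conj x hx.1 y hy.1,
    h.conj_mem (hR.sub hx.1) (hR.sub hy.1),
    (hx.2.2.1.mul_left hy.2.2.1).mul_left hx.2.2.1,
    (hx.2.2.2.mul_left hy.2.2.2).mul_left hx.2.2.2⟩
  line := fun a ha b hb hab f hf => ⟨hR.line a ha.1 b hb.1 hab hf, hf.1,
    (hf.2 p ⟨hR.sub hp, ha.2.2.1.symm, hb.2.2.1.symm⟩).symm,
    (hf.2 q ⟨hR.sub hq, ha.2.2.2.symm, hb.2.2.2.symm⟩).symm⟩
  opp := by
    intro x hx
    by_contra hall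
    push Not at hall
    have hsub : ∀ g ∈ R, Commute g p → Commute g x := by
      intro g hg hgp
      by_cases hgp' : g = p
      · rw [hgp']; exact hx.2.2.1.symm
      have hgn : g ∈ nbr D p := ⟨hR.sub hg, hgp', hgp.symm⟩
      obtain ⟨c, hc, hqc⟩ := h.exists_proj (hR.sub hp) hgn (hR.sub hq)
      have hcp : c ≠ p := fun e => hpq (e ▸ hqc).symm
      have hpL := (h.self_mem (hR.sub hp) hgn).1
      have hxc := hall c ⟨hR.line p hp g hg hgn hc, hc.1, h.clique (hR.sub hp) hgn hc hpL, hqc.symm⟩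
      exact (h.commute_line (hR.sub hp) hgn hpL hc hcp.symm (hR.sub hx.1) hx.2.2.1 hxc
        (h.self_mem (hR.sub hp) hgn).2).symm
    have := h.eq_of_perp_subset hR hp hx.1 hsub
    exact hpq (this ▸ hx.2.2.2)

theorem ncard_inter_lt {R : Set G} {p q : G} (hp : p ∈ R) (hpq : ¬ Commute p q) :
    (R ∩ com D p q).ncard < R.ncard :=
  Set.ncard_lt_ncard ⟨fun _ hx => hx.1, fun hh => hpq (hh hp).2.2.2⟩ (Set.toFinite _)

/-- Two members of a good set have a common opposite. -/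
theorem common_opp {R : Set G} (hR : Good D R) {a b : G} (ha : a ∈ R) (hb : b ∈ R) :
    ∃ w ∈ R, ¬ Commute w a ∧ ¬ Commute w b := by
  obtain ⟨g, hg, hag⟩ := hR.opp a ha
  obtain ⟨k, hk, hbk⟩ := hR.opp b hb
  have hga : ¬ Commute g a := fun hh => hag hh.symm
  have hkb : ¬ Commute k b := fun hh => hbk hh.symm
  by_cases hgb : Commute g b
  swap
  · exact ⟨g, hg, hga, hgb⟩
  by_cases hka : Commute k a
  swap
  · exact ⟨k, hk, hka, hkb⟩
  by_cases hgk : Commute g k
  · have hkn : k ∈ nbr D g := ⟨hR.sub hk, fun e => hkb (e ▸ hgb), hgk⟩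
    obtain ⟨f, hf, hfg, hfk⟩ := h.exists_third (hR.sub hg) hkn
    have hgL := (h.self_mem (hR.sub hg) hkn).1
    have hkL := (h.self_mem (hR.sub hg) hkn).2
    refine ⟨f, hR.line g hg k hk hkn hf, fun hh => ?_, fun hh => ?_⟩
    · exact hag (h.commute_line (hR.sub hg) hkn hf hkL hfk (hR.sub ha) hh.symm hka.symm hgL)
    · exact hbk (h.commute_line (hR.sub hg) hkn hf hgL hfg (hR.sub hb) hh.symm hgb.symm hkL)
  · refine ⟨g * k * g, hR.conj g hg k hk, fun hh => ?_, fun hh => ?_⟩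
    · rw [h.braid (hR.sub hg) (hR.sub hk) hgk] at hh
      have h2 := ((hka.mul_left hh).mul_left hka)
      rw [show k * (k * g * k) * k = g by
        simp only [mul_assoc, tt_cancel_left h.ttg.1 (hR.sub hk), h.mul_self (hR.sub hk), mul_one]] at h2
      exact hga h2
    · have h2 := ((hgb.mul_left hh).mul_left hgb)
      rw [show g * (g * k * g) * g = k by
        simp only [mul_assoc, tt_cancel_left h.ttg.1 (hR.sub hg), h.mul_self (hR.sub hg), mul_one]] at h2
      exact hkb h2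

/-- Every member of a good set with a line is on a line. -/
theorem exists_mate_of_hasLine {R : Set G} (hR : Good D R) (hl : HasLine D R) {p : G}
    (hp : p ∈ R) : ∃ g ∈ R, g ∈ nbr D p := by
  obtain ⟨a, ha, b, hb, hab⟩ := hl
  by_cases hpa : Commute p a
  · by_cases e : p = a
    · subst e; exact ⟨b, hb, hab⟩
    · exact ⟨a, ha, hR.sub ha, Ne.symm e, hpa⟩
  · obtain ⟨c, hc, hpc⟩ := h.exists_proj (hR.sub ha) hab (hR.sub hp)
    refine ⟨c, hR.line a ha b hb hab hc, hc.1, fun e => ?_, hpc⟩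
    exact hpa (e ▸ (h.pl_subset_com (hR.sub ha) hab hc).2.1)

theorem com_nonempty {R : Set G} (hR : Good D R) (hl : HasLine D R) {p q : G}
    (hp : p ∈ R) (hq : q ∈ R) : (R ∩ com D p q).Nonempty := by
  obtain ⟨g, hg, hgn⟩ := h.exists_mate_of_hasLine hR hl hp
  obtain ⟨c, hc, hqc⟩ := h.exists_proj (hR.sub hp) hgn (hR.sub hq)
  exact ⟨c, hR.line p hp g hg hgn hc, hc.1, (h.pl_subset_com (hR.sub hp) hgn hc).2.1, hqc.symm⟩

theorem tri_apex {R : Set G} (hR : Good D R) (ht : Tri D R) {p : G} (hp : p ∈ R) :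
    ∃ g ∈ R, ∃ k ∈ R, g ∈ nbr D p ∧ k ∈ nbr D p ∧ Commute g k ∧ k ∉ pl D p g := by
  obtain ⟨a, ha, b, hb, c, hc, hab, hca, hcb, hcL⟩ := ht
  have haD := hR.sub ha
  have hbD := hR.sub hb
  have hcD := hR.sub hc
  have hpD := hR.sub hp
  have haL := (h.self_mem haD hab).1
  have hbL := (h.self_mem haD hab).2
  have hcn : c ∈ nbr D a := ⟨hcD, fun e => hcL (e ▸ haL), hca.symm⟩
  -- general step: a vertex not commuting with `p`
  have step : ∀ x y z : G, x ∈ R → y ∈ R → z ∈ R → y ∈ nbr D x → z ∈ nbr D x → Commute y z →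
      z ∉ pl D x y → ¬ Commute p x →
      ∃ g ∈ R, ∃ k ∈ R, g ∈ nbr D p ∧ k ∈ nbr D p ∧ Commute g k ∧ k ∉ pl D p g := by
    intro x y z hx hy hz hxy hxz hyz hzL hpx
    have hxD := hR.sub hx
    obtain ⟨g, hg, hpg⟩ := h.exists_proj hxD hxy hpD
    obtain ⟨k, hk, hpk⟩ := h.exists_proj hxD hxz hpD
    have hgx : g ≠ x := fun e => hpx (e ▸ hpg)
    have hkx : k ≠ x := fun e => hpx (e ▸ hpk)
    have hgne : g ≠ p := fun e => hpx (e ▸ (h.pl_subset_com hxD hxy hg).2.1)
    have hkne : k ≠ p := fun e => hpx (e ▸ (h.pl_subset_com hxD hxz hk).2.1)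
    have hgcom : g ∈ com D x z :=
      ⟨hg.1, (h.pl_subset_com hxD hxy hg).2.1,
        (hg.2 z ⟨hR.sub hz, hxz.2.2.symm, hyz.symm⟩).symm⟩
    have hgk : g ≠ k := fun e => hzL (by
      rw [← h.pl_eq hxD hxy (h.self_mem hxD hxy).1 hg hgx.symm, e,
        h.pl_eq hxD hxz (h.self_mem hxD hxz).1 hk hkx.symm]
      exact (h.self_mem hxD hxz).2)
    have hgn : g ∈ nbr D p := ⟨hg.1, hgne, hpg⟩
    refine ⟨g, hR.line x hx y hy hxy hg, k, hR.line x hx z hz hxz hk, hgn,
      ⟨hk.1, hkne, hpk⟩, hk.2 g hgcom, fun hkl => hpx ?_⟩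
    exact (h.commute_line hpD hgn (h.self_mem hpD hgn).2 hkl hgk hxD
      (h.pl_subset_com hxD hxy hg).2.1.symm (h.pl_subset_com hxD hxz hk).2.1.symm
      (h.self_mem hpD hgn).1).symm
  by_cases hpa : Commute p a
  swap
  · exact step a b c ha hb hc hab hcn hcb.symm hcL hpa
  by_cases hpb : Commute p b
  swap
  · refine step b a c hb ha hc (h.mem_nbr_comm haD hab) ⟨hcD, fun e => hcL (e ▸ hbL), hcb.symm⟩
      hca.symm ?_ hpb
    rwa [pl_comm]
  by_cases hpc : Commute p c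
  swap
  · refine step c a b hc ha hb (h.mem_nbr_comm haD hcn) ⟨hbD, fun e => hcL (e.symm ▸ hbL), hcb⟩
      hab.2.2 (fun hh => hcL ?_) hpc
    have hbL' : b ∈ pl D a c := by rw [pl_comm]; exact hh
    rw [h.pl_eq haD hcn (h.self_mem haD hcn).1 hbL' hab.2.1.symm]
    exact (h.self_mem haD hcn).2
  by_cases hpL : p ∈ pl D a b
  · by_cases hpa' : p = a
    · subst hpa'; exact ⟨b, hb, c, hc, hab, hcn, hcb.symm, hcL⟩
    have han : a ∈ nbr D p := ⟨haD, Ne.symm hpa', hpa⟩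
    refine ⟨a, ha, c, hc, han, ⟨hcD, fun e => hcL (e ▸ hpL), hpc⟩, hca.symm, ?_⟩
    rwa [h.pl_eq haD hab hpL haL hpa']
  · have han : a ∈ nbr D p := ⟨haD, fun e => hpL (e ▸ haL), hpa⟩
    refine ⟨a, ha, b, hb, han, ⟨hbD, fun e => hpL (e ▸ hbL), hpb⟩, hab.2.2, fun hh => hpL ?_⟩
    rw [h.pl_eq hpD han (h.self_mem hpD han).2 hh hab.2.1.symm]
    exact (h.self_mem hpD han).1

/-- With a triangle every common perp of a non-commuting pair contains a line. -/
theorem hasLine_inter {R : Set G} (hR : Good D R) (ht : Tri D R) {p q : G}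
    (hp : p ∈ R) (hq : q ∈ R) (hpq : ¬ Commute p q) : HasLine D (R ∩ com D p q) := by
  obtain ⟨g, hg, k, hk, hgn, hkn, hgk, hkL⟩ := h.tri_apex hR ht hp
  have hpD := hR.sub hp
  have hqD := hR.sub hq
  obtain ⟨g', hg', hqg⟩ := h.exists_proj hpD hgn hqD
  obtain ⟨k', hk', hqk⟩ := h.exists_proj hpD hkn hqD
  have hgp : g' ≠ p := fun e => hpq (e ▸ hqg).symm
  have hkp : k' ≠ p := fun e => hpq (e ▸ hqk).symm
  have hne : k' ≠ g' := fun e => hkL (by
    rw [← h.pl_eq hpD hgn (h.self_mem hpD hgn).1 hg' hgp.symm, ← e,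
      h.pl_eq hpD hkn (h.self_mem hpD hkn).1 hk' hkp.symm]
    exact (h.self_mem hpD hkn).2)
  have hcom : g' ∈ com D p k :=
    ⟨hg'.1, (h.pl_subset_com hpD hgn hg').2.1, (hg'.2 k ⟨hkn.1, hkn.2.2.symm, hgk.symm⟩).symm⟩
  exact ⟨g', ⟨hR.line p hp g hg hgn hg', hg'.1, hcom.2.1, hqg.symm⟩,
    k', ⟨hR.line p hp k hk hkn hk', hk'.1, (h.pl_subset_com hpD hkn hk').2.1, hqk.symm⟩,
    hk'.1, hne, hk'.2 g' hcom⟩

/-- Without a triangle a common perp of a non-commuting pair contains no line. -/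
theorem inter_no_line {R : Set G} (hR : Good D R) (ht : ¬ Tri D R) {p q g k : G}
    (hp : p ∈ R) (hq : q ∈ R) (hpq : ¬ Commute p q) (hg : g ∈ R ∩ com D p q)
    (hk : k ∈ R ∩ com D p q) (hgk : Commute g k) : g = k := by
  by_contra hne
  have hkn : k ∈ nbr D g := ⟨hk.2.1, Ne.symm hne, hgk⟩
  refine ht ⟨g, hg.1, k, hk.1, p, hp, hkn, hg.2.2.1.symm, hk.2.2.1.symm, fun hpL => hpq ?_⟩
  exact (hpL.2 q ⟨hR.sub hq, hg.2.2.2.symm, hk.2.2.2.symm⟩).symm

/-- Without a triangle commuting is transitive among the neighbours in the set. -/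
theorem commute_trans {R : Set G} (hR : Good D R) (ht : ¬ Tri D R) {x a b f : G} (hx : x ∈ R)
    (ha : a ∈ R) (hb : b ∈ R) (hf : f ∈ R) (hxa : a ∈ nbr D x) (hxb : b ∈ nbr D x)
    (hxf : f ∈ nbr D x) (hab : Commute a b) (hfa : Commute f a) : Commute f b := by
  have key : ∀ g ∈ R, g ∈ nbr D x → Commute g a → g ∈ pl D x a := by
    intro g hg hgn hga
    by_contra hgL
    exact ht ⟨x, hx, a, ha, g, hg, hxa, hgn.2.2.symm, hga, hgL⟩
  exact h.clique (hR.sub hx) hxa (key f hf hxf hfa) (key b hb hxb hab.symm)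

/-- Induction over good sets with lines down to the ones without triangles. -/
theorem good_induction {P : Set G → Prop}
    (base : ∀ R, Good D R → HasLine D R → ¬ Tri D R → P R)
    (step : ∀ R, Good D R → Tri D R →
      (∀ p ∈ R, ∀ q ∈ R, ¬ Commute p q → P (R ∩ com D p q)) → P R)
    {R : Set G} (hR : Good D R) (hl : HasLine D R) : P R := by
  induction hn : R.ncard using Nat.strong_induction_on generalizing R with
  | _ n ih =>
    by_cases ht : Tri D R
    · refine step R hR ht fun p hp q hq hpq => ?_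
      exact ih _ (hn ▸ h.ncard_inter_lt hp hpq) (h.good_inter hR hp hq hpq)
        (h.hasLine_inter hR ht hp hq hpq) rfl
    · exact base R hR hl ht

theorem exists_rankTwo : ∃ R, Good D R ∧ HasLine D R ∧ ¬ Tri D R := by
  refine h.good_induction (P := fun _ => ∃ R, Good D R ∧ HasLine D R ∧ ¬ Tri D R)
    (fun R h1 h2 h3 => ⟨R, h1, h2, h3⟩) (fun R hR _ ih => ?_) h.good_univ h.hasLine_univ
  obtain ⟨a, ha, -⟩ : ∃ a ∈ R, True := by
    obtain ⟨a, ha, -⟩ := ‹Tri D R›
    exact ⟨a, ha, trivial⟩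
  obtain ⟨b, hb, hab⟩ := hR.opp a ha
  exact ih a ha b hb hab

end Hyp

end CfsgLib.FischerPolar
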