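import Mathlib
import Cfsg.Agent.FischerPolar.Residual
import Cfsg.Agent.FischerGQ.Exclude
import Cfsg.Agent.FischerGQ.Sixteen

/-!
A good set without triangles gives a generalized quadrangle, so lines have three or five points.
-/

set_option autoImplicit false
set_option linter.unusedSectionVars false
set_option linter.style.haveILetI false

namespace CfsgLib.FischerPolar

open Cfsg CfsgLib.ThreeTransp CfsgLib.FischerGQ

variable {G : Type*} [Group G] {D : Set G}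

/-- The group generated by a set, modulo its centre. -/
abbrev CQ (R : Set G) : Type _ :=
  ↥(Subgroup.closure R) ⧸ Subgroup.center ↥(Subgroup.closure R)

/-- The image of the set in the quotient. -/
def cqSet (R : Set G) : Set (CQ R) :=
  (QuotientGroup.mk' (Subgroup.center ↥(Subgroup.closure R))) ''
    {k : ↥(Subgroup.closure R) | (k : G) ∈ R}

/-- A member in the quotient. -/
noncomputable def cqMk (R : Set G) (r : G) : CQ R :=
  open scoped Classical in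
  if hr : r ∈ Subgroup.closure R then QuotientGroup.mk' _ ⟨r, hr⟩ else 1

/-- The counting facts for a set without triangles. -/
structure TwoFacts (D R : Set G) (s t : ℕ) : Prop where
  cases : (s = 2 ∧ t = 2) ∨ (s = 4 ∧ t = 2) ∨ (s = 4 ∧ t = 8)
  line : ∀ a ∈ R, ∀ b ∈ R, b ∈ nbr D a → (pl D a b).ncard = s + 1
  deg : ∀ x ∈ R, (R ∩ nbr D x).ncard = s * (t + 1)
  common : ∀ x ∈ R, ∀ z ∈ R, ¬ Commute x z → (R ∩ com D x z).ncard = t + 1
  total : R.ncard = (s + 1) * (s * t + 1)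

theorem cqMk_eq {R : Set G} {r : G} (hr : r ∈ Subgroup.closure R) :
    cqMk R r = QuotientGroup.mk' _ ⟨r, hr⟩ := dif_pos hr

theorem mem_cqSet {R : Set G} {u : CQ R} : u ∈ cqSet R ↔ ∃ r ∈ R, cqMk R r = u := by
  constructor
  · rintro ⟨k, hk, rfl⟩; exact ⟨k, hk, cqMk_eq k.2⟩
  · rintro ⟨r, hr, rfl⟩
    exact ⟨⟨r, Subgroup.subset_closure hr⟩, hr, (cqMk_eq (Subgroup.subset_closure hr)).symm⟩

theorem cqMk_conj {R : Set G} {x r : G} (hx : x ∈ Subgroup.closure R)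
    (hr : r ∈ Subgroup.closure R) :
    cqMk R (x * r * x⁻¹) = cqMk R x * cqMk R r * (cqMk R x)⁻¹ := by
  rw [cqMk_eq hx, cqMk_eq hr,
    cqMk_eq (Subgroup.mul_mem _ (Subgroup.mul_mem _ hx hr) (Subgroup.inv_mem _ hx))]
  rfl

namespace Hyp

variable [Finite G] (h : Hyp D) {R : Set G} (hR : Good D R)

include h hR

theorem conj_closure {g r : G} (hg : g ∈ Subgroup.closure R) (hr : r ∈ R) : g * r * g⁻¹ ∈ R := by
  induction hg using Subgroup.closure_induction'' generalizing r with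
  | mem x hx => rw [h.inv_eq (hR.sub hx)]; exact hR.conj x hx r hr
  | inv_mem x hx =>
    rw [inv_inv, h.inv_eq (hR.sub hx)]; exact hR.conj x hx r hr
  | one => simpa using hr
  | mul a b _ _ ia ib =>
    rw [show a * b * r * (a * b)⁻¹ = a * (b * r * b⁻¹) * a⁻¹ by group]
    exact ia (ib hr)

theorem cq_eq_iff {r r' : G} (hr : r ∈ R) (hr' : r' ∈ R) : cqMk R r = cqMk R r' ↔ r = r' := by
  refine ⟨fun he => ?_, fun he => he ▸ rfl⟩
  rw [cqMk_eq (Subgroup.subset_closure hr), cqMk_eq (Subgroup.subset_closure hr'),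
    QuotientGroup.mk'_eq_mk'] at he
  obtain ⟨z, hz, hrz⟩ := he
  refine h.eq_of_perp_subset hR hr hr' fun g hg hgr => ?_
  have e : r * (z : G) = r' := congrArg Subtype.val hrz
  rw [← e]
  refine hgr.mul_right ?_
  exact congrArg Subtype.val (Subgroup.mem_center_iff.1 hz ⟨g, Subgroup.subset_closure hg⟩)

theorem cq_commute_iff {r r' : G} (hr : r ∈ R) (hr' : r' ∈ R) :
    Commute (cqMk R r) (cqMk R r') ↔ Commute r r' := by
  constructor
  · intro hc
    have hm : cqMk R (r * r' * r⁻¹) = cqMk R r' := by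
      rw [cqMk_conj (Subgroup.subset_closure hr) (Subgroup.subset_closure hr'), hc.eq,
        mul_inv_cancel_right]
    rw [h.cq_eq_iff hR (h.conj_closure hR (Subgroup.subset_closure hr) hr') hr'] at hm
    show r * r' = r' * r
    conv_rhs => rw [← hm]
    rw [inv_mul_cancel_right]
  · intro hc
    rw [cqMk_eq (Subgroup.subset_closure hr), cqMk_eq (Subgroup.subset_closure hr')]
    exact Commute.map (show Commute (⟨r, Subgroup.subset_closure hr⟩ : ↥(Subgroup.closure R))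
      ⟨r', Subgroup.subset_closure hr'⟩ from Subtype.ext hc.eq) _

theorem cq_nbr {r : G} (hr : r ∈ R) :
    nbr (cqSet R) (cqMk R r) = cqMk R '' (R ∩ nbr D r) := by
  ext u
  constructor
  · rintro ⟨hu, hne, hc⟩
    obtain ⟨f, hf, rfl⟩ := mem_cqSet.1 hu
    exact ⟨f, ⟨hf, hR.sub hf, fun e => hne (e ▸ rfl), (h.cq_commute_iff hR hr hf).1 hc⟩, rfl⟩
  · rintro ⟨f, ⟨hf, hfn⟩, rfl⟩
    exact ⟨mem_cqSet.2 ⟨f, hf, rfl⟩, fun e => hfn.2.1 ((h.cq_eq_iff hR hf hr).1 e),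
      (h.cq_commute_iff hR hr hf).2 hfn.2.2⟩

theorem cq_ncard_image {S : Set G} (hS : S ⊆ R) : (cqMk R '' S).ncard = S.ncard :=
  Set.InjOn.ncard_image fun _ ha _ hb e => (h.cq_eq_iff hR (hS ha) (hS hb)).1 e

theorem cq_ttg : IsThreeTranspositionGroup (cqSet R) := by
  refine ⟨⟨?_, ?_⟩, ?_, ?_⟩
  · intro u hu
    obtain ⟨r, hr, rfl⟩ := mem_cqSet.1 hu
    refine orderOf_eq_prime ?_ fun h1 => ?_
    · rw [cqMk_eq (Subgroup.subset_closure hr), ← map_pow]
      refine (QuotientGroup.eq_one_iff _).2 ?_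
      rw [show (⟨r, Subgroup.subset_closure hr⟩ : ↥(Subgroup.closure R)) ^ 2 = 1 from
        Subtype.ext (by rw [Subgroup.coe_pow, pow_two]; exact h.mul_self (hR.sub hr))]
      exact Subgroup.one_mem _
    · obtain ⟨b, hb, hrb⟩ := hR.opp r hr
      exact hrb ((h.cq_commute_iff hR hr hb).1 (h1 ▸ Commute.one_left _))
  · intro u hu v hv
    obtain ⟨r, hr, rfl⟩ := mem_cqSet.1 hu
    obtain ⟨q, hq, rfl⟩ := mem_cqSet.1 hv
    rw [cqMk_eq (Subgroup.subset_closure hr), cqMk_eq (Subgroup.subset_closure hq), ← map_mul,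
      ← map_pow, ← map_pow]
    rcases h.ttg.1.2 r (hR.sub hr) q (hR.sub hq) with e | e
    · left
      rw [show ((⟨r, Subgroup.subset_closure hr⟩ : ↥(Subgroup.closure R)) *
        ⟨q, Subgroup.subset_closure hq⟩) ^ 2 = 1 from Subtype.ext e, map_one]
    · right
      rw [show ((⟨r, Subgroup.subset_closure hr⟩ : ↥(Subgroup.closure R)) *
        ⟨q, Subgroup.subset_closure hq⟩) ^ 3 = 1 from Subtype.ext e, map_one]
  · intro g u hu
    obtain ⟨r, hr, rfl⟩ := mem_cqSet.1 hu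
    obtain ⟨k, rfl⟩ := QuotientGroup.mk'_surjective _ g
    refine mem_cqSet.2 ⟨_, h.conj_closure hR k.2 hr, ?_⟩
    rw [cqMk_conj k.2 (Subgroup.subset_closure hr), cqMk_eq k.2]
  · rw [cqSet, ← MonoidHom.map_closure]
    have : Subgroup.closure {k : ↥(Subgroup.closure R) | (k : G) ∈ R} = ⊤ :=
      Subgroup.closure_closure_coe_preimage
    rw [this, Subgroup.map_top_of_surjective _ (QuotientGroup.mk'_surjective _)]

theorem cq_conjugate {a b : G} (ha : a ∈ R) (hb : b ∈ R) :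
    ∃ g ∈ Subgroup.closure R, g * a * g⁻¹ = b := by
  obtain ⟨w, hw, hwa, hwb⟩ := h.common_opp hR ha hb
  have key : ∀ x y : G, x ∈ R → y ∈ R → ¬ Commute x y → (x * y) * x * (x * y)⁻¹ = y := by
    intro x y hx hy hxy
    rw [mul_inv_rev, h.inv_eq (hR.sub hx), h.inv_eq (hR.sub hy)]
    calc x * y * x * (y * x) = (x * y * x) * (y * x) := by simp only [mul_assoc]
      _ = (y * x * y) * (y * x) := by rw [h.braid (hR.sub hx) (hR.sub hy) hxy]
      _ = y := by simp only [mul_assoc, tt_cancel_left h.ttg.1 (hR.sub hy),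
            h.mul_self (hR.sub hx), mul_one]
  refine ⟨(w * b) * (a * w), Subgroup.mul_mem _
    (Subgroup.mul_mem _ (Subgroup.subset_closure hw) (Subgroup.subset_closure hb))
    (Subgroup.mul_mem _ (Subgroup.subset_closure ha) (Subgroup.subset_closure hw)), ?_⟩
  rw [show (w * b) * (a * w) * a * ((w * b) * (a * w))⁻¹ =
      (w * b) * ((a * w) * a * (a * w)⁻¹) * (w * b)⁻¹ by group,
    key a w ha hw (fun hh => hwa hh.symm), key w b hw hb hwb]

/-- A block having a commuting pair is everything; one having a non-commuting pair has one. -/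
theorem block_eq (hl : HasLine D R) (ht : ¬ Tri D R) {B : Set G} (hB : B ⊆ R)
    (hst : ∀ g ∈ R, ∀ b ∈ B, g * b * g ∈ B → ∀ b' ∈ B, g * b' * g ∈ B)
    (htwo : ∃ a ∈ B, ∃ b ∈ B, a ≠ b) : B = R := by
  have hstab : ∀ g ∈ R, ∀ b ∈ B, Commute g b → ∀ b' ∈ B, g * b' * g ∈ B := by
    intro g hg b hb hc
    refine hst g hg b hb ?_
    rw [hc.eq, mul_assoc, h.mul_self (hR.sub hg), mul_one]
    exact hb
  have hsweep : ∀ a ∈ B, ∀ b ∈ B, ∀ c ∈ R, Commute c a → ¬ Commute c b → c ∈ B := by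
    intro a ha b hb c hc hca hcb
    have h1 := hstab c hc a ha hca b hb
    have h2 := hstab b (hB hb) b hb (Commute.refl b) _ h1
    rw [h.braid (hR.sub hc) (hR.sub (hB hb)) hcb,
      show b * (b * c * b) * b = c by
        simp only [mul_assoc, tt_cancel_left h.ttg.1 (hR.sub (hB hb)),
          h.mul_self (hR.sub (hB hb)), mul_one]] at h2
    exact h2
  have hclosed : ∀ a ∈ B, ∀ b ∈ B, b ∈ nbr D a → ∀ c ∈ R, c ∈ nbr D a → c ∈ B := by
    intro a ha b hb hab c hc hac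
    by_cases hcb : Commute c b
    swap
    · exact hsweep a ha b hb c hc hac.2.2.symm hcb
    have haR := hB ha
    have haD := hR.sub haR
    obtain ⟨z, hz, haz⟩ := hR.opp a haR
    obtain ⟨c₁, hc₁, hzc₁⟩ := h.exists_proj haD hab (hR.sub hz)
    have hc₁a : c₁ ≠ a := fun e => haz (e ▸ hzc₁).symm
    obtain ⟨c₂, hc₂, hc₁₂⟩ := (h.good_inter hR haR hz haz).opp c₁
      ⟨hR.line a haR b (hB hb) hab hc₁, hc₁.1, (h.pl_subset_com haD hab hc₁).2.1, hzc₁.symm⟩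
    have hac₂ : c₂ ∈ nbr D a :=
      ⟨hc₂.2.1, fun e => haz (e ▸ hc₂.2.2.2), hc₂.2.2.1.symm⟩
    have hc₂b : ¬ Commute c₂ b := fun hh => hc₁₂ (Commute.symm
      (hc₁.2 c₂ ⟨hc₂.2.1, hc₂.2.2.1, hh⟩))
    have hc₂B := hsweep a ha b hb c₂ hc₂.1 hac₂.2.2.symm hc₂b
    refine hsweep a ha c₂ hc₂B c hc hac.2.2.symm fun hh => hc₂b ?_
    exact h.commute_trans hR ht haR hc (hB hb) hc₂.1 hac hab hac₂ hcb hh.symm
  have hpair : ∀ a ∈ B, ∀ b ∈ B, b ∈ nbr D a → B = R := by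
    intro a ha b hb hab
    refine Set.Subset.antisymm hB fun z hz => ?_
    by_cases hza : z = a
    · rw [hza]; exact ha
    by_cases hc : Commute a z
    · exact hclosed a ha b hb hab z hz ⟨hR.sub hz, hza, hc⟩
    obtain ⟨c, hcR, hcD, hca, hcz⟩ := h.com_nonempty hR hl (hB ha) hz
    have hcn : c ∈ nbr D a := ⟨hcD, fun e => hc (e ▸ hcz), hca.symm⟩
    have hcB := hclosed a ha b hb hab c hcR hcn
    exact hclosed c hcB a ha (h.mem_nbr_comm (hR.sub (hB ha)) hcn) z hz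
      ⟨hR.sub hz, fun e => hc (e ▸ hca.symm), hcz⟩
  obtain ⟨a, ha, b, hb, hne⟩ := htwo
  by_cases hab : Commute a b
  · exact hpair a ha b hb ⟨hR.sub (hB hb), hne.symm, hab⟩
  have haR := hB ha
  have haD := hR.sub haR
  have hbD := hR.sub (hB hb)
  obtain ⟨g, hg, hgn⟩ := h.exists_mate_of_hasLine hR hl haR
  obtain ⟨c, hc, hbc⟩ := h.exists_proj haD hgn hbD
  obtain ⟨x, hx, hxa, hxc⟩ : ∃ x ∈ pl D a g, x ≠ a ∧ x ≠ c := by
    obtain ⟨x, hx, hxa, hxg⟩ := h.exists_third haD hgn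
    by_cases hxc : x = c
    · exact ⟨g, (h.self_mem haD hgn).2, hgn.2.1, fun e => hxg (hxc.trans e.symm)⟩
    · exact ⟨x, hx, hxa, hxc⟩
  have haL := (h.self_mem haD hgn).1
  have hxR := hR.line a haR g hg hgn hx
  have hxac : Commute x a := h.clique haD hgn hx haL
  have hbx : ¬ Commute b x := fun hh =>
    hab (h.commute_line haD hgn hx hc hxc hbD hh hbc haL).symm
  have hb' : x * (a * b * a) * x ∈ B :=
    hstab x hxR a ha hxac _ (hstab a haR a ha (Commute.refl a) b hb)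
  have e : x * (a * b * a) * x = (x * a) * b * (x * a) := by
    rw [show x * (a * b * a) * x = x * a * b * (a * x) by simp only [mul_assoc], ← hxac.eq]
  rw [e] at hb'
  refine hpair b hb _ hb' ⟨hR.sub (hB hb'), fun e' => hbx ?_, ?_⟩
  · refine (commute_of_commute_mul h.ttg.1 hbD (hR.sub hxR) haD hxac hxa ?_).1
    have hxa2 : (x * a) * (x * a) = 1 := by
      rw [hxac.symm.mul_mul_mul_comm, h.mul_self (hR.sub hxR), h.mul_self haD, one_mul]
    show b * (x * a) = x * a * b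
    conv_lhs => rw [← e', mul_assoc, hxa2, mul_one]
  · exact FischerGQ.pair_commute (h.mul_self (hR.sub hxR)) (h.mul_self hbD) hxac
      (h.braid hbD (hR.sub hxR) hbx) (h.braid hbD haD fun hh => hab hh.symm)

theorem cq_prim (hl : HasLine D R) (ht : ¬ Tri D R) : IsPrimitiveUnderConj (cqSet R) := by
  refine ⟨?_, ?_, ?_⟩
  · intro u hu v hv
    obtain ⟨a, ha, rfl⟩ := mem_cqSet.1 hu
    obtain ⟨b, hb, rfl⟩ := mem_cqSet.1 hv
    obtain ⟨g, hg, rfl⟩ := h.cq_conjugate hR ha hb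
    exact ⟨cqMk R g, (cqMk_conj hg (Subgroup.subset_closure ha)).symm⟩
  · obtain ⟨a, ha, b, hb, hab⟩ := hl
    exact ⟨_, mem_cqSet.2 ⟨a, ha, rfl⟩, _, mem_cqSet.2 ⟨b, hb, rfl⟩,
      fun e => hab.2.1 ((h.cq_eq_iff hR ha hb).1 e).symm⟩
  · intro B hB hblk
    by_contra hcon
    obtain ⟨hns, hnD⟩ := not_or.1 hcon
    rw [Set.not_subsingleton_iff] at hns
    obtain ⟨u, hu, v, hv, huv⟩ := hns
    set B₀ : Set G := {r | r ∈ R ∧ cqMk R r ∈ B} with hB₀
    have hB₀R : B₀ = R := by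
      refine h.block_eq hR hl ht (fun r hr => hr.1) ?_ ?_
      · intro g hg b hb hgb b' hb'
        have hgi := h.inv_eq (hR.sub hg)
        have himg : ∀ c ∈ R, cqMk R (g * c * g) = cqMk R g * cqMk R c * (cqMk R g)⁻¹ :=
          fun c hc => by
            rw [← cqMk_conj (Subgroup.subset_closure hg) (Subgroup.subset_closure hc), hgi]
        refine ⟨hR.conj g hg b' hb'.1, ?_⟩
        rw [himg b' hb'.1]
        rcases hblk (cqMk R g) with he | he
        · rw [← he]; exact ⟨_, hb'.2, rfl⟩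
        · exfalso
          have := hgb.2
          rw [himg b hb.1] at this
          exact Set.disjoint_left.1 he ⟨_, hb.2, rfl⟩ this
      · obtain ⟨a, ha, rfl⟩ := mem_cqSet.1 (hB hu)
        obtain ⟨b, hb, rfl⟩ := mem_cqSet.1 (hB hv)
        exact ⟨a, ⟨ha, hu⟩, b, ⟨hb, hv⟩, fun e => huv (e ▸ rfl)⟩
    refine hnD (Set.Subset.antisymm hB fun w hw => ?_)
    obtain ⟨r, hr, rfl⟩ := mem_cqSet.1 hw
    exact (hB₀R.symm ▸ hr : r ∈ B₀).2

theorem cq_blk (ht : ¬ Tri D R) {x e : G} (hx : x ∈ R) (he : e ∈ R) (hxe : e ∈ nbr D x) :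
    blk (cqSet R) (cqMk R x) (cqMk R e) = cqMk R '' (pl D x e \ {x}) ∧
      pl D x e \ {x} ⊆ R ∩ nbr D x := by
  have hsub : pl D x e \ {x} ⊆ R ∩ nbr D x := fun f hf =>
    ⟨hR.line x hx e he hxe hf.1, hf.1.1, hf.2,
      (h.pl_subset_com (hR.sub hx) hxe hf.1).2.1.symm⟩
  refine ⟨?_, hsub⟩
  ext u
  constructor
  · rintro ⟨hu, hc⟩
    rw [h.cq_nbr hR hx] at hu
    obtain ⟨f, ⟨hf, hfn⟩, rfl⟩ := hu
    refine ⟨f, ⟨?_, hfn.2.1⟩, rfl⟩
    by_contra hfL
    exact ht ⟨x, hx, e, he, f, hf, hxe, hfn.2.2.symm, (h.cq_commute_iff hR hf he).1 hc, hfL⟩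
  · rintro ⟨f, hf, rfl⟩
    refine ⟨?_, (h.cq_commute_iff hR (hsub hf).1 he).2 (h.pl_subset_com (hR.sub hx) hxe hf.1).2.2⟩
    rw [h.cq_nbr hR hx]
    exact ⟨f, hsub hf, rfl⟩

theorem nbr_count (ht : ¬ Tri D R) {x z : G} (hx : x ∈ R) (hz : z ∈ R) (hxz : ¬ Commute x z)
    {m : ℕ} (hm : ∀ e ∈ R ∩ nbr D x, (pl D x e \ {x}).ncard = m) :
    (R ∩ nbr D x).ncard = (R ∩ com D x z).ncard * m := by
  classical
  haveI := Fintype.ofFinite G
  have hxD := hR.sub hx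
  have hzD := hR.sub hz
  have hp : ∀ f ∈ R ∩ nbr D x, ∃ p, p ∈ R ∩ com D x z ∧ p ∈ pl D x f := by
    rintro f ⟨hf, hfn⟩
    obtain ⟨p, hp, hzp⟩ := h.exists_proj hxD hfn hzD
    exact ⟨p, ⟨hR.line x hx f hf hfn hp, hp.1, (h.pl_subset_com hxD hfn hp).2.1, hzp.symm⟩, hp⟩
  choose! φ hφ hφL using hp
  rw [Set.ncard_eq_toFinset_card', Set.ncard_eq_toFinset_card' (R ∩ com D x z),
    Finset.card_eq_sum_card_fiberwise (f := φ) (t := (R ∩ com D x z).toFinset)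
      (fun f hf => Set.mem_toFinset.2 (hφ f (Set.mem_toFinset.1 hf))),
    Finset.sum_const_nat (m := m)]
  intro p hp
  rw [Set.mem_toFinset] at hp
  have hpn : p ∈ nbr D x := ⟨hp.2.1, fun e => hxz (e ▸ hp.2.2.2), hp.2.2.1.symm⟩
  rw [← hm p ⟨hp.1, hpn⟩, Set.ncard_eq_toFinset_card']
  congr 1
  ext f
  simp only [Finset.mem_filter, Set.mem_toFinset]
  constructor
  · rintro ⟨hf, rfl⟩
    refine ⟨?_, hf.2.2.1⟩
    rw [h.pl_eq hxD hf.2 (h.self_mem hxD hf.2).1 (hφL f hf) hpn.2.1.symm]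
    exact (h.self_mem hxD hf.2).2
  · rintro ⟨hfL, hfx⟩
    have hfn : f ∈ R ∩ nbr D x :=
      ⟨hR.line x hx p hp.1 hpn hfL, hfL.1, hfx, (h.pl_subset_com hxD hpn hfL).2.1.symm⟩
    refine ⟨hfn, ?_⟩
    refine h.inter_no_line hR ht hx hz hxz (hφ f hfn) hp (h.clique hxD hfn.2 (hφL f hfn) ?_)
    rw [h.pl_eq hxD hpn (h.self_mem hxD hpn).1 hfL hfn.2.2.1.symm]
    exact (h.self_mem hxD hpn).2

theorem com_pow_three (hl : HasLine D R) (ht : ¬ Tri D R) {x z : G} (hx : x ∈ R) (hz : z ∈ R)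
    (hxz : ¬ Commute x z) : ∃ b, (R ∩ com D x z).ncard = 3 ^ b :=
  FischerCore.ncard_widthOne h.ttg.1 (fun _ hf => hR.sub hf.1) (h.com_nonempty hR hl hx hz)
    (fun w hw v hv => (h.good_inter hR hx hz hxz).conj w hw v hv)
    fun _ hw _ hv hc => h.inter_no_line hR ht hx hz hxz hw hv hc

theorem cq_isGQ (hl : HasLine D R) (ht : ¬ Tri D R) : FischerGQ.IsGQ (cqSet R) where
  ttg := h.cq_ttg hR
  prim := h.cq_prim hR hl ht
  noncomm := by
    obtain ⟨a, ha, b, -, -⟩ := hl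
    obtain ⟨c, hc, hac⟩ := hR.opp a ha
    exact ⟨_, mem_cqSet.2 ⟨a, ha, rfl⟩, _, mem_cqSet.2 ⟨c, hc, rfl⟩,
      fun hh => hac ((h.cq_commute_iff hR ha hc).1 hh)⟩
  central := by
    intro u hu
    obtain ⟨k, rfl⟩ := QuotientGroup.mk'_surjective _ u
    refine (QuotientGroup.eq_one_iff k).2 (mem_center_closure.2 fun r hr => ?_)
    have h1 := hu _ (mem_cqSet.2 ⟨r, hr, rfl⟩)
    have h2 : cqMk R ((k : G) * r * (k : G)⁻¹) = cqMk R r := by
      rw [cqMk_conj k.2 (Subgroup.subset_closure hr), cqMk_eq k.2]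
      rw [h1.eq, mul_inv_cancel_right]
    rw [h.cq_eq_iff hR (h.conj_closure hR k.2 hr) hr] at h2
    show r * (k : G) = (k : G) * r
    conv_lhs => rw [← h2]
    rw [inv_mul_cancel_right]
  nonempty := by
    intro u hu
    obtain ⟨x, hx, rfl⟩ := mem_cqSet.1 hu
    obtain ⟨g, hg, hgn⟩ := h.exists_mate_of_hasLine hR hl hx
    exact ⟨cqMk R g, by rw [h.cq_nbr hR hx]; exact ⟨g, ⟨hg, hgn⟩, rfl⟩⟩
  trans := by
    intro u hu a ha b hb f hf hab hfa
    obtain ⟨x, hx, rfl⟩ := mem_cqSet.1 hu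
    rw [h.cq_nbr hR hx] at ha hb hf
    obtain ⟨a', ⟨ha', han⟩, rfl⟩ := ha
    obtain ⟨b', ⟨hb', hbn⟩, rfl⟩ := hb
    obtain ⟨f', ⟨hf', hfn⟩, rfl⟩ := hf
    rw [h.cq_commute_iff hR ha' hb'] at hab
    rw [h.cq_commute_iff hR hf' ha'] at hfa
    exact (h.cq_commute_iff hR hf' hb').2
      (h.commute_trans hR ht hx ha' hb' hf' han hbn hfn hab hfa)
  even_blk := by
    intro u hu v hv
    obtain ⟨x, hx, rfl⟩ := mem_cqSet.1 hu
    rw [h.cq_nbr hR hx] at hv
    obtain ⟨e, ⟨he, hen⟩, rfl⟩ := hv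
    obtain ⟨h1, h2⟩ := h.cq_blk hR ht hx he hen
    rw [h1, h.cq_ncard_image hR fun f hf => (h2 hf).1,
      Set.ncard_sdiff_singleton_of_mem (h.self_mem (hR.sub hx) hen).1]
    obtain ⟨k, hk⟩ := h.odd_pl (hR.sub hx) hen
    exact ⟨k, by omega⟩
  three_pow := by
    intro u hu v hv
    obtain ⟨x, hx, rfl⟩ := mem_cqSet.1 hu
    rw [h.cq_nbr hR hx] at hv
    obtain ⟨e, ⟨he, hen⟩, rfl⟩ := hv
    obtain ⟨h1, h2⟩ := h.cq_blk hR ht hx he hen
    obtain ⟨z, hz, hxz⟩ := hR.opp x hx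
    obtain ⟨b, hb⟩ := h.com_pow_three hR hl ht hx hz hxz
    refine ⟨b, ?_⟩
    rw [h.cq_nbr hR hx, h.cq_ncard_image hR Set.inter_subset_left, h1,
      h.cq_ncard_image hR fun f hf => (h2 hf).1, ← hb]
    refine h.nbr_count hR ht hx hz hxz fun f hf => ?_
    rw [Set.ncard_sdiff_singleton_of_mem (h.self_mem (hR.sub hx) hf.2).1,
      Set.ncard_sdiff_singleton_of_mem (h.self_mem (hR.sub hx) hen).1,
      h.ncard_pl (hR.sub hx) hen (hR.sub hx) hf.2]

theorem twoFacts (hl : HasLine D R) (ht : ¬ Tri D R) : ∃ s t, TwoFacts D R s t := by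
  have hgq := h.cq_isGQ hR hl ht
  obtain ⟨s, t, hp⟩ := hgq.exists_params
  have hline : ∀ a ∈ R, ∀ b ∈ R, b ∈ nbr D a → (pl D a b).ncard = s + 1 := by
    intro a ha b hb hab
    have hb' : cqMk R b ∈ nbr (cqSet R) (cqMk R a) := by
      rw [h.cq_nbr hR ha]; exact ⟨b, ⟨hb, hab⟩, rfl⟩
    have ha' : cqMk R a ∈ cqSet R := mem_cqSet.2 ⟨a, ha, rfl⟩
    obtain ⟨hi, hn⟩ := hgq.ln_insert ha' hb'
    have := hp.line _ ha' _ hb'
    obtain ⟨h1, h2⟩ := h.cq_blk hR ht ha hb hab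
    rw [hi, Set.ncard_insert_of_notMem hn, h1, h.cq_ncard_image hR fun f hf => (h2 hf).1,
      Set.ncard_sdiff_singleton_of_mem (h.self_mem (hR.sub ha) hab).1] at this
    have := hp.two_le
    omega
  refine ⟨s, t, ?_, hline, ?_, ?_, ?_⟩
  · rcases hgq.params_list hp with h1 | h1 | h1 | h1 | h1 | h1
    · exact Or.inl h1
    · exact Or.inr (Or.inl h1)
    · exact Or.inr (Or.inr h1)
    · exact absurd h1 (hgq.not_eight_eight hp)
    · obtain ⟨rfl, rfl⟩ := h1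
      exact absurd hp hgq.not_sixteen_eight
    · exact absurd h1 (hgq.not_sixteen_eighty hp)
  · intro x hx
    rw [← h.cq_ncard_image hR Set.inter_subset_left, ← h.cq_nbr hR hx]
    exact hp.deg _ (mem_cqSet.2 ⟨x, hx, rfl⟩)
  · intro x hx z hz hxz
    have heq : cqMk R '' (R ∩ com D x z) =
        nbr (cqSet R) (cqMk R x) ∩ nbr (cqSet R) (cqMk R z) := by
      rw [h.cq_nbr hR hx, h.cq_nbr hR hz]
      ext u
      constructor
      · rintro ⟨f, ⟨hf, hfD, hfx, hfz⟩, rfl⟩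
        exact ⟨⟨f, ⟨hf, hfD, fun e => hxz (e ▸ hfz), hfx.symm⟩, rfl⟩,
          ⟨f, ⟨hf, hfD, fun e => hxz (e ▸ hfx).symm, hfz.symm⟩, rfl⟩⟩
      · rintro ⟨⟨f, ⟨hf, hfn⟩, rfl⟩, f', ⟨hf', hfn'⟩, he⟩
        rw [h.cq_eq_iff hR hf' hf] at he
        subst he
        exact ⟨f', ⟨hf', hfn.1, hfn.2.2.symm, hfn'.2.2.symm⟩, rfl⟩
    rw [← h.cq_ncard_image hR Set.inter_subset_left, heq]
    exact hp.common _ (mem_cqSet.2 ⟨x, hx, rfl⟩) _ (mem_cqSet.2 ⟨z, hz, rfl⟩)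
      fun hh => hxz ((h.cq_commute_iff hR hx hz).1 hh)
  · rw [← h.cq_ncard_image hR subset_rfl,
      show cqMk R '' R = cqSet R from Set.ext fun u => mem_cqSet.symm]
    exact hp.total

end Hyp

end CfsgLib.FischerPolar
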