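import Mathlib
import Cfsg.Agent.FischerPolar.RankTwo
import Cfsg.Agent.PrimeGraphSpO.Basic
import Cfsg.Agent.Classical.Symp.Frames

/-!
Lines of three points: the symplectic groups over the field with two elements.
-/

set_option autoImplicit false
set_option linter.unusedSectionVars false
set_option linter.style.haveILetI false

namespace CfsgLib.FischerPolar

open Cfsg CfsgLib.ThreeTransp CfsgLib.FischerGQ CfsgLib.PrimeGraphSpO
open scoped Matrix

variable {G : Type*} [Group G] {D : Set G}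

/-- No four pairwise non-commuting members, the third not the transform of two. -/
def NoPlane (D R : Set G) : Prop :=
  ∀ a ∈ R, ∀ b ∈ R, ∀ d ∈ R, ¬ Commute a b → ¬ Commute a d → ¬ Commute b d →
    Commute d (a * b * a)

/-- The row of the non-commuting matrix. -/
noncomputable def row (D : Set G) (a : G) : ↥D → ZMod 2 := fun x =>
  haveI := _root_.Classical.propDecidable (Commute (x : G) a)
  if Commute (x : G) a then 0 else 1

namespace Hyp

variable [Finite G] (h : Hyp D)

include h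

theorem tri_rel {a b x : G} (ha : a ∈ D) (hb : b ∈ D) (hab : ¬ Commute a b) :
    (Commute x a → Commute x b → Commute x (a * b * a)) ∧
      (Commute x a → Commute x (a * b * a) → Commute x b) ∧
      (Commute x b → Commute x (a * b * a) → Commute x a) := by
  refine ⟨fun h1 h2 => (h1.mul_right h2).mul_right h1, fun h1 h2 => ?_, fun h1 h2 => ?_⟩
  · have := (h1.mul_right h2).mul_right h1
    rwa [show a * (a * b * a) * a = b by
      simp only [mul_assoc, tt_cancel_left h.ttg.1 ha, h.mul_self ha, mul_one]] at this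
  · have := (h1.mul_right h2).mul_right h1
    rwa [h.braid ha hb hab, show b * (b * a * b) * b = a by
      simp only [mul_assoc, tt_cancel_left h.ttg.1 hb, h.mul_self hb, mul_one]] at this

theorem tri_not_commute {a b : G} (ha : a ∈ D) (hb : b ∈ D) (hab : ¬ Commute a b) :
    ¬ Commute a (a * b * a) ∧ ¬ Commute b (a * b * a) :=
  ⟨fun hh => hab ((h.tri_rel ha hb hab).2.1 (Commute.refl a) hh),
    fun hh => hab (((h.tri_rel ha hb hab).2.2 (Commute.refl b) hh).symm)⟩

theorem noPlane_base {R : Set G} (hR : Good D R) (hl : HasLine D R) (ht : ¬ Tri D R)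
    (hs : ∀ a ∈ D, ∀ b ∈ nbr D a, (pl D a b).ncard = 3) : NoPlane D R := by
  classical
  intro a ha b hb d hd hab had hbd
  obtain ⟨s, t, hF⟩ := h.twoFacts hR hl ht
  obtain ⟨g, hg, hgn⟩ := h.exists_mate_of_hasLine hR hl ha
  have hs2 : s = 2 := by
    have h1 := hF.line a ha g hg hgn
    rw [hs a (hR.sub ha) g hgn] at h1
    omega
  have ht2 : t = 2 := by rcases hF.cases with ⟨_, h2⟩ | ⟨h1, _⟩ | ⟨h1, _⟩ <;> omega
  subst hs2 ht2
  by_contra hdc
  set c := a * b * a with hc
  have hcR : c ∈ R := hR.conj a ha b hb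
  obtain ⟨hac, hbc⟩ := h.tri_not_commute (hR.sub ha) (hR.sub hb) hab
  set C := R ∩ com D a b with hC
  have hC3 : C.ncard = 3 := hF.common a ha b hb hab
  have hVC : ∀ r ∈ C, ∀ v ∈ ({a, b, c} : Set G), v ∈ R ∧ Commute r v ∧ v ∈ nbr D r := by
    rintro r ⟨hr, hrD, hra, hrb⟩ v hv
    have hrc : Commute r c := (hra.mul_right hrb).mul_right hra
    simp only [Set.mem_insert_iff, Set.mem_singleton_iff] at hv
    rcases hv with rfl | rfl | rfl
    · exact ⟨ha, hra, hR.sub ha, fun e => hab (e.symm ▸ hrb), hra⟩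
    · exact ⟨hb, hrb, hR.sub hb, fun e => hab (e.symm ▸ hra).symm, hrb⟩
    · exact ⟨hcR, hrc, hR.sub hcR, fun e => hac (e.symm ▸ hra).symm, hrc⟩
  have hVnc : ∀ v ∈ ({a, b, c} : Set G), ∀ w ∈ ({a, b, c} : Set G), Commute v w → v = w := by
    intro v hv w hw hvw
    simp only [Set.mem_insert_iff, Set.mem_singleton_iff] at hv hw
    rcases hv with rfl | rfl | rfl <;> rcases hw with rfl | rfl | rfl <;> try rfl
    · exact absurd hvw hab
    · exact absurd hvw hac
    · exact absurd hvw.symm hab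
    · exact absurd hvw hbc
    · exact absurd hvw.symm hac
    · exact absurd hvw.symm hbc
  have hVd : ∀ v ∈ ({a, b, c} : Set G), ¬ Commute d v := by
    intro v hv
    simp only [Set.mem_insert_iff, Set.mem_singleton_iff] at hv
    rcases hv with rfl | rfl | rfl
    · exact fun hh => had hh.symm
    · exact fun hh => hbd hh.symm
    · exact hdc
  -- `d` commutes with no member of the common perp
  have hdC : ∀ r ∈ C, ¬ Commute d r := by
    intro r hr hdr
    have hrD := hR.sub hr.1
    have hdn : d ∈ nbr D r := ⟨hR.sub hd, fun e => had (e ▸ hr.2.2.1.symm), hdr.symm⟩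
    -- three different lines on `r`
    set S := ({a, b, c} : Set G) with hS
    have hsub : ∀ v ∈ S, pl D r v \ {r} ⊆ R ∩ nbr D r := fun v hv f hf =>
      ⟨hR.line r hr.1 v (hVC r hr v hv).1 (hVC r hr v hv).2.2 hf.1, hf.1.1, hf.2,
        (h.pl_subset_com hrD (hVC r hr v hv).2.2 hf.1).2.1.symm⟩
    have hU : (pl D r a \ {r}) ∪ (pl D r b \ {r}) ∪ (pl D r c \ {r}) = R ∩ nbr D r := by
      refine Set.eq_of_subset_of_ncard_le ?_ ?_ (Set.toFinite _)
      · exact Set.union_subset (Set.union_subset (hsub a (by simp [hS])) (hsub b (by simp [hS])))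
          (hsub c (by simp [hS]))
      · have h2 : ∀ v ∈ S, (pl D r v \ {r}).ncard = 2 := fun v hv => by
          rw [Set.ncard_sdiff_singleton_of_mem (h.self_mem hrD (hVC r hr v hv).2.2).1,
            hs r hrD v (hVC r hr v hv).2.2]
        have hdis : ∀ v ∈ S, ∀ w ∈ S, v ≠ w →
            Disjoint (pl D r v \ {r}) (pl D r w \ {r}) := by
          intro v hv w hw hvw
          rw [Set.disjoint_left]
          intro f hf hf'
          apply hvw
          refine hVnc v hv w hw ?_
          have hn := (hVC r hr w hw).2.2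
          refine h.clique hrD hn ?_ (h.self_mem hrD hn).2
          rw [← h.pl_eq hrD hn (h.self_mem hrD hn).1 hf'.1 (Ne.symm hf.2),
            h.pl_eq hrD (hVC r hr v hv).2.2 (h.self_mem hrD (hVC r hr v hv).2.2).1 hf.1 (Ne.symm hf.2)]
          exact (h.self_mem hrD (hVC r hr v hv).2.2).2
        have e1 : a ≠ b := fun e => hab (by rw [← e])
        have e2 : a ≠ c := fun e => hac (show Commute a c by rw [← e])
        have e3 : b ≠ c := fun e => hbc (show Commute b c by rw [← e])
        rw [hF.deg r hr.1, Set.ncard_union_eq (Set.disjoint_union_left.2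
            ⟨hdis a (by simp [hS]) c (by simp [hS]) e2, hdis b (by simp [hS]) c (by simp [hS]) e3⟩)
            (Set.toFinite _) (Set.toFinite _),
          Set.ncard_union_eq (hdis a (by simp [hS]) b (by simp [hS]) e1) (Set.toFinite _)
            (Set.toFinite _),
          h2 a (by simp [hS]), h2 b (by simp [hS]), h2 c (by simp [hS])]
    have hdU : d ∈ R ∩ nbr D r := ⟨hd, hdn⟩
    rw [← hU] at hdU
    have fin : ∀ v ∈ S, d ∈ pl D r v \ {r} → False := fun v hv hdv =>
      hVd v hv (h.pl_subset_com hrD (hVC r hr v hv).2.2 hdv.1).2.2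
    rcases hdU with (h1 | h1) | h1
    · exact fin a (by simp [hS]) h1
    · exact fin b (by simp [hS]) h1
    · exact fin c (by simp [hS]) h1
  -- the third points
  have hthird : ∀ p ∈ ({a, b, c} : Set G) ×ˢ C, ∃ f, f ∈ pl D p.2 p.1 ∧ f ≠ p.2 ∧ f ≠ p.1 :=
    fun p hp => h.exists_third (hR.sub hp.2.1) (hVC p.2 hp.2 p.1 hp.1).2.2
  choose! F hF1 hF2 hF3 using hthird
  have hFd : ∀ p ∈ ({a, b, c} : Set G) ×ˢ C, F p ∈ R ∩ nbr D d := by
    rintro ⟨v, r⟩ hp
    obtain ⟨hv, hr⟩ := Set.mem_prod.1 hp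
    obtain ⟨hvR, -, hvn⟩ := hVC r hr v hv
    have hrD := hR.sub hr.1
    have hfL := hF1 _ hp
    have hfR := hR.line r hr.1 v hvR hvn hfL
    obtain ⟨w, hw, hdw⟩ := h.exists_proj hrD hvn (hR.sub hd)
    have hwf : w = F (v, r) := by
      by_contra hne
      have h3 : ({r, v, F (v, r), w} : Set G).ncard ≤ 3 := by
        rw [← hs r hrD v hvn]
        refine Set.ncard_le_ncard ?_ (Set.toFinite _)
        rintro x (rfl | rfl | rfl | rfl)
        exacts [(h.self_mem hrD hvn).1, (h.self_mem hrD hvn).2, hfL, hw]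
      rw [Set.ncard_insert_of_notMem (by
          rintro (e | e | e)
          exacts [hvn.2.1 e.symm, hF2 _ hp e.symm, hdC r hr (e ▸ hdw)]) (Set.toFinite _),
        Set.ncard_insert_of_notMem (by
          rintro (e | e)
          exacts [hF3 _ hp e.symm, hVd v hv (e ▸ hdw)]) (Set.toFinite _),
        Set.ncard_pair (Ne.symm hne)] at h3
      omega
    refine ⟨hfR, hfL.1, fun e => hdC r hr ?_, hwf ▸ hdw⟩
    have := (h.pl_subset_com hrD hvn hfL).2.1
    rwa [e] at this
  have hinj : Set.InjOn F (({a, b, c} : Set G) ×ˢ C) := by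
    rintro ⟨v, r⟩ hp ⟨w, r'⟩ hp' he
    obtain ⟨hv, hr⟩ := Set.mem_prod.1 hp
    obtain ⟨hw, hr'⟩ := Set.mem_prod.1 hp'
    obtain ⟨hvR, -, hvn⟩ := hVC r hr v hv
    obtain ⟨hwR, -, hwn⟩ := hVC r' hr' w hw
    have c1 := h.pl_subset_com (hR.sub hr.1) hvn (hF1 _ hp)
    have c2 := h.pl_subset_com (hR.sub hr'.1) hwn (hF1 _ hp')
    by_cases hvw : v = w
    · subst hvw
      refine Prod.ext rfl (h.inter_no_line hR ht ha hb hab hr hr' ?_)
      show Commute r r'
      have hvr : r ∈ nbr D v := h.mem_nbr_comm (hR.sub hr.1) hvn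
      have hvr' : r' ∈ nbr D v := h.mem_nbr_comm (hR.sub hr'.1) hwn
      have hvD := hR.sub hvR
      refine h.clique hvD hvr' ?_ (h.self_mem hvD hvr').2
      have m1 : F (v, r) ∈ pl D v r := by rw [pl_comm]; exact hF1 _ hp
      have m2 : F (v, r') ∈ pl D v r' := by rw [pl_comm]; exact hF1 _ hp'
      rw [← h.pl_eq hvD hvr' (h.self_mem hvD hvr').1 m2 (Ne.symm (hF3 _ hp')),
        ← show F (v, r) = F (v, r') from he,
        h.pl_eq hvD hvr (h.self_mem hvD hvr).1 m1 (Ne.symm (hF3 _ hp))]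
      exact (h.self_mem hvD hvr).2
    · exfalso
      have h1 : Commute (F (v, r)) v := c1.2.2
      have h2 : Commute (F (v, r)) w := by rw [show F (v, r) = F (w, r') from he]; exact c2.2.2
      have hfC : F (v, r) ∈ C := by
        refine ⟨(hFd _ hp).1, c1.1, ?_⟩
        obtain ⟨r1, r2, r3⟩ := h.tri_rel (x := F (v, r)) (hR.sub ha) (hR.sub hb) hab
        simp only [Set.mem_insert_iff, Set.mem_singleton_iff] at hv hw
        rcases hv with rfl | rfl | rfl <;> rcases hw with rfl | rfl | rfl <;>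
          first | exact absurd rfl hvw | exact ⟨h1, h2⟩ | exact ⟨h2, h1⟩ |
            exact ⟨h1, r2 h1 h2⟩ | exact ⟨h2, r2 h2 h1⟩ | exact ⟨r3 h1 h2, h1⟩ |
            exact ⟨r3 h2 h1, h2⟩
      exact hF2 _ hp (h.inter_no_line hR ht ha hb hab hfC hr c1.2.1)
  have h9 := Set.ncard_le_ncard_of_injOn F hFd hinj (Set.toFinite _)
  rw [Set.ncard_prod, hC3, hF.deg d hd,
    Set.ncard_insert_of_notMem (by
      rintro (e | e)
      exacts [hab (by rw [← e]), hac (show Commute a c by rw [← e])]) (Set.toFinite _),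
    Set.ncard_pair (fun e => hbc (show Commute b c by rw [← e]))] at h9
  omega

theorem noPlane (hs : ∀ a ∈ D, ∀ b ∈ nbr D a, (pl D a b).ncard = 3) : NoPlane D D := by
  refine h.good_induction (P := fun R => NoPlane D R)
    (fun R hR hl ht => h.noPlane_base hR hl ht hs) (fun R hR ht ih => ?_) h.good_univ h.hasLine_univ
  intro a ha b hb d hd hab had hbd
  -- a point of the common perp commuting with `d`
  obtain ⟨g, hg, k, hk, hgk⟩ := h.hasLine_inter hR ht ha hb hab
  obtain ⟨r, hr, hdr⟩ := h.exists_proj (hR.sub hg.1) hgk (hR.sub hd)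
  have hrR := (h.good_inter hR ha hb hab).line g hg k hk hgk hr
  have hrD := hR.sub hrR.1
  obtain ⟨u, hu, hru⟩ := hR.opp r hrR.1
  have hproj : ∀ v ∈ R, Commute r v → v ≠ r → ∃ w ∈ pl D r v,
      w ∈ R ∩ com D r u ∧ w ≠ r ∧ v ∈ nbr D r := by
    intro v hv hrv hne
    have hn : v ∈ nbr D r := ⟨hR.sub hv, hne, hrv⟩
    obtain ⟨w, hw, huw⟩ := h.exists_proj hrD hn (hR.sub hu)
    refine ⟨w, hw, ⟨hR.line r hrR.1 v hv hn hw, hw.1, (h.pl_subset_com hrD hn hw).2.1, huw.symm⟩,
      fun e => hru ?_, hn⟩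
    rw [e] at huw
    exact huw.symm
  have lift : ∀ {v w v' w' : G}, v ∈ nbr D r → w ∈ nbr D r → v' ∈ pl D r v → w' ∈ pl D r w →
      v' ≠ r → w' ≠ r → Commute v' w' → Commute v w := by
    intro v w v' w' hv hw hv' hw' hv'r hw'r hc
    have m1 : v' ∈ com D r w := by
      rw [← h.com_eq_left hrD hw hw' hw'r]
      exact ⟨hv'.1, (h.pl_subset_com hrD hv hv').2.1, hc⟩
    have m2 : w ∈ com D r v := by
      rw [← h.com_eq_left hrD hv hv' hv'r]
      exact ⟨hw.1, hw.2.2.symm, m1.2.2.symm⟩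
    exact m2.2.2.symm
  obtain ⟨a', haL, haR, hane, han⟩ := hproj a ha hrR.2.2.1 fun e => hab (e ▸ hrR.2.2.2)
  obtain ⟨b', hbL, hbR, hbne, hbn⟩ := hproj b hb hrR.2.2.2 fun e => hab (e ▸ hrR.2.2.1).symm
  obtain ⟨d', hdL, hdR, hdne, hdn⟩ := hproj d hd hdr.symm fun e => had (e ▸ hrR.2.2.1).symm
  have key := ih r hrR.1 u hu hru a' haR b' hbR d' hdR
    (fun hc => hab (lift han hbn haL hbL hane hbne hc))
    (fun hc => had (lift han hdn haL hdL hane hdne hc))
    (fun hc => hbd (lift hbn hdn hbL hdL hbne hdne hc))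
  set c := a * b * a with hc
  have hcn : c ∈ nbr D r := by
    refine ⟨h.conj_mem (hR.sub ha) (hR.sub hb), fun e => ?_,
      (han.2.2.mul_right hbn.2.2).mul_right han.2.2⟩
    exact (h.tri_not_commute (hR.sub ha) (hR.sub hb) hab).1 (show Commute a c from e.symm ▸ han.2.2.symm)
  have hc'L : a' * b' * a' ∈ pl D r c := by
    -- conjugate `b'` by `a`, then by `a' a`
    have h1 : a * b' * a ∈ pl D r c := by
      have := pl_conj h.ttg a r b
      rw [show a * r * a⁻¹ = r by rw [← han.2.2.eq, mul_inv_cancel_right]] at this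
      rw [hc, show a * b * a = a * b * a⁻¹ by rw [h.inv_eq (hR.sub ha)], this]
      exact ⟨b', hbL, by rw [h.inv_eq (hR.sub ha)]⟩
    have hne : a * b' * a ≠ r := fun e => hbne (by
      have : b' = a * r * a := by
        rw [← e]
        simp only [mul_assoc, tt_cancel_left h.ttg.1 (hR.sub ha), h.mul_self (hR.sub ha), mul_one]
      rw [this, ← han.2.2.eq, mul_assoc, h.mul_self (hR.sub ha), mul_one])
    by_cases haa : a' = a
    · rw [haa]; exact h1
    have hn1 : a * b' * a ∈ nbr D r := ⟨h1.1, hne, (h.pl_subset_com hrD hcn h1).2.1.symm⟩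
    have ha'n : a' ∈ nbr D r := ⟨haL.1, hane, (h.pl_subset_com hrD han haL).2.1.symm⟩
    have haL' : a ∈ pl D r a' := by
      rw [h.pl_eq hrD han (h.self_mem hrD han).1 haL hane.symm]; exact (h.self_mem hrD han).2
    have h2 := h.conj_mem_pl hrD ha'n haL' han.2.1 hn1
    rw [h.pl_eq hrD hcn (h.self_mem hrD hcn).1 h1 hne.symm, mul_inv_rev, h.inv_eq (hR.sub ha),
      h.inv_eq haL.1] at h2
    rwa [show a' * a * (a * b' * a) * (a * a') = a' * b' * a' by
      simp only [mul_assoc, tt_cancel_left h.ttg.1 (hR.sub ha)]] at h2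
  have hc'ne : a' * b' * a' ≠ r := fun e => hbne (by
    have : b' = a' * r * a' := by
      rw [← e]; simp only [mul_assoc, tt_cancel_left h.ttg.1 haL.1, h.mul_self haL.1, mul_one]
    rw [this, (h.pl_subset_com hrD han haL).2.1.eq, mul_assoc, h.mul_self haL.1, mul_one])
  exact lift hdn hcn hdL hc'L hdne hc'ne key

theorem row_injective : Set.InjOn (row D) D := by
  intro a ha b hb he
  refine h.eq_of_perp_subset h.good_univ ha hb fun g hg hga => ?_
  by_contra hgb
  have := congrFun he ⟨g, hg⟩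
  simp only [row, hga, hgb, if_true, if_false] at this
  exact zero_ne_one this

theorem row_ne_zero {a : G} (ha : a ∈ D) : row D a ≠ 0 := by
  obtain ⟨z, hz, haz⟩ := h.exists_noncommute ha
  intro e
  have := congrFun e ⟨z, hz⟩
  simp only [row, Pi.zero_apply, show ¬ Commute z a from fun hh => haz hh.symm, if_false] at this
  exact one_ne_zero this

theorem row_symm (a b : ↥D) : row D a.1 b = row D b.1 a := by
  simp only [row]
  split_ifs with h1 h2 h2
  · rfl
  · exact absurd h1.symm h2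
  · exact absurd h2.symm h1
  · rfl

theorem row_self (a : ↥D) : row D a.1 a = 0 := by simp only [row, Commute.refl, if_true]

theorem row_tri (hs : ∀ a ∈ D, ∀ b ∈ nbr D a, (pl D a b).ncard = 3) {a b : G} (ha : a ∈ D)
    (hb : b ∈ D) (hab : ¬ Commute a b) : row D (a * b * a) = row D a + row D b := by
  classical
  funext x
  obtain ⟨r1, r2, r3⟩ := h.tri_rel (x := (x : G)) ha hb hab
  simp only [row, Pi.add_apply]
  by_cases h1 : Commute (x : G) a <;> by_cases h2 : Commute (x : G) b
  · rw [if_pos h1, if_pos h2, if_pos (r1 h1 h2), add_zero]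
  · rw [if_pos h1, if_neg h2, if_neg (fun h3 => h2 (r2 h1 h3)), zero_add]
  · rw [if_neg h1, if_pos h2, if_neg (fun h3 => h1 (r3 h2 h3)), add_zero]
  · rw [if_neg h1, if_neg h2, if_pos (h.noPlane hs a ha b hb x.1 x.2 hab (fun hh => h1 hh.symm)
      fun hh => h2 hh.symm)]
    decide

theorem row_line (hs : ∀ a ∈ D, ∀ b ∈ nbr D a, (pl D a b).ncard = 3) {a b c : G} (ha : a ∈ D)
    (hb : b ∈ nbr D a) (hc : c ∈ pl D a b) (hca : c ≠ a) (hcb : c ≠ b) :
    row D c = row D a + row D b := by
  classical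
  funext x
  obtain ⟨haL, hbL⟩ := h.self_mem ha hb
  have hmem : ∀ f ∈ pl D a b, f = a ∨ f = b ∨ f = c := by
    intro f hf
    by_contra hne
    simp only [not_or] at hne
    have h4 : ({a, b, c, f} : Set G).ncard ≤ 3 := by
      rw [← hs a ha b hb]
      refine Set.ncard_le_ncard ?_ (Set.toFinite _)
      rintro y (rfl | rfl | rfl | rfl)
      exacts [haL, hbL, hc, hf]
    rw [Set.ncard_insert_of_notMem (by
        rintro (e | e | e)
        exacts [hb.2.1 e.symm, hca e.symm, hne.1 e.symm]) (Set.toFinite _),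
      Set.ncard_insert_of_notMem (by
        rintro (e | e)
        exacts [hcb e.symm, hne.2.1 e.symm]) (Set.toFinite _),
      Set.ncard_pair (Ne.symm hne.2.2)] at h4
    omega
  simp only [row, Pi.add_apply]
  by_cases h1 : Commute (x : G) a <;> by_cases h2 : Commute (x : G) b
  · rw [if_pos h1, if_pos h2, if_pos (h.commute_line ha hb haL hbL hb.2.1.symm x.2 h1 h2 hc), add_zero]
  · rw [if_pos h1, if_neg h2,
      if_neg (fun h3 => h2 (h.commute_line ha hb haL hc (Ne.symm hca) x.2 h1 h3 hbL)), zero_add]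
  · rw [if_neg h1, if_pos h2,
      if_neg (fun h3 => h1 (h.commute_line ha hb hbL hc (Ne.symm hcb) x.2 h2 h3 haL)), add_zero]
  · rw [if_neg h1, if_neg h2]
    obtain ⟨w, hw, hxw⟩ := h.exists_proj ha hb x.2
    rcases hmem w hw with rfl | rfl | rfl
    · exact absurd hxw h1
    · exact absurd hxw h2
    · rw [if_pos hxw]; decide

theorem exists_iso_sp (hs : ∀ a ∈ D, ∀ b ∈ nbr D a, (pl D a b).ncard = 3) :
    ∃ n : ℕ, Nonempty (G ≃* Matrix.symplecticGroup (Fin n) (ZMod 2)) := by
  classical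
  have hadd : ∀ a ∈ D, ∀ b ∈ D, a ≠ b → ∃ c ∈ D, row D c = row D a + row D b := by
    intro a ha b hb hne
    by_cases hab : Commute a b
    · have hn : b ∈ nbr D a := ⟨hb, hne.symm, hab⟩
      obtain ⟨c, hc, hca, hcb⟩ := h.exists_third ha hn
      exact ⟨c, hc.1, h.row_line hs ha hn hc hca hcb⟩
    · exact ⟨_, h.conj_mem ha hb, h.row_tri hs ha hb hab⟩
  let W : Submodule (ZMod 2) (↥D → ZMod 2) :=
    { carrier := insert 0 (row D '' D)
      zero_mem' := Set.mem_insert _ _
      add_mem' := by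
        rintro _ _ (rfl | ⟨a, ha, rfl⟩) (rfl | ⟨b, hb, rfl⟩)
        · exact Or.inl (add_zero 0)
        · exact Or.inr ⟨b, hb, (zero_add _).symm⟩
        · exact Or.inr ⟨a, ha, (add_zero _).symm⟩
        · by_cases hne : a = b
          · subst hne; exact Or.inl (funext fun x => CharTwo.add_self_eq_zero _)
          · obtain ⟨c, hc, e⟩ := hadd a ha b hb hne
            exact Or.inr ⟨c, hc, e⟩
      smul_mem' := by
        intro t v hv
        fin_cases t
        · exact Or.inl (zero_smul _ v)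
        · show (1 : ZMod 2) • v ∈ _
          rw [one_smul]; exact hv }
  haveI : FiniteDimensional (ZMod 2) ↥W := Module.Finite.of_finite
  let R : ↥D → ↥W := fun a => ⟨row D a.1, Or.inr ⟨a.1, a.2, rfl⟩⟩
  have hWcases : ∀ w : ↥W, w = 0 ∨ ∃ a : ↥D, R a = w := by
    rintro ⟨w, (rfl | ⟨a, ha, rfl⟩)⟩
    · exact Or.inl rfl
    · exact Or.inr ⟨⟨a, ha⟩, rfl⟩
  have hR0 : ∀ a : ↥D, R a ≠ 0 := fun a e => h.row_ne_zero a.2 (congrArg Subtype.val e)
  have hRinj : Function.Injective R := fun a b e =>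
    Subtype.ext (h.row_injective a.2 b.2 (congrArg Subtype.val e))
  choose ψ hψ using fun v : {w : ↥W // w ≠ 0} => (hWcases v.1).resolve_left v.2
  let Bf : ↥W → ↥W → ZMod 2 := fun v w => if hv : v = 0 then 0 else w.1 (ψ ⟨v, hv⟩)
  have hBR : ∀ (a : ↥D) (w : ↥W), Bf (R a) w = w.1 a := by
    intro a w
    simp only [Bf, dif_neg (hR0 a)]
    rw [hRinj (hψ ⟨R a, hR0 a⟩)]
  have hB0 : ∀ w : ↥W, Bf 0 w = 0 := fun w => dif_pos rfl
  have hsymm : ∀ v w : ↥W, Bf v w = Bf w v := by
    intro v w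
    rcases hWcases v with rfl | ⟨a, rfl⟩ <;> rcases hWcases w with rfl | ⟨b, rfl⟩
    · rfl
    · rw [hB0, hBR]; rfl
    · rw [hBR, hB0]; rfl
    · rw [hBR, hBR]; exact h.row_symm b a
  have haddr : ∀ v w w' : ↥W, Bf v (w + w') = Bf v w + Bf v w' := by
    intro v w w'
    rcases hWcases v with rfl | ⟨a, rfl⟩
    · simp [hB0]
    · simp [hBR]
  have hsmulr : ∀ (t : ZMod 2) (v w : ↥W), Bf v (t • w) = t * Bf v w := by
    intro t v w
    rcases hWcases v with rfl | ⟨a, rfl⟩
    · simp [hB0]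
    · simp [hBR]
  let B : LinearMap.BilinForm (ZMod 2) ↥W := LinearMap.mk₂ (ZMod 2) Bf
    (fun v v' w => by rw [hsymm, haddr, hsymm w v, hsymm w v'])
    (fun t v w => by rw [hsymm, hsmulr, hsymm w v]; rfl) haddr hsmulr
  have hBA : B.IsAlt := by
    intro v
    show Bf v v = 0
    rcases hWcases v with rfl | ⟨a, rfl⟩
    · exact hB0 0
    · rw [hBR]; exact h.row_self a
  have hker : LinearMap.ker B = ⊥ := by
    rw [LinearMap.ker_eq_bot']
    intro v hv
    rcases hWcases v with rfl | ⟨a, rfl⟩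
    · rfl
    · exfalso
      obtain ⟨z, hz, haz⟩ := h.exists_noncommute a.2
      have := LinearMap.congr_fun hv (R ⟨z, hz⟩)
      rw [show B (R a) (R ⟨z, hz⟩) = Bf (R a) (R ⟨z, hz⟩) from rfl, hBR] at this
      simp only [R, row, if_neg haz, LinearMap.zero_apply] at this
      exact one_ne_zero this
  -- the action
  let cj : G → ↥D → ↥D := fun g x => ⟨g⁻¹ * x.1 * g, by simpa using h.ttg.2.1 g⁻¹ x.1 x.2⟩
  have hrowc : ∀ (g : G) (a : G), a ∈ D → (fun x => row D a (cj g x)) = row D (g * a * g⁻¹) := by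
    intro g a _
    funext x
    simp only [row, cj]
    refine if_congr ?_ rfl rfl
    rw [← commute_conj_iff' (g := g), show g * (g⁻¹ * x.1 * g) * g⁻¹ = x.1 by group]
  let L : G → ↥W →ₗ[ZMod 2] ↥W := fun g =>
    { toFun := fun w => ⟨fun x => w.1 (cj g x), by
        rcases hWcases w with rfl | ⟨a, rfl⟩
        · exact Or.inl rfl
        · exact Or.inr ⟨_, h.ttg.2.1 g a.1 a.2, (hrowc g a.1 a.2).symm⟩⟩
      map_add' := fun _ _ => rfl
      map_smul' := fun _ _ => rfl }
  have hL1 : ∀ w, L 1 w = w := fun w => Subtype.ext (funext fun x => by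
    show w.1 (cj 1 x) = w.1 x
    exact congrArg w.1 (show cj 1 x = x from Subtype.ext (by
      show (1 : G)⁻¹ * x.1 * 1 = x.1; simp)))
  have hLmul : ∀ g k w, L (g * k) w = L g (L k w) := fun g k w => Subtype.ext (funext fun x => by
    show w.1 (cj (g * k) x) = w.1 (cj k (cj g x))
    exact congrArg w.1 (show cj (g * k) x = cj k (cj g x) from Subtype.ext (by
      show (g * k)⁻¹ * x.1 * (g * k) = k⁻¹ * (g⁻¹ * x.1 * g) * k; group)))
  let Le : G → (↥W ≃ₗ[ZMod 2] ↥W) := fun g =>
    LinearEquiv.ofLinearMap (L g) (L g⁻¹)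
      (LinearMap.ext fun w => by
        show L g (L g⁻¹ w) = w; rw [← hLmul, mul_inv_cancel, hL1])
      (LinearMap.ext fun w => by
        show L g⁻¹ (L g w) = w; rw [← hLmul, inv_mul_cancel, hL1])
  have hLR : ∀ g (a : ↥D), L g (R a) = R ⟨g * a.1 * g⁻¹, h.ttg.2.1 g a.1 a.2⟩ := fun g a =>
    Subtype.ext (hrowc g a.1 a.2)
  have hiso : ∀ g, Le g ∈ isoGroup B := by
    intro g v w
    show Bf (L g v) (L g w) = Bf v w
    rcases hWcases v with rfl | ⟨a, rfl⟩
    · rw [map_zero, hB0, hB0]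
    · rw [hLR, hBR, hBR]
      show w.1 (cj g _) = w.1 a
      exact congrArg w.1 (show cj g ⟨g * a.1 * g⁻¹, h.ttg.2.1 g a.1 a.2⟩ = a from Subtype.ext (by
        show g⁻¹ * (g * a.1 * g⁻¹) * g = a.1; group))
  let ρ : G →* isoGroup B :=
    { toFun := fun g => ⟨Le g, hiso g⟩
      map_one' := iso_ext hL1
      map_mul' := fun g k => iso_ext fun w => hLmul g k w }
  have hρinj : Function.Injective ρ := by
    rw [injective_iff_map_eq_one]
    intro g hg
    refine h.central g fun d hd => ?_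
    have h1 : L g (R ⟨d, hd⟩) = R ⟨d, hd⟩ :=
      congrArg (fun f : isoGroup B => (f : ↥W ≃ₗ[ZMod 2] ↥W) (R ⟨d, hd⟩)) hg
    rw [hLR] at h1
    have h2 := congrArg Subtype.val (hRinj h1)
    show g * d = d * g
    simp only at h2
    conv_rhs => rw [← h2]
    rw [inv_mul_cancel_right]
  have hρd : ∀ (d : ↥D) (w : ↥W), L d.1 w = w + Bf w (R d) • R d := by
    intro d w
    rcases hWcases w with rfl | ⟨a, rfl⟩
    · rw [map_zero, hB0, zero_smul, add_zero]
    · rw [hLR, hBR]
      by_cases hc : Commute a.1 d.1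
      · have e : (R d).1 a = 0 := by simp only [R, row, if_pos hc]
        rw [e, zero_smul, add_zero]
        exact congrArg R (Subtype.ext
          (show d.1 * a.1 * d.1⁻¹ = a.1 by rw [← hc.eq, mul_inv_cancel_right]))
      · have e : (R d).1 a = 1 := by simp only [R, row, if_neg hc]
        rw [e, one_smul]
        refine Subtype.ext ?_
        show row D (d.1 * a.1 * d.1⁻¹) = row D a.1 + row D d.1
        rw [h.inv_eq d.2, h.row_tri hs d.2 a.2 fun hh => hc hh.symm, add_comm]
  obtain ⟨n, b, -, hef, hee, hff⟩ := CfsgLib.LinAlg.Witt.exists_symplectic_basis B hBA hker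
  let U := b.equiv (Pi.basisFun (ZMod 2) (Fin n ⊕ Fin n)) (Equiv.sumComm _ _)
  have hU : (sympB n (ZMod 2)).compl₁₂ (U : ↥W →ₗ[ZMod 2] _) (U : ↥W →ₗ[ZMod 2] _) = B := by
    refine b.ext fun i => b.ext fun j => ?_
    simp only [LinearMap.compl₁₂_apply, LinearEquiv.coe_coe, U, Module.Basis.equiv_apply,
      Pi.basisFun_apply, sympB_apply]
    rcases i with i | i <;> rcases j with j | j
    · rw [hee]; exact Classical.Symp.form_stdE_stdE i j
    · rw [hef]; exact Classical.Symp.form_stdE_stdF i j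
    · rw [← LinearMap.IsAlt.neg hBA (b (.inl j)) (b (.inr i)), hef]
      refine (Classical.Symp.form_stdF_stdE i j).trans ?_
      by_cases hij : i = j
      · subst hij; simp
      · simp [hij, Ne.symm hij]
    · rw [hff]; exact Classical.Symp.form_stdF_stdF i j
  have hUB : ∀ u v, sympB n (ZMod 2) (U u) (U v) = 1 * B u v := by
    intro u v; rw [one_mul, ← hU]; rfl
  let E : G →* Matrix.symplecticGroup (Fin n) (ZMod 2) :=
    ((transport U one_ne_zero hUB).trans (stdSympEquiv n)).toMonoidHom.comp ρ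
  have hEinj : Function.Injective E :=
    ((transport U one_ne_zero hUB).trans (stdSympEquiv n)).injective.comp hρinj
  have hEd : ∀ d : ↥D, E d.1 = Classical.Symp.spT (U (R d)) 1 := by
    intro d
    refine Classical.Symp.symp_ext fun x => ?_
    rw [Classical.Symp.spT_mulVec]
    show LinearMap.toMatrix' _ *ᵥ x = _
    rw [← Matrix.toLin'_apply, Matrix.toLin'_toMatrix']
    show U (L d.1 (U.symm x)) = _
    rw [hρd, map_add, map_smul, U.apply_symm_apply, one_mul, ← sympB_apply]
    congr 2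
    show B (U.symm x) (R d) = _
    rw [← one_mul (B _ _), ← hUB, U.apply_symm_apply]
  have hsurj : Function.Surjective E := by
    intro g
    refine Classical.Symp.symp_induction (P := fun g => ∃ k, E k = g) ⟨1, map_one E⟩
      (fun v c => ?_) (fun _ _ ⟨k, hk⟩ ⟨l, hl⟩ => ⟨k * l, by rw [map_mul, hk, hl]⟩) g
    by_cases hv : v = 0
    · subst hv; exact ⟨1, by rw [map_one, Classical.Symp.spT_zero_left]⟩
    fin_cases c
    · exact ⟨1, by rw [map_one]; exact (Classical.Symp.spT_zero v).symm⟩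
    · rcases hWcases (U.symm v) with h0 | ⟨a, ha⟩
      · exact absurd (by rw [← U.apply_symm_apply v, h0, map_zero]) hv
      · refine ⟨a.1, ?_⟩
        rw [hEd, ha, U.apply_symm_apply]; rfl
  exact ⟨n, ⟨MulEquiv.ofBijective E ⟨hEinj, hsurj⟩⟩⟩

end Hyp

end CfsgLib.FischerPolar
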