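import Mathlib
import Cfsg.Agent.FischerPolar.RankTwo
import Cfsg.Agent.FischerPolar.Two

/-!
Lines of five points: the product of a line, and the hyperbolic lines of three points.
-/

set_option autoImplicit false
set_option linter.unusedSectionVars false
set_option linter.style.haveILetI false

namespace CfsgLib.FischerPolar

open Cfsg CfsgLib.ThreeTransp CfsgLib.FischerGQ

variable {G : Type*} [Group G] {D : Set G}

/-- A non-commuting pair and its transform are all the members commuting with their common perp. -/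
def HypLine (D R : Set G) : Prop :=
  ∀ p ∈ R, ∀ q ∈ R, ∀ d ∈ R, ¬ Commute p q → (∀ g ∈ R ∩ com D p q, Commute d g) →
    d = p ∨ d = q ∨ d = p * q * p

namespace Hyp

variable [Finite G] (h : Hyp D)

include h

theorem line_exhaust {a b : G} (ha : a ∈ D) (hb : b ∈ nbr D a)
    (hs : (pl D a b).ncard = 5) {x y z w v f : G} (hx : x ∈ pl D a b) (hy : y ∈ pl D a b)
    (hz : z ∈ pl D a b) (hw : w ∈ pl D a b) (hv : v ∈ pl D a b) (hxy : x ≠ y) (hxz : x ≠ z)
    (hxw : x ≠ w) (hxv : x ≠ v) (hyz : y ≠ z) (hyw : y ≠ w) (hyv : y ≠ v) (hzw : z ≠ w)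
    (hzv : z ≠ v) (hwv : w ≠ v) (hf : f ∈ pl D a b) :
    f = x ∨ f = y ∨ f = z ∨ f = w ∨ f = v := by
  have hsub : ({x, y, z, w, v} : Set G) ⊆ pl D a b := by
    rintro g (rfl | rfl | rfl | rfl | rfl) <;> assumption
  have heq : ({x, y, z, w, v} : Set G) = pl D a b := by
    refine Set.eq_of_subset_of_ncard_le hsub ?_ (Set.toFinite _)
    rw [hs, Set.ncard_insert_of_notMem (by simp [hxy, hxz, hxw, hxv]),
      Set.ncard_insert_of_notMem (by simp [hyz, hyw, hyv]),
      Set.ncard_insert_of_notMem (by simp [hzw, hzv]), Set.ncard_pair hwv]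
  rw [← heq] at hf
  exact hf

/-- The product of the five points of a line is trivial. -/
theorem line_prod {a b : G} (ha : a ∈ D) (hb : b ∈ nbr D a)
    (hs : (pl D a b).ncard = 5) {x y z w v : G} (hx : x ∈ pl D a b) (hy : y ∈ pl D a b)
    (hz : z ∈ pl D a b) (hw : w ∈ pl D a b) (hv : v ∈ pl D a b) (hxy : x ≠ y) (hxz : x ≠ z)
    (hxw : x ≠ w) (hxv : x ≠ v) (hyz : y ≠ z) (hyw : y ≠ w) (hyv : y ≠ v) (hzw : z ≠ w)
    (hzv : z ≠ v) (hwv : w ≠ v) : x * y * z * w * v = 1 := by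
  have cl := fun {f g : G} (hf : f ∈ pl D a b) (hg : g ∈ pl D a b) => h.clique ha hb hf hg
  -- if the probe commutes with the first point only
  have key : ∀ t x y z w v : G, t ∈ D → x ∈ pl D a b → y ∈ pl D a b → z ∈ pl D a b →
      w ∈ pl D a b → v ∈ pl D a b → x ≠ y → x ≠ z → x ≠ w → x ≠ v → y ≠ z → y ≠ w → y ≠ v →
      z ≠ w → z ≠ v → w ≠ v → Commute t x → ¬ Commute t v →
      Commute t (x * y * z * w * v) := by
    intro t x y z w v ht hx hy hz hw hv hxy hxz hxw hxv hyz hyw hyv hzw hzv hwv htx htv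
    have honly : ∀ f ∈ pl D a b, f ≠ x → ¬ Commute t f :=
      fun f hf hne hc => hne (h.unique_proj ha hb hf hx hv ht htv hc htx)
    have hyn : z ∈ nbr D y := ⟨hz.1, hyz.symm, cl hy hz⟩
    have hL : pl D y z = pl D a b := h.pl_eq ha hb hy hz hyz
    obtain ⟨m1, m2, m3, m4, m5⟩ := h.star_props hy.1 hyn (hL.symm ▸ hw : w ∈ pl D y z) hyw.symm
      hzw.symm ht (honly y hy hxy.symm) (honly z hz hxz.symm) (honly w hw hxw.symm)
    set S := star4 t (y * (z * w)) with hS
    rw [hL] at m1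
    rcases h.line_exhaust ha hb hs hx hy hz hw hv hxy hxz hxw hxv hyz hyw hyv hzw hzv hwv m1 with
      e | e | e | e | e
    · exact absurd (e ▸ htx) m5
    · exact absurd e m2
    · exact absurd e m3
    · exact absurd e m4
    set u := y * (z * w) with hu
    have hu2 : u * u = 1 := by
      rw [hu, ((cl hy hz).mul_right (cl hy hw)).symm.mul_mul_mul_comm,
        (cl hz hw).symm.mul_mul_mul_comm, h.mul_self hy.1, h.mul_self hz.1, h.mul_self hw.1,
        one_mul, one_mul]
    have h1 : t * S * t = u * t * u := by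
      rw [hS, star4]
      simp only [mul_assoc, tt_cancel_left h.ttg.1 ht, h.mul_self ht, mul_one]
    have h2 : Commute t (S * u) := by
      show t * (S * u) = S * u * t
      calc t * (S * u) = (S * S) * t * S * u := by rw [h.mul_self m1.1, one_mul, mul_assoc]
        _ = S * (S * t * S) * u := by simp only [mul_assoc]
        _ = S * (u * t * u) * u := by rw [← h.braid ht m1.1 m5, h1]
        _ = S * u * t := by simp only [mul_assoc, hu2, mul_one]
    have he : x * y * z * w * v = x * (S * u) := by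
      have c : Commute v u := (cl hv hy).mul_right ((cl hv hz).mul_right (cl hv hw))
      rw [e, c.eq, hu]; simp only [mul_assoc]
    rw [he]
    exact htx.mul_right h2
  refine h.central _ fun t ht => ?_
  symm
  by_cases hall : Commute t x ∧ Commute t y
  · have := fun {f : G} (hf : f ∈ pl D a b) => h.commute_line ha hb hx hy hxy ht hall.1 hall.2 hf
    exact ((((this hx).mul_right (this hy)).mul_right (this hz)).mul_right (this hw)).mul_right
      (this hv)
  obtain ⟨c, hc, htc⟩ := h.exists_proj ha hb ht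
  rcases h.line_exhaust ha hb hs hx hy hz hw hv hxy hxz hxw hxv hyz hyw hyv hzw hzv hwv hc with
    e | e | e | e | e <;> subst e
  · by_cases hv' : Commute t v
    · exact absurd ⟨htc, h.commute_line ha hb hx hv hxv ht htc hv' hy⟩ hall
    · exact key t _ _ _ _ _ ht hx hy hz hw hv hxy hxz hxw hxv hyz hyw hyv hzw hzv hwv htc hv'
  · by_cases hv' : Commute t v
    · exact absurd ⟨h.commute_line ha hb hy hv hyv ht htc hv' hx, htc⟩ hall
    · have := key t c x z w v ht hy hx hz hw hv hxy.symm hyz hyw hyv hxz hxw hxv hzw hzv hwv htc hv'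
      rwa [(cl hy hx).eq] at this
  · by_cases hv' : Commute t v
    · exact absurd ⟨h.commute_line ha hb hz hv hzv ht htc hv' hx,
        h.commute_line ha hb hz hv hzv ht htc hv' hy⟩ hall
    · have := key t c x y w v ht hz hx hy hw hv hxz.symm hyz.symm hzw hzv hxy hxw hxv hyw hyv hwv
        htc hv'
      rwa [((cl hz hx)).eq, mul_assoc x c y, (cl hz hy).eq, ← mul_assoc] at this
  · by_cases hv' : Commute t v
    · exact absurd ⟨h.commute_line ha hb hw hv hwv ht htc hv' hx,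
        h.commute_line ha hb hw hv hwv ht htc hv' hy⟩ hall
    · have := key t c x y z v ht hw hx hy hz hv hxw.symm hyw.symm hzw.symm hwv hxy hxz hxv hyz hyv
        hzv htc hv'
      rwa [show c * x * y * z = x * y * z * c by
        rw [mul_assoc c x y, mul_assoc c (x * y) z,
          (((cl hw hx).mul_right (cl hw hy)).mul_right (cl hw hz)).eq]] at this
  · by_cases hx' : Commute t x
    · exact absurd ⟨hx', h.commute_line ha hb hx hv hxv ht hx' htc hy⟩ hall
    · have := key t c y z w x ht hv hy hz hw hx hyv.symm hzv.symm hwv.symm hxv.symm hyz hyw hxy.symm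
        hzw hxz.symm hxw.symm htc hx'
      rwa [show c * y * z * w * x = x * y * z * w * c by
        rw [show c * y * z * w * x = c * ((y * (z * w)) * x) by simp only [mul_assoc],
          (((cl hy hx)).mul_left ((cl hz hx).mul_left (cl hw hx))).eq,
          ((cl hv hx).mul_right ((cl hv hy).mul_right ((cl hv hz).mul_right (cl hv hw)))).eq]
        simp only [mul_assoc]] at this

/-- Lifting commuting along the lines through a point. -/
theorem lift_commute {r v w v' w' : G} (hr : r ∈ D) (hv : v ∈ nbr D r) (hw : w ∈ nbr D r)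
    (hv' : v' ∈ pl D r v) (hw' : w' ∈ pl D r w) (hv'r : v' ≠ r) (hw'r : w' ≠ r)
    (hc : Commute v' w') : Commute v w := by
  have m1 : v' ∈ com D r w := by
    rw [← h.com_eq_left hr hw hw' hw'r]
    exact ⟨hv'.1, (h.pl_subset_com hr hv hv').2.1, hc⟩
  have m2 : w ∈ com D r v := by
    rw [← h.com_eq_left hr hv hv' hv'r]
    exact ⟨hw.1, hw.2.2.symm, m1.2.2.symm⟩
  exact m2.2.2.symm

/-- Lifting a transform along the lines through a point. -/
theorem lift_tri {r a b a' b' : G} (hr : r ∈ D) (ha : a ∈ nbr D r) (hb : b ∈ nbr D r)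
    (haL : a' ∈ pl D r a) (hbL : b' ∈ pl D r b) (hane : a' ≠ r) (hbne : b' ≠ r) :
    a * b * a ∈ nbr D r ∧ a' * b' * a' ∈ pl D r (a * b * a) ∧ a' * b' * a' ≠ r := by
  have conj_ne : ∀ u t : G, u ∈ D → Commute r u → u * t * u = r → t = r := by
    intro u t hu hru he
    calc t = u * (u * t * u) * u := by
          simp only [mul_assoc, tt_cancel_left h.ttg.1 hu, h.mul_self hu, mul_one]
      _ = u * r * u := by rw [he]
      _ = r := by rw [← hru.eq, mul_assoc, h.mul_self hu, mul_one]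
  have hcn : a * b * a ∈ nbr D r :=
    ⟨h.conj_mem ha.1 hb.1, fun e => hb.2.1 (conj_ne a b ha.1 ha.2.2 e),
      (ha.2.2.mul_right hb.2.2).mul_right ha.2.2⟩
  have ha'n : a' ∈ nbr D r := ⟨haL.1, hane, (h.pl_subset_com hr ha haL).2.1.symm⟩
  refine ⟨hcn, ?_, fun e => hbne (conj_ne a' b' haL.1 ha'n.2.2 e)⟩
  have h1 : a * b' * a ∈ pl D r (a * b * a) := by
    have := pl_conj h.ttg a r b
    rw [show a * r * a⁻¹ = r by rw [← ha.2.2.eq, mul_inv_cancel_right]] at this
    rw [show a * b * a = a * b * a⁻¹ by rw [h.inv_eq ha.1], this]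
    exact ⟨b', hbL, by rw [h.inv_eq ha.1]⟩
  by_cases haa : a' = a
  · rw [haa]; exact h1
  have hne : a * b' * a ≠ r := fun e => hbne (conj_ne a b' ha.1 ha.2.2 e)
  have hn1 : a * b' * a ∈ nbr D r := ⟨h1.1, hne, (h.pl_subset_com hr hcn h1).2.1.symm⟩
  have haL' : a ∈ pl D r a' := by
    rw [h.pl_eq hr ha (h.self_mem hr ha).1 haL hane.symm]; exact (h.self_mem hr ha).2
  have h2 := h.conj_mem_pl hr ha'n haL' ha.2.1 hn1
  rw [h.pl_eq hr hcn (h.self_mem hr hcn).1 h1 hne.symm, mul_inv_rev, h.inv_eq ha.1,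
    h.inv_eq haL.1] at h2
  rwa [show a' * a * (a * b' * a) * (a * a') = a' * b' * a' by
    simp only [mul_assoc, tt_cancel_left h.ttg.1 ha.1]] at h2

/-- The members commuting with a point and with one of a pairwise non-commuting set about it. -/
theorem ncard_through {R : Set G} (hR : Good D R) (ht : ¬ Tri D R)
    (hs : ∀ a ∈ D, ∀ b ∈ nbr D a, (pl D a b).ncard = 5) {r : G} (hr : r ∈ R) {S : Finset G}
    (hS : ∀ v ∈ S, v ∈ R ∩ nbr D r) (hnc : ∀ v ∈ S, ∀ w ∈ S, Commute v w → v = w) :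
    {z | z ∈ R ∩ nbr D r ∧ ∃ v ∈ S, Commute z v}.ncard = 4 * S.card := by
  classical
  haveI := Fintype.ofFinite G
  have hrD := hR.sub hr
  have heq : {z | z ∈ R ∩ nbr D r ∧ ∃ v ∈ S, Commute z v} =
      ↑(S.biUnion fun v => (pl D r v \ {r}).toFinset) := by
    ext z
    simp only [Finset.coe_biUnion, Finset.mem_coe, Set.coe_toFinset, Set.mem_iUnion, exists_prop,
      Set.mem_ofPred_eq]
    constructor
    · rintro ⟨⟨hz, hzn⟩, v, hv, hzv⟩
      refine ⟨v, hv, ?_, hzn.2.1⟩
      by_contra hzL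
      exact ht ⟨r, hr, v, (hS v hv).1, z, hz, (hS v hv).2, hzn.2.2.symm, hzv, hzL⟩
    · rintro ⟨v, hv, hzL, hzr⟩
      have hc := h.pl_subset_com hrD (hS v hv).2 hzL
      exact ⟨⟨hR.line r hr v (hS v hv).1 (hS v hv).2 hzL, hzL.1, hzr, hc.2.1.symm⟩, v, hv, hc.2.2⟩
  rw [heq, Set.ncard_coe_finset, Finset.card_biUnion, Finset.sum_const_nat (m := 4), mul_comm]
  · intro v hv
    rw [← Set.ncard_eq_toFinset_card',
      Set.ncard_sdiff_singleton_of_mem (h.self_mem hrD (hS v hv).2).1, hs r hrD v (hS v hv).2]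
  · intro v hv w hw hvw
    rw [Function.onFun, Set.disjoint_toFinset, Set.disjoint_left]
    rintro f ⟨hf, hfr⟩ ⟨hf', -⟩
    apply hvw
    refine hnc v hv w hw (h.lift_commute hrD (hS v hv).2 (hS w hw).2 hf hf' hfr hfr (Commute.refl f))

theorem hypLine_base {R : Set G} (hR : Good D R) (hl : HasLine D R) (ht : ¬ Tri D R)
    (hs : ∀ a ∈ D, ∀ b ∈ nbr D a, (pl D a b).ncard = 5) : HypLine D R := by
  classical
  haveI := Fintype.ofFinite G
  intro p hp q hq d hd hpq hdC
  by_contra hne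
  push Not at hne
  obtain ⟨hdp, hdq, hdc⟩ := hne
  obtain ⟨s, t, hF⟩ := h.twoFacts hR hl ht
  obtain ⟨g, hg, hgn⟩ := h.exists_mate_of_hasLine hR hl hp
  have hs4 : s = 4 := by
    have h1 := hF.line p hp g hg hgn
    rw [hs p (hR.sub hp) g hgn] at h1
    omega
  subst hs4
  have ht28 : t = 2 ∨ t = 8 := by
    rcases hF.cases with ⟨h1, _⟩ | ⟨_, h2⟩ | ⟨_, h2⟩
    · omega
    · exact Or.inl h2
    · exact Or.inr h2
  set c := p * q * p with hc
  have hcR : c ∈ R := hR.conj p hp q hq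
  have hpD := hR.sub hp
  have hqD := hR.sub hq
  obtain ⟨hpc, hqc⟩ := h.tri_not_commute hpD hqD hpq
  rw [← hc] at hpc hqc
  set C := R ∩ com D p q with hCdef
  have hCcard : C.ncard = t + 1 := hF.common p hp q hq hpq
  have hCnc : ∀ r ∈ C, ∀ r' ∈ C, Commute r r' → r = r' :=
    fun r hr r' hr' => h.inter_no_line hR ht hp hq hpq hr hr'
  set S : Finset G := {p, q, c, d} with hS
  have hSR : ∀ v ∈ S, v ∈ R ∧ ∀ r ∈ C, Commute r v := by
    intro v hv
    simp only [hS, Finset.mem_insert, Finset.mem_singleton] at hv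
    rcases hv with rfl | rfl | rfl | rfl
    · exact ⟨hp, fun r hr => hr.2.2.1⟩
    · exact ⟨hq, fun r hr => hr.2.2.2⟩
    · exact ⟨hcR, fun r hr => (hr.2.2.1.mul_right hr.2.2.2).mul_right hr.2.2.1⟩
    · exact ⟨hd, fun r hr => (hdC r hr).symm⟩
  have two_le : 2 ≤ C.ncard := by rw [hCcard]; omega
  obtain ⟨r₁, hr₁, r₂, hr₂, hr12⟩ := (Set.one_lt_ncard (Set.toFinite C)).1 two_le
  have hdv : ∀ v ∈ S, v ≠ d → ¬ Commute d v := by
    intro v hv hvd hcm
    obtain ⟨hvR, hvC⟩ := hSR v hv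
    have hdn : d ∈ nbr D v := ⟨hR.sub hd, Ne.symm hvd, hcm.symm⟩
    have mk : ∀ r ∈ C, r ∈ R ∩ pl D v d := by
      intro r hr
      refine ⟨hr.1, ?_⟩
      by_contra hrL
      exact ht ⟨v, hvR, d, hd, r, hr.1, hdn, hvC r hr, (hdC r hr).symm, hrL⟩
    exact hr12 (hCnc r₁ hr₁ r₂ hr₂
      (h.clique (hR.sub hvR) hdn (mk r₁ hr₁).2 (mk r₂ hr₂).2))
  have hSnc : ∀ v ∈ S, ∀ w ∈ S, Commute v w → v = w := by
    intro v hv w hw hvw
    by_contra hne'
    by_cases hvd : v = d
    · subst hvd; exact hdv w hw (Ne.symm hne') hvw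
    by_cases hwd : w = d
    · subst hwd; exact hdv v hv hne' hvw.symm
    simp only [hS, Finset.mem_insert, Finset.mem_singleton] at hv hw
    rcases hv with rfl | rfl | rfl | rfl <;> rcases hw with rfl | rfl | rfl | rfl <;>
      first | exact hne' rfl | exact hvd rfl | exact hwd rfl | exact hpq hvw | exact hpq hvw.symm |
        exact hpc hvw | exact hpc hvw.symm | exact hqc hvw | exact hqc hvw.symm
  have hScard : S.card = 4 := by
    have e1 : p ≠ q := fun e => hpq (e ▸ Commute.refl p)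
    have e2 : p ≠ c := fun e => hpc (e.symm ▸ Commute.refl p)
    have e3 : q ≠ c := fun e => hqc (e.symm ▸ Commute.refl q)
    simp [hS, e1, e2, e3, Ne.symm hdp, Ne.symm hdq, Ne.symm hdc]
  have hSn : ∀ r ∈ C, ∀ v ∈ S, v ∈ R ∩ nbr D r := by
    intro r hr v hv
    refine ⟨(hSR v hv).1, hR.sub (hSR v hv).1, fun e => ?_, (hSR v hv).2 r hr⟩
    subst e
    rcases eq_or_ne v r₁ with rfl | hne'
    · exact hr12 (hCnc v hr r₂ hr₂ ((hSR v hv).2 r₂ hr₂).symm)
    · exact hne' (hCnc v hr r₁ hr₁ ((hSR v hv).2 r₁ hr₁).symm)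
  have hthrough : ∀ r ∈ C, {z | z ∈ R ∩ nbr D r ∧ ∃ v ∈ S, Commute z v}.ncard = 16 := by
    intro r hr
    rw [h.ncard_through hR ht hs hr.1 (hSn r hr) hSnc, hScard]
  have hdeg : ∀ r ∈ C, (R ∩ nbr D r).ncard = 4 * (t + 1) := fun r hr => hF.deg r hr.1
  rcases ht28 with rfl | rfl
  · have := Set.ncard_le_ncard (show {z | z ∈ R ∩ nbr D r₁ ∧ ∃ v ∈ S, Commute z v} ⊆ R ∩ nbr D r₁
      from fun z hz => hz.1) (Set.toFinite _)
    rw [hthrough r₁ hr₁, hdeg r₁ hr₁] at this
    omega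
  -- double counting
  have hpair : ∀ v ∈ S, ∀ w ∈ S, v ≠ w → R ∩ com D v w = C := by
    intro v hv w hw hvw
    have hsub : C ⊆ R ∩ com D v w :=
      fun r hr => ⟨hr.1, hR.sub hr.1, (hSR v hv).2 r hr, (hSR w hw).2 r hr⟩
    refine (Set.eq_of_subset_of_ncard_le hsub ?_ (Set.toFinite _)).symm
    rw [hF.common v (hSR v hv).1 w (hSR w hw).1 fun hh => hvw (hSnc v hv w hw hh), hCcard]
  let U : Finset G := R.toFinset.filter fun z => z ∉ C ∧ ∀ v ∈ S, ¬ Commute z v
  let E : Finset G := S.biUnion fun v => ((R ∩ nbr D v) \ C).toFinset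
  have hEcard : E.card = 4 * 27 := by
    rw [Finset.card_biUnion, Finset.sum_const_nat (m := 27), hScard]
    · intro v hv
      have hsub : C ⊆ R ∩ nbr D v := fun r hr => by
        have hn := (hSn r hr v hv).2
        exact ⟨hr.1, hR.sub hr.1, fun e => hn.2.1 e.symm, hn.2.2.symm⟩
      rw [← Set.ncard_eq_toFinset_card', Set.ncard_sdiff hsub (Set.toFinite _),
        hF.deg v (hSR v hv).1, hCcard]
    · intro v hv w hw hvw
      rw [Function.onFun, Set.disjoint_toFinset, Set.disjoint_left]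
      rintro f ⟨⟨hfR, hf⟩, hfC⟩ ⟨⟨-, hf'⟩, -⟩
      exact hfC (hpair v hv w hw hvw ▸ ⟨hfR, hf.1, hf.2.2.symm, hf'.2.2.symm⟩)
  have hN : U.card = 44 := by
    have hsplit : R.toFinset = U ∪ (S ∪ (C.toFinset ∪ E)) := by
      ext z
      simp only [U, E, Finset.mem_union, Finset.mem_filter, Set.mem_toFinset, Finset.mem_biUnion]
      constructor
      · intro hz
        by_cases hzS : z ∈ S
        · exact Or.inr (Or.inl hzS)
        by_cases hzC : z ∈ C
        · exact Or.inr (Or.inr (Or.inl hzC))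
        by_cases hall : ∀ v ∈ S, ¬ Commute z v
        · exact Or.inl ⟨hz, hzC, hall⟩
        push Not at hall
        obtain ⟨v, hv, hzv⟩ := hall
        exact Or.inr (Or.inr (Or.inr ⟨v, hv, ⟨⟨hz, hR.sub hz, fun e => hzS (e ▸ hv), hzv.symm⟩, hzC⟩⟩))
      · rintro (h1 | h1 | h1 | ⟨v, -, h1⟩)
        · exact h1.1
        · exact (hSR z h1).1
        · exact h1.1
        · exact h1.1.1
    have hd1 : Disjoint C.toFinset E := by
      rw [Finset.disjoint_left]
      intro z hz hz'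
      simp only [E, Finset.mem_biUnion, Set.mem_toFinset] at hz' hz
      obtain ⟨v, -, hv⟩ := hz'
      exact hv.2 hz
    have hd2 : Disjoint S (C.toFinset ∪ E) := by
      rw [Finset.disjoint_left]
      intro z hz hz'
      simp only [E, Finset.mem_union, Finset.mem_biUnion, Set.mem_toFinset] at hz'
      rcases hz' with h1 | ⟨v, hv, h1⟩
      · exact (hSn z h1 z hz).2.2.1 rfl
      · exact h1.1.2.2.1 (hSnc z hz v hv h1.1.2.2.2.symm)
    have hd3 : Disjoint U (S ∪ (C.toFinset ∪ E)) := by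
      rw [Finset.disjoint_left]
      intro z hz hz'
      simp only [U, E, Finset.mem_union, Finset.mem_filter, Set.mem_toFinset, Finset.mem_biUnion] at hz hz'
      rcases hz' with h1 | h1 | ⟨v, hv, h1⟩
      · exact hz.2.2 z h1 (Commute.refl z)
      · exact hz.2.1 h1
      · exact hz.2.2 v hv h1.1.2.2.2.symm
    have htot : R.toFinset.card = (4 + 1) * (4 * 8 + 1) := by
      rw [← Set.ncard_eq_toFinset_card']; exact hF.total
    rw [hsplit, Finset.card_union_of_disjoint hd3, Finset.card_union_of_disjoint hd2,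
      Finset.card_union_of_disjoint hd1, hScard, hEcard, ← Set.ncard_eq_toFinset_card', hCcard]
      at htot
    omega
  let nf : G → ℕ := fun z => (C.toFinset.filter fun r => Commute r z).card
  have hC9 : C.toFinset.card = 9 := by rw [← Set.ncard_eq_toFinset_card', hCcard]
  have hrU : ∀ r ∈ C, (U.filter fun z => Commute r z).card = 20 := by
    intro r hr
    have e : (U.filter fun z => Commute r z) =
        ((R ∩ nbr D r) \ {z | z ∈ R ∩ nbr D r ∧ ∃ v ∈ S, Commute z v}).toFinset := by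
      ext z
      simp only [U, Finset.mem_filter, Set.mem_toFinset]
      constructor
      · rintro ⟨⟨hz, hzC, hzS⟩, hrz⟩
        refine ⟨⟨hz, hR.sub hz, fun e => hzC (e ▸ hr), hrz⟩, ?_⟩
        rintro ⟨-, v, hv, hzv⟩
        exact hzS v hv hzv
      · rintro ⟨⟨hz, hzn⟩, hzS⟩
        exact ⟨⟨hz, fun hzC => hzn.2.1 (hCnc r hr z hzC hzn.2.2).symm,
          fun v hv hzv => hzS ⟨⟨hz, hzn⟩, v, hv, hzv⟩⟩, hzn.2.2⟩
    rw [e, ← Set.ncard_eq_toFinset_card', Set.ncard_sdiff (fun z hz => hz.1) (Set.toFinite _),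
      hthrough r hr, hdeg r hr]
  have hrrU : ∀ r ∈ C, ∀ r' ∈ C, r ≠ r' →
      (U.filter fun z => Commute r z ∧ Commute r' z).card = 5 := by
    intro r hr r' hr' hne'
    have hnc' : ¬ Commute r r' := fun hh => hne' (hCnc r hr r' hr' hh)
    have hSsub : (↑S : Set G) ⊆ R ∩ com D r r' := fun v hv => ⟨(hSR v hv).1, hR.sub (hSR v hv).1,
      ((hSR v hv).2 r hr).symm, ((hSR v hv).2 r' hr').symm⟩
    have e : (U.filter fun z => Commute r z ∧ Commute r' z) =
        ((R ∩ com D r r') \ ↑S).toFinset := by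
      ext z
      simp only [U, Finset.mem_filter, Set.mem_toFinset]
      constructor
      · rintro ⟨⟨hz, -, hzS⟩, h1, h2⟩
        exact ⟨⟨hz, hR.sub hz, h1.symm, h2.symm⟩, fun hh => hzS z hh (Commute.refl z)⟩
      · rintro ⟨⟨hz, hzD, h1, h2⟩, hzS⟩
        refine ⟨⟨hz, fun hzC => hne' ((hCnc z hzC r hr h1).symm.trans (hCnc z hzC r' hr' h2)),
          fun v hv hzv => hzS ?_⟩, h1.symm, h2.symm⟩
        rw [h.inter_no_line hR ht hr.1 hr'.1 hnc' ⟨hz, hzD, h1, h2⟩ (hSsub hv) hzv]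
        exact hv
    rw [e, ← Set.ncard_eq_toFinset_card', Set.ncard_sdiff hSsub (Set.toFinite _),
      hF.common r hr.1 r' hr'.1 hnc', Set.ncard_coe_finset, hScard]
  have hsum : ∑ z ∈ U, nf z = 180 := by
    simp only [nf, Finset.card_filter]
    rw [Finset.sum_comm, Finset.sum_const_nat (m := 20), hC9]
    intro r hr
    rw [← Finset.card_filter]
    exact hrU r (Set.mem_toFinset.1 hr)
  have hsq : ∑ z ∈ U, nf z * nf z = 540 := by
    simp only [nf, Finset.card_filter, Finset.sum_mul_sum]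
    rw [Finset.sum_comm]
    rw [Finset.sum_const_nat (m := 60), hC9]
    intro r hr
    rw [Finset.sum_comm, ← Finset.add_sum_erase _ _ hr]
    have hrC := Set.mem_toFinset.1 hr
    have e1 : (∑ z ∈ U, (if Commute r z then 1 else 0) * if Commute r z then 1 else 0) = 20 := by
      rw [← hrU r hrC, Finset.card_filter]
      exact Finset.sum_congr rfl fun z _ => by split_ifs <;> rfl
    rw [e1, Finset.sum_const_nat (m := 5)]
    · rw [Finset.card_erase_of_mem hr, hC9]
    · intro r' hr'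
      rw [Finset.mem_erase, Set.mem_toFinset] at hr'
      rw [← hrrU r hrC r' hr'.2 hr'.1.symm, Finset.card_filter]
      exact Finset.sum_congr rfl fun z _ => by
        by_cases h1 : Commute r z <;> by_cases h2 : Commute r' z <;> simp [h1, h2]
  have hcs := sq_sum_le_card_mul_sum_sq (s := U) (f := nf)
  rw [hsum, hN, show (∑ z ∈ U, nf z ^ 2) = 540 by rw [← hsq]; simp only [pow_two]] at hcs
  norm_num at hcs

theorem hypLine (hs : ∀ a ∈ D, ∀ b ∈ nbr D a, (pl D a b).ncard = 5) : HypLine D D := by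
  refine h.good_induction (P := fun R => HypLine D R)
    (fun R hR hl ht => h.hypLine_base hR hl ht hs) (fun R hR ht ih => ?_) h.good_univ h.hasLine_univ
  intro p hp q hq d hd hpq hdC
  obtain ⟨g, hg, k, hk, hgk⟩ := h.hasLine_inter hR ht hp hq hpq
  have haC : g ∈ R ∩ com D p q := hg
  have haD := hR.sub hg.1
  have hpD := hR.sub hp
  have hqD := hR.sub hq
  -- the point is not `d`
  have hdg : d ≠ g := by
    rintro rfl
    obtain ⟨b, hb, hgb⟩ := (h.good_inter hR hp hq hpq).opp d hg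
    exact hgb (hdC b hb)
  obtain ⟨u, hu, hgu⟩ := hR.opp g hg.1
  have hproj : ∀ v ∈ R, v ∈ nbr D g → ∃ w ∈ pl D g v, w ∈ R ∩ com D g u ∧ w ≠ g := by
    intro v hv hn
    obtain ⟨w, hw, huw⟩ := h.exists_proj haD hn (hR.sub hu)
    refine ⟨w, hw, ⟨hR.line g hg.1 v hv hn hw, hw.1, (h.pl_subset_com haD hn hw).2.1, huw.symm⟩,
      fun e => hgu ?_⟩
    rw [e] at huw
    exact huw.symm
  have hpn : p ∈ nbr D g := ⟨hpD, fun e => hpq (e ▸ hg.2.2.2), hg.2.2.1⟩
  have hqn : q ∈ nbr D g := ⟨hqD, fun e => hpq (e ▸ hg.2.2.1).symm, hg.2.2.2⟩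
  have hdn : d ∈ nbr D g := ⟨hR.sub hd, hdg, (hdC g haC).symm⟩
  obtain ⟨p', hpL, hpR, hpne⟩ := hproj p hp hpn
  obtain ⟨q', hqL, hqR, hqne⟩ := hproj q hq hqn
  obtain ⟨d', hdL, hdR, hdne⟩ := hproj d hd hdn
  have hpq' : ¬ Commute p' q' := fun hc => hpq (h.lift_commute haD hpn hqn hpL hqL hpne hqne hc)
  have hcom : ∀ x ∈ (R ∩ com D g u) ∩ com D p' q', Commute d' x := by
    intro x hx
    have e1 : x ∈ com D g p := by
      rw [← h.com_eq_left haD hpn hpL hpne]; exact ⟨hx.1.2.1, hx.1.2.2.1, hx.2.2.1⟩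
    have e2 : x ∈ com D g q := by
      rw [← h.com_eq_left haD hqn hqL hqne]; exact ⟨hx.1.2.1, hx.1.2.2.1, hx.2.2.2⟩
    have e3 : x ∈ com D g d := ⟨hx.1.2.1, hx.1.2.2.1,
      (hdC x ⟨hx.1.1, hx.1.2.1, e1.2.2, e2.2.2⟩).symm⟩
    exact (hdL.2 x e3).symm
  obtain ⟨hcn, hcL, hcne⟩ := h.lift_tri haD hpn hqn hpL hqL hpne hqne
  -- `d` is on one of the three lines
  have hline : ∃ v, (v = p ∨ v = q ∨ v = p * q * p) ∧ v ∈ nbr D g ∧ d ∈ pl D g v := by
    have mk : ∀ v v', v ∈ nbr D g → v' ∈ pl D g v → v' ≠ g → d' = v' → d ∈ pl D g v := by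
      intro v v' hv hv' hv'g e
      rw [← h.pl_eq haD hv (h.self_mem haD hv).1 hv' hv'g.symm, ← e,
        h.pl_eq haD hdn (h.self_mem haD hdn).1 hdL hdne.symm]
      exact (h.self_mem haD hdn).2
    rcases ih g hg.1 u hu hgu p' hpR q' hqR d' hdR hpq' hcom with e | e | e
    · exact ⟨p, Or.inl rfl, hpn, mk p p' hpn hpL hpne e⟩
    · exact ⟨q, Or.inr (Or.inl rfl), hqn, mk q q' hqn hqL hqne e⟩
    · exact ⟨_, Or.inr (Or.inr rfl), hcn, mk _ _ hcn hcL hcne e⟩
  obtain ⟨v, hv, hvn, hdv⟩ := hline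
  by_cases hdv' : d = v
  · subst hdv'; exact hv
  exfalso
  obtain ⟨b, hb, hgb⟩ := (h.good_inter hR hp hq hpq).opp g hg
  have hbv : Commute b v := by
    rcases hv with rfl | rfl | rfl
    · exact hb.2.2.1
    · exact hb.2.2.2
    · exact (hb.2.2.1.mul_right hb.2.2.2).mul_right hb.2.2.1
  exact hgb (h.commute_line haD hvn (h.self_mem haD hvn).2 hdv (Ne.symm hdv') hb.2.1 hbv
    (hdC b hb).symm (h.self_mem haD hvn).1).symm

end Hyp

end CfsgLib.FischerPolar
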