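import Mathlib
import Cfsg.Agent.FischerPolar.Four

/-!
The group of translations of a member: it acts simply transitively on the opposite members.
-/

set_option autoImplicit false
set_option linter.unusedSectionVars false
set_option linter.style.haveILetI false

namespace CfsgLib.FischerPolar

open Cfsg CfsgLib.ThreeTransp CfsgLib.FischerGQ

variable {G : Type*} [Group G] {D : Set G}

/-- A non-commuting pair in a space with lines of five points. -/
structure Frame (D : Set G) (p q : G) : Prop where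
  hyp : Hyp D
  five : ∀ a ∈ D, ∀ b ∈ nbr D a, (pl D a b).ncard = 5
  memp : p ∈ D
  memq : q ∈ D
  opp : ¬ Commute p q

/-- The point of the line of `x` through `p` commuting with `q`. -/
noncomputable def al (D : Set G) (p q x : G) : G :=
  haveI := _root_.Classical.propDecidable (∃ c, c ∈ pl D p x ∧ Commute q c)
  if hc : ∃ c, c ∈ pl D p x ∧ Commute q c then hc.choose else x

/-- The translation of a point. -/
noncomputable def tr (D : Set G) (p q x : G) : G := al D p q x * x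

/-- The points collinear with `p`, not commuting with `q`. -/
def pts (D : Set G) (p q : G) : Set G := {x | x ∈ nbr D p ∧ ¬ Commute q x}

/-- The translation group. -/
noncomputable def tg (D : Set G) (p q : G) : Subgroup G :=
  Subgroup.closure (insert p (tr D p q '' pts D p q))

/-- Whether two elements commute. -/
noncomputable def bit (g k : G) : ZMod 2 :=
  haveI := _root_.Classical.propDecidable (Commute g k)
  if Commute g k then 0 else 1

theorem bit_comm (g k : G) : bit g k = bit k g := by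
  unfold bit
  split_ifs with h1 h2 h2
  · rfl
  · exact absurd h1.symm h2
  · exact absurd h2.symm h1
  · rfl

theorem bit_eq_zero {g k : G} : bit g k = 0 ↔ Commute g k := by
  simp only [bit]
  split_ifs with hc
  · exact iff_of_true rfl hc
  · exact iff_of_false one_ne_zero hc

theorem bit_eq_one {g k : G} : bit g k = 1 ↔ ¬ Commute g k := by
  simp only [bit]
  split_ifs with hc
  · exact iff_of_false zero_ne_one (not_not_intro hc)
  · exact iff_of_true rfl hc

namespace Frame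

variable [Finite G] {p q : G} (h : Frame D p q)

include h

local notation "α" => al D p q
local notation "τ" => tr D p q
local notation "P" => pts D p q
local notation "Q" => tg D p q

theorem al_spec {x : G} (hx : x ∈ nbr D p) :
    α x ∈ pl D p x ∧ Commute q (α x) ∧ α x ∈ nbr D p ∧ pl D p (α x) = pl D p x := by
  have hex : ∃ c, c ∈ pl D p x ∧ Commute q c := h.hyp.exists_proj h.memp hx h.memq
  obtain ⟨h1, h2⟩ : α x ∈ pl D p x ∧ Commute q (α x) := by
    rw [al, dif_pos hex]; exact hex.choose_spec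
  have hne : α x ≠ p := fun e => h.opp (e ▸ h2).symm
  exact ⟨h1, h2, ⟨h1.1, hne, (h.hyp.pl_subset_com h.memp hx h1).2.1.symm⟩,
    h.hyp.pl_eq h.memp hx (h.hyp.self_mem h.memp hx).1 h1 hne.symm⟩

theorem al_eq {x c : G} (hx : x ∈ nbr D p) (hc : c ∈ pl D p x) (hqc : Commute q c) : c = α x :=
  h.hyp.unique_proj h.memp hx hc (h.al_spec hx).1 (h.hyp.self_mem h.memp hx).1 h.memq
    (fun e => h.opp e.symm) hqc (h.al_spec hx).2.1

theorem al_mem_com {x : G} (hx : x ∈ nbr D p) : α x ∈ com D p q := by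
  obtain ⟨h1, h2, h3, -⟩ := h.al_spec hx
  exact ⟨h1.1, h3.2.2.symm, h2.symm⟩

theorem com_nbr {a : G} (ha : a ∈ com D p q) : a ∈ nbr D p ∧ α a = a := by
  have hn : a ∈ nbr D p := ⟨ha.1, fun e => h.opp (e ▸ ha.2.2), ha.2.1.symm⟩
  exact ⟨hn, (h.al_eq hn (h.hyp.self_mem h.memp hn).2 ha.2.2.symm).symm⟩

theorem al_congr {x f : G} (hx : x ∈ nbr D p) (hf : f ∈ pl D p x) (hfp : f ≠ p) :
    f ∈ nbr D p ∧ α f = α x := by
  have hn : f ∈ nbr D p := ⟨hf.1, hfp, (h.hyp.pl_subset_com h.memp hx hf).2.1.symm⟩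
  refine ⟨hn, h.al_eq hx ?_ (h.al_spec hn).2.1⟩
  rw [← h.hyp.pl_eq h.memp hx (h.hyp.self_mem h.memp hx).1 hf hfp.symm]
  exact (h.al_spec hn).1

theorem al_ne {x : G} (hx : x ∈ P) : α x ≠ x := fun e => hx.2 (e ▸ (h.al_spec hx.1).2.1)

theorem pts_al {x : G} (hx : x ∈ P) : α (α x) = α x := (h.com_nbr (h.al_mem_com hx.1)).2

theorem mem_pts_iff {a x : G} (ha : a ∈ com D p q) :
    (x ∈ P ∧ α x = a) ↔ x ∈ pl D p a ∧ x ≠ p ∧ x ≠ a := by
  obtain ⟨han, haa⟩ := h.com_nbr ha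
  constructor
  · rintro ⟨hx, rfl⟩
    refine ⟨?_, hx.1.2.1, (h.al_ne hx).symm⟩
    rw [(h.al_spec hx.1).2.2.2]
    exact (h.hyp.self_mem h.memp hx.1).2
  · rintro ⟨hx, hxp, hxa⟩
    obtain ⟨hn, he⟩ := h.al_congr han hx hxp
    rw [haa] at he
    refine ⟨⟨hn, fun hq => hxa ?_⟩, he⟩
    rw [h.al_eq hn (h.hyp.self_mem h.memp hn).2 hq, he]

theorem pts_line {x y : G} (hx : x ∈ P) (hy : y ∈ P) (he : α x = α y) :
    Commute x y ∧ Commute (α x) x ∧ Commute (α x) y ∧ Commute p x ∧ Commute p (α x) := by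
  have ha := h.al_mem_com hx.1
  have hn := (h.com_nbr ha).1
  have h1 := ((h.mem_pts_iff ha).1 ⟨hx, rfl⟩).1
  have h2 := ((h.mem_pts_iff ha).1 ⟨hy, he.symm⟩).1
  have h3 := (h.hyp.self_mem h.memp hn).2
  exact ⟨h.hyp.clique h.memp hn h1 h2, h.hyp.clique h.memp hn h3 h1, h.hyp.clique h.memp hn h3 h2,
    hx.1.2.2, hn.2.2⟩

/-- The three points over a member of the common perp. -/
theorem exists_three {a : G} (ha : a ∈ com D p q) :
    ∃ x y z, x ∈ P ∧ y ∈ P ∧ z ∈ P ∧ α x = a ∧ α y = a ∧ α z = a ∧ x ≠ y ∧ x ≠ z ∧ y ≠ z ∧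
      ∀ w ∈ P, α w = a → w = x ∨ w = y ∨ w = z := by
  have hn := (h.com_nbr ha).1
  obtain ⟨hpL, haL⟩ := h.hyp.self_mem h.memp hn
  have hcard : (pl D p a \ {p, a}).ncard = 3 := by
    rw [Set.ncard_sdiff (by rintro f (rfl | rfl) <;> assumption) (Set.toFinite _),
      Set.ncard_pair hn.2.1.symm, h.five p h.memp a hn]
  obtain ⟨x, y, z, hxy, hxz, hyz, he⟩ := Set.ncard_eq_three.1 hcard
  have mk : ∀ w, w ∈ ({x, y, z} : Set G) ↔ w ∈ P ∧ α w = a := by
    intro w
    rw [← he, h.mem_pts_iff ha]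
    simp only [Set.mem_sdiff, Set.mem_insert_iff, Set.mem_singleton_iff, not_or]
  refine ⟨x, y, z, ((mk x).1 (by simp)).1, ((mk y).1 (by simp)).1, ((mk z).1 (by simp)).1,
    ((mk x).1 (by simp)).2, ((mk y).1 (by simp)).2, ((mk z).1 (by simp)).2, hxy, hxz, hyz,
    fun w hw hwa => ?_⟩
  simpa using (mk w).2 ⟨hw, hwa⟩

theorem exists_other {x y : G} (hx : x ∈ P) (hy : y ∈ P) (he : α x = α y) (hne : x ≠ y) :
    ∃ z ∈ P, α z = α x ∧ z ≠ x ∧ z ≠ y ∧ x * y = p * (α x * z) := by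
  have ha := h.al_mem_com hx.1
  obtain ⟨u, v, w, hu, hv, hw, eu, ev, ew, huv, huw, hvw, hall⟩ := h.exists_three ha
  obtain ⟨z, hz, ez, hzx, hzy⟩ : ∃ z ∈ P, α z = α x ∧ z ≠ x ∧ z ≠ y := by
    rcases hall x hx rfl with rfl | rfl | rfl <;> rcases hall y hy he.symm with rfl | rfl | rfl <;>
      first
      | exact absurd rfl hne
      | exact ⟨u, hu, eu, huv, huw⟩
      | exact ⟨u, hu, eu, huw, huv⟩
      | exact ⟨v, hv, ev, huv.symm, hvw⟩
      | exact ⟨v, hv, ev, hvw, huv.symm⟩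
      | exact ⟨w, hw, ew, huw.symm, hvw.symm⟩
      | exact ⟨w, hw, ew, hvw.symm, huw.symm⟩
  refine ⟨z, hz, ez, hzx, hzy, ?_⟩
  have hn := (h.com_nbr ha).1
  obtain ⟨hpL, haL⟩ := h.hyp.self_mem h.memp hn
  obtain ⟨mx, hxp, hxa⟩ := (h.mem_pts_iff ha).1 ⟨hx, rfl⟩
  obtain ⟨my, hyp', hya⟩ := (h.mem_pts_iff ha).1 ⟨hy, he.symm⟩
  obtain ⟨mz, hzp, hza⟩ := (h.mem_pts_iff ha).1 ⟨hz, ez⟩
  have hprod := h.hyp.line_prod h.memp hn (h.five p h.memp _ hn) mx my hpL haL mz hne hxp hxa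
    hzx.symm hyp' hya hzy.symm hn.2.1.symm hzp.symm hza.symm
  have cl := fun {f g : G} (hf : f ∈ pl D p (α x)) (hg : g ∈ pl D p (α x)) =>
    h.hyp.clique h.memp hn hf hg
  have h1 : x * y * (p * (α x * z)) = 1 := by rw [← hprod]; simp only [mul_assoc]
  have h2 : (p * (α x * z))⁻¹ = p * (α x * z) := by
    rw [mul_inv_rev, mul_inv_rev, h.hyp.inv_eq h.memp, h.hyp.inv_eq ha.1, h.hyp.inv_eq mz.1,
      (cl mz haL).eq, ((cl haL hpL).mul_left (cl mz hpL)).eq]
  rw [eq_inv_of_mul_eq_one_left h1, h2]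

theorem tr_mem {x : G} (hx : x ∈ P) : τ x ∈ Q :=
  Subgroup.subset_closure (Or.inr ⟨x, hx, rfl⟩)

theorem p_mem : p ∈ Q := Subgroup.subset_closure (Or.inl rfl)

theorem tr_sq {x : G} (hx : x ∈ P) : τ x * τ x = 1 := by
  rw [tr, (h.pts_line hx hx rfl).2.1.symm.mul_mul_mul_comm, h.hyp.mul_self (h.al_mem_com hx.1).1,
    h.hyp.mul_self hx.1.1, one_mul]

theorem tr_inv {x : G} (hx : x ∈ P) : (τ x)⁻¹ = τ x := inv_eq_of_mul_eq_one_right (h.tr_sq hx)

theorem tr_mul {x y : G} (hx : x ∈ P) (hy : y ∈ P) (he : α x = α y) : τ x * τ y = x * y := by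
  rw [tr, tr, he, ((he ▸ (h.pts_line hx hx rfl).2.1).symm : Commute x (α y)).mul_mul_mul_comm,
    h.hyp.mul_self (h.al_mem_com hy.1).1, one_mul]

theorem tr_mul_same {x y : G} (hx : x ∈ P) (hy : y ∈ P) (he : α x = α y) (hne : x ≠ y) :
    ∃ z ∈ P, α z = α x ∧ z ≠ x ∧ z ≠ y ∧ τ x * τ y = p * τ z := by
  obtain ⟨z, hz, ez, h1, h2, h3⟩ := h.exists_other hx hy he hne
  exact ⟨z, hz, ez, h1, h2, by rw [h.tr_mul hx hy he, h3, tr, ez]⟩

theorem p_commute_tr {x : G} (hx : x ∈ P) : Commute p (τ x) :=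
  (h.pts_line hx hx rfl).2.2.2.2.mul_right (h.pts_line hx hx rfl).2.2.2.1

/-- A translation fixes every line through `p`. -/
theorem conj_line {g : G} (hg : g ∈ Q) :
    Commute g p ∧ ∀ f ∈ nbr D p, g * f * g⁻¹ ∈ pl D p f := by
  have gen : ∀ g ∈ insert p (τ '' P), g * g = 1 ∧ Commute g p ∧
      ∀ f ∈ nbr D p, g * f * g⁻¹ ∈ pl D p f := by
    rintro g (rfl | ⟨x, hx, rfl⟩)
    · refine ⟨h.hyp.mul_self h.memp, Commute.refl _, fun f hf => ?_⟩
      rw [hf.2.2.eq, mul_inv_cancel_right]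
      exact (h.hyp.self_mem h.memp hf).2
    · refine ⟨h.tr_sq hx, (h.p_commute_tr hx).symm, fun f hf => ?_⟩
      have hn := (h.al_spec hx.1).2.2.1
      exact h.hyp.conj_mem_pl h.memp hn ((h.mem_pts_iff (h.al_mem_com hx.1)).1 ⟨hx, rfl⟩).1
        hx.1.2.1 hf
  induction hg using Subgroup.closure_induction'' with
  | mem g hg => exact (gen g hg).2
  | inv_mem g hg => rw [inv_eq_of_mul_eq_one_right (gen g hg).1]; exact (gen g hg).2
  | one => exact ⟨Commute.one_left p, fun f hf => by simpa using (h.hyp.self_mem h.memp hf).2⟩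
  | mul g k _ _ ig ik =>
    refine ⟨ig.1.mul_left ik.1, fun f hf => ?_⟩
    have h1 := ik.2 f hf
    have hne : k * f * k⁻¹ ≠ p := fun e => hf.2.1 (by
      rw [show f = k⁻¹ * (k * f * k⁻¹) * k by group, e, mul_assoc, ← ik.1.eq, inv_mul_cancel_left])
    have hn := (h.al_congr hf h1 hne).1
    rw [show g * k * f * (g * k)⁻¹ = g * (k * f * k⁻¹) * g⁻¹ by group,
      ← h.hyp.pl_eq h.memp hf (h.hyp.self_mem h.memp hf).1 h1 hne.symm]
    exact ig.2 _ hn

theorem conj_nbr {g f : G} (hg : g ∈ Q) (hf : f ∈ nbr D p) :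
    g * f * g⁻¹ ∈ nbr D p ∧ α (g * f * g⁻¹) = α f := by
  obtain ⟨hc, hl⟩ := h.conj_line hg
  refine h.al_congr hf (hl f hf) fun e => hf.2.1 ?_
  rw [show f = g⁻¹ * (g * f * g⁻¹) * g by group, e, mul_assoc, ← hc.eq, inv_mul_cancel_left]

/-- Products of two points of a line through `p`. -/
theorem pair_cases {f f' : G} (hf : f ∈ nbr D p) (hf' : f' ∈ nbr D p) (he : α f = α f')
    (hne : f ≠ f') : ∃ x ∈ P, α x = α f ∧ (f * f' = τ x ∨ f * f' = p * τ x) := by
  have hpt : ∀ {k : G}, k ∈ nbr D p → k ≠ α k → k ∈ P := fun {k} hk hka =>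
    ⟨hk, fun hq => hka (h.al_eq hk (h.hyp.self_mem h.memp hk).2 hq)⟩
  by_cases h1 : f = α f
  · have h2 : f' ≠ α f' := fun e => hne (h1.trans (he.trans e.symm))
    exact ⟨f', hpt hf' h2, he.symm, Or.inl (by rw [tr, ← he, ← h1])⟩
  by_cases h2 : f' = α f'
  · refine ⟨f, hpt hf h1, rfl, Or.inl ?_⟩
    rw [tr, he, ← h2]
    have := (h.pts_line (hpt hf h1) (hpt hf h1) rfl).2.1
    rw [he, ← h2] at this
    exact this.symm.eq
  obtain ⟨z, hz, ez, -, -, e⟩ := h.tr_mul_same (hpt hf h1) (hpt hf' h2) he hne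
  exact ⟨z, hz, ez, Or.inr (by rw [← h.tr_mul (hpt hf h1) (hpt hf' h2) he, e])⟩

theorem tr_conj {g x : G} (hg : g ∈ Q) (hx : x ∈ P) :
    ∃ y ∈ P, α y = α x ∧ (g * τ x * g⁻¹ = τ y ∨ g * τ x * g⁻¹ = p * τ y) := by
  obtain ⟨-, -, hn, -⟩ := h.al_spec hx.1
  obtain ⟨h1, e1⟩ := h.conj_nbr hg hn
  obtain ⟨h2, e2⟩ := h.conj_nbr hg hx.1
  obtain ⟨y, hy, ey, hh⟩ := h.pair_cases h1 h2 (by rw [e1, e2, h.pts_al hx]) fun e =>
    h.al_ne hx (mul_left_cancel (mul_right_cancel e))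
  refine ⟨y, hy, by rw [ey, e1, h.pts_al hx], ?_⟩
  rwa [show g * α x * g⁻¹ * (g * x * g⁻¹) = g * τ x * g⁻¹ by rw [tr]; group] at hh

theorem noTwins : NoTwins D := h.hyp.noTwins

theorem tr_ne_one {x : G} (hx : x ∈ P) : τ x ≠ 1 := fun e => h.al_ne hx (by
  rw [tr] at e; rw [eq_inv_of_mul_eq_one_left e, h.hyp.inv_eq hx.1.1])

theorem tr_ne_p {x : G} (hx : x ∈ P) : τ x ≠ p := fun e =>
  no_rel₃ h.hyp.ttg.1 h.noTwins (h.al_mem_com hx.1).1 hx.1.1 h.memp (h.pts_line hx hx rfl).2.1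
    (h.al_ne hx) e

theorem tr_ne_p_mul_tr_same {x y : G} (hx : x ∈ P) (hy : y ∈ P) (he : α x = α y) :
    τ x ≠ p * τ y := by
  intro e
  by_cases hxy : x = y
  · subst hxy
    exact h.hyp.mul_self h.memp |> fun hh => tt_ne_one h.hyp.ttg.1 h.memp
      (mul_right_cancel (e.symm.trans (one_mul _).symm))
  obtain ⟨z, hz, -, hzx, hzy, e'⟩ := h.tr_mul_same hy hx he.symm (Ne.symm hxy)
  rw [e, ← mul_assoc, ← (h.p_commute_tr hy).eq, mul_assoc, h.tr_sq hy, mul_one] at e'
  exact h.tr_ne_one hz (mul_left_cancel ((mul_one p).trans e').symm)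

theorem al_of_tr_eq {x y : G} (hx : x ∈ P) (hy : y ∈ P) (he : τ x = τ y ∨ τ x = p * τ y) :
    α x = α y := by
  -- the centraliser in `D` of a product of two points is the perp of their line
  have key : ∀ f f' g g' : G, f ∈ nbr D p → f' ∈ nbr D p → g ∈ nbr D p → g' ∈ nbr D p → f ≠ f' →
      g ≠ g' → α f = α f' → α g = α g' → f * f' = g * g' → α f = α g := by
    intro f f' g g' hf hf' hg hg' hne hne' e1 e2 e3
    have mem : ∀ {k k' : G}, k ∈ nbr D p → k' ∈ nbr D p → α k = α k' → k' ∈ pl D p k := by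
      intro k k' hk hk' e
      rw [← (h.al_spec hk).2.2.2, e, (h.al_spec hk').2.2.2]
      exact (h.hyp.self_mem h.memp hk').2
    have hn : f' ∈ nbr D f :=
      ⟨hf'.1, hne.symm, h.hyp.clique h.memp hf (h.hyp.self_mem h.memp hf).2 (mem hf hf' e1)⟩
    have hn' : g' ∈ nbr D g :=
      ⟨hg'.1, hne'.symm, h.hyp.clique h.memp hg (h.hyp.self_mem h.memp hg).2 (mem hg hg' e2)⟩
    have hcom : com D f f' = com D g g' := by
      have : ∀ {k k' l l' : G}, k ∈ D → k' ∈ D → l ∈ D → l' ∈ D → Commute l l' → l ≠ l' →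
          k * k' = l * l' → com D k k' ⊆ com D l l' :=
        fun {k k' l l'} _ _ hl hl' hc hne e z hz => ⟨hz.1,
          commute_of_commute_mul h.hyp.ttg.1 hz.1 hl hl' hc hne (e ▸ hz.2.1.mul_right hz.2.2)⟩
      exact Set.Subset.antisymm (this hf.1 hf'.1 hg.1 hg'.1 hn'.2.2 hne' e3)
        (this hg.1 hg'.1 hf.1 hf'.1 hn.2.2 hne e3.symm)
    have hL : pl D p f = pl D p g := by
      rw [← h.hyp.pl_eq h.memp hf (h.hyp.self_mem h.memp hf).2 (mem hf hf' e1) hne,
        ← h.hyp.pl_eq h.memp hg (h.hyp.self_mem h.memp hg).2 (mem hg hg' e2) hne']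
      unfold pl; rw [hcom]
    exact h.al_eq hg (hL ▸ (h.al_spec hf).1) (h.al_spec hf).2.1
  have haxn := (h.al_spec hx.1).2.2.1
  rcases he with e | e
  · have := key _ x _ y haxn hx.1 (h.al_spec hy.1).2.2.1 hy.1 (h.al_ne hx) (h.al_ne hy)
      (h.pts_al hx) (h.pts_al hy) e
    rwa [h.pts_al hx, h.pts_al hy] at this
  · obtain ⟨u, v, w, hu, hv, hw, eu, ev, ew, huv, huw, hvw, hall⟩ :=
      h.exists_three (h.al_mem_com hy.1)
    obtain ⟨k, l, hk, hl, ek, el, hky, hly, hkl⟩ : ∃ k l, k ∈ P ∧ l ∈ P ∧ α k = α y ∧ α l = α y ∧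
        k ≠ y ∧ l ≠ y ∧ k ≠ l := by
      rcases hall y hy rfl with rfl | rfl | rfl
      · exact ⟨v, w, hv, hw, ev, ew, huv.symm, huw.symm, hvw⟩
      · exact ⟨u, w, hu, hw, eu, ew, huv, hvw.symm, huw⟩
      · exact ⟨u, v, hu, hv, eu, ev, huw, hvw, huv⟩
    obtain ⟨z, hz, ez, hzk, hzl, e'⟩ := h.exists_other hk hl (ek.trans el.symm) hkl
    have hzy : z = y := by
      obtain ⟨u', v', w', -, -, -, -, -, -, huv', huw', hvw', hall'⟩ :=
        h.exists_three (h.al_mem_com hy.1)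
      rcases hall' z hz (ez.trans ek) with rfl | rfl | rfl <;>
        rcases hall' y hy rfl with rfl | rfl | rfl <;>
        rcases hall' k hk ek with rfl | rfl | rfl <;>
        rcases hall' l hl el with rfl | rfl | rfl <;>
        first | rfl | exact absurd rfl hkl | exact absurd rfl hky | exact absurd rfl hly |
          exact absurd rfl hzk | exact absurd rfl hzl
    subst hzy
    have e'' : τ x = k * l := by rw [e, e', tr, ek]
    have := key _ x k l haxn hx.1 hk.1 hl.1 (h.al_ne hx) hkl (h.pts_al hx) (ek.trans el.symm) e''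
    rwa [h.pts_al hx, ek] at this

theorem tr_injective {x y : G} (hx : x ∈ P) (hy : y ∈ P) (he : τ x = τ y) : x = y := by
  have := h.al_of_tr_eq hx hy (Or.inl he)
  rw [tr, tr, this] at he
  exact mul_left_cancel he

theorem tr_ne_p_mul_tr {x y : G} (hx : x ∈ P) (hy : y ∈ P) : τ x ≠ p * τ y :=
  fun e => h.tr_ne_p_mul_tr_same hx hy (h.al_of_tr_eq hx hy (Or.inr e)) e

theorem commutator_gen {x y : G} (hx : x ∈ P) (hy : y ∈ P) :
    τ x * τ y = τ y * τ x ∨ τ x * τ y = p * (τ y * τ x) := by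
  by_cases hab : α x = α y
  · left
    obtain ⟨c1, c2, c3, -, -⟩ := h.pts_line hx hy hab
    show Commute (α x * x) (α y * y)
    rw [← hab]
    exact ((Commute.refl _).mul_right c3).mul_left (c2.symm.mul_right c1)
  have hpp := h.hyp.mul_self h.memp
  -- `[τ x, τ y]` lies in both four-groups
  have key : ∀ x y, x ∈ P → y ∈ P → ∀ c, c = τ x * τ y * τ x * τ y →
      c = 1 ∨ c = p ∨ ∃ z ∈ P, α z = α y ∧ (c = τ z ∨ c = p * τ z) := by
    intro x y hx hy c hc
    obtain ⟨y', hy', ey, e⟩ := h.tr_conj (h.tr_mem hx) hy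
    rw [h.tr_inv hx] at e
    by_cases hyy : y' = y
    · subst hyy
      rcases e with e | e
      · exact Or.inl (by rw [hc, e, h.tr_sq hy])
      · exact Or.inr (Or.inl (by rw [hc, e, mul_assoc, h.tr_sq hy, mul_one]))
    obtain ⟨z, hz, ez, -, -, e'⟩ := h.tr_mul_same hy' hy ey hyy
    refine Or.inr (Or.inr ⟨z, hz, ez.trans ey, ?_⟩)
    rcases e with e | e
    · exact Or.inr (by rw [hc, e, e'])
    · exact Or.inl (by rw [hc, e, mul_assoc, e', ← mul_assoc, hpp, one_mul])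
  set c := τ x * τ y * τ x * τ y with hc
  have hc' : τ y * τ x * τ y * τ x = c⁻¹ := by
    rw [hc, mul_inv_rev, mul_inv_rev, mul_inv_rev, h.tr_inv hx, h.tr_inv hy]
    simp only [mul_assoc]
  have fin : c = 1 ∨ c = p → τ x * τ y = τ y * τ x ∨ τ x * τ y = p * (τ y * τ x) := by
    have e : τ x * τ y = c * (τ y * τ x) := by
      rw [hc]
      calc τ x * τ y = τ x * τ y * (τ x * (τ y * τ y) * τ x) := by
            rw [h.tr_sq hy, mul_one, h.tr_sq hx, mul_one]
        _ = _ := by simp only [mul_assoc]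
    rintro (h1 | h1) <;> rw [h1] at e
    · exact Or.inl (by rw [e, one_mul])
    · exact Or.inr e
  rcases key x y hx hy c rfl with h1 | h1 | ⟨z, hz, ez, h1⟩
  · exact fin (Or.inl h1)
  · exact fin (Or.inr h1)
  rcases key y x hy hx c⁻¹ hc'.symm with h2 | h2 | ⟨w, hw, ew, h2⟩
  · exact fin (Or.inl (inv_eq_one.1 h2))
  · exact fin (Or.inr (by rw [← inv_inv c, h2, h.hyp.inv_eq h.memp]))
  exfalso
  have h3 : c = τ w ∨ c = p * τ w := by
    rcases h2 with h2 | h2
    · exact Or.inl (by rw [← inv_inv c, h2, h.tr_inv hw])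
    · exact Or.inr (by rw [← inv_inv c, h2, mul_inv_rev, h.tr_inv hw, h.hyp.inv_eq h.memp,
        (h.p_commute_tr hw).eq])
  apply hab
  rw [← ew, ← ez]
  refine h.al_of_tr_eq hw hz ?_
  rcases h1 with h1 | h1 <;> rcases h3 with h3 | h3
  · exact Or.inl (h3.symm.trans h1)
  · exact Or.inr (by rw [← h1, h3, ← mul_assoc, hpp, one_mul])
  · exact Or.inr (h3.symm.trans h1)
  · exact Or.inl (mul_left_cancel (h3.symm.trans h1))

theorem class_two {g k : G} (hg : g ∈ Q) (hk : k ∈ Q) :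
    g * k = k * g ∨ g * k = p * (k * g) := by
  have hcp : ∀ u ∈ Q, Commute p u := fun u hu => (h.conj_line hu).1.symm
  have hpp := h.hyp.mul_self h.memp
  have ext : ∀ g : G, g ∈ Q → (∀ k ∈ insert p (τ '' P), g * k = k * g ∨ g * k = p * (k * g)) →
      ∀ k ∈ Q, g * k = k * g ∨ g * k = p * (k * g) := by
    intro g hg hgen k hk
    induction hk using Subgroup.closure_induction with
    | mem k hk => exact hgen k hk
    | one => left; rw [mul_one, one_mul]
    | mul u v hu hv iu iv =>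
      rcases iu with eu | eu <;> rcases iv with ev | ev
      · left; rw [← mul_assoc, eu, mul_assoc, ev, ← mul_assoc]
      · right
        rw [← mul_assoc, eu, mul_assoc, ev, ← mul_assoc u p, ← (hcp u hu).eq]
        simp only [mul_assoc]
      · right
        rw [← mul_assoc, eu]
        simp only [mul_assoc]
        rw [ev]
      · left
        rw [← mul_assoc, eu]
        simp only [mul_assoc]
        rw [ev, ← mul_assoc u p, ← (hcp u hu).eq, mul_assoc p u, ← mul_assoc p p, hpp, one_mul]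
    | inv u hu iu =>
      rcases iu with eu | eu
      · left
        rw [← mul_right_inj u, ← mul_assoc, ← eu]
        group
      · right
        have h1 : u⁻¹ * g = p * (g * u⁻¹) := by
          calc u⁻¹ * g = u⁻¹ * (g * u) * u⁻¹ := by group
            _ = u⁻¹ * (p * u) * g * u⁻¹ := by rw [eu]; simp only [mul_assoc]
            _ = p * (g * u⁻¹) := by rw [(hcp u hu).eq]; simp only [mul_assoc, inv_mul_cancel_left]
        rw [h1, ← mul_assoc p p, hpp, one_mul]
  have swap : ∀ a b : G, a * b = b * a ∨ a * b = p * (b * a) →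
      b * a = a * b ∨ b * a = p * (a * b) := by
    rintro a b (e | e)
    · exact Or.inl e.symm
    · exact Or.inr (by rw [e, ← mul_assoc, hpp, one_mul])
  refine ext g hg (fun k hk => ?_) k hk
  have hkQ : k ∈ Q := Subgroup.subset_closure hk
  refine swap _ _ (ext k hkQ (fun g' hg' => ?_) g hg)
  rcases hk with rfl | ⟨x, hx, rfl⟩
  · exact Or.inl (hcp g' (Subgroup.subset_closure hg')).eq
  rcases hg' with rfl | ⟨y, hy, rfl⟩
  · exact Or.inl (h.p_commute_tr hx).symm.eq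
  exact h.commutator_gen hx hy

theorem not_commute_eq {g k : G} (hg : g ∈ Q) (hk : k ∈ Q) (hc : ¬ Commute g k) :
    g * k = p * (k * g) := (h.class_two hg hk).resolve_left hc

theorem bit_mul {g g' k : G} (hg : g ∈ Q) (hg' : g' ∈ Q) (hk : k ∈ Q) :
    bit (g * g') k = bit g k + bit g' k := by
  have hcp : ∀ u ∈ Q, Commute p u := fun u hu => (h.conj_line hu).1.symm
  by_cases h1 : Commute g k <;> by_cases h2 : Commute g' k
  · rw [bit_eq_zero.2 h1, bit_eq_zero.2 h2, bit_eq_zero.2 (h1.mul_left h2), add_zero]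
  · rw [bit_eq_zero.2 h1, bit_eq_one.2 h2, zero_add, bit_eq_one]
    intro hc; apply h2
    have := (h1.inv_left).mul_left hc
    rwa [inv_mul_cancel_left] at this
  · rw [bit_eq_one.2 h1, bit_eq_zero.2 h2, add_zero, bit_eq_one]
    intro hc; apply h1
    have := hc.mul_left h2.inv_left
    rwa [mul_inv_cancel_right] at this
  · rw [bit_eq_one.2 h1, bit_eq_one.2 h2, show (1 : ZMod 2) + 1 = 0 from rfl, bit_eq_zero]
    show g * g' * k = k * (g * g')
    rw [mul_assoc, h.not_commute_eq hg' hk h2, ← mul_assoc g p, ← (hcp g hg).eq, mul_assoc p g,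
      ← mul_assoc g k, h.not_commute_eq hg hk h1]
    simp only [← mul_assoc, h.hyp.mul_self h.memp, one_mul]

theorem bit_mul_right {g g' k : G} (hg : g ∈ Q) (hg' : g' ∈ Q) (hk : k ∈ Q) :
    bit k (g * g') = bit k g + bit k g' := by
  rw [bit_comm, h.bit_mul hg hg' hk, bit_comm g, bit_comm g']

/-- A translation is fixed on the points of `p` when it commutes with all translations. -/
theorem fix_pts {g x : G} (hg : g ∈ Q) (hx : x ∈ P) (hfix : g * α x * g⁻¹ = α x) :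
    g * x * g⁻¹ = x := by
  obtain ⟨y, hy, ey, e⟩ := h.tr_conj hg hx
  have e0 : g * τ x * g⁻¹ = α x * (g * x * g⁻¹) := by
    conv_rhs => rw [← hfix]
    rw [tr]; group
  obtain ⟨h1, h2⟩ := h.conj_nbr hg hx.1
  have hne : g * x * g⁻¹ ≠ α x := fun e' =>
    h.al_ne hx (mul_left_cancel (mul_right_cancel (hfix.trans e'.symm)))
  have hpt : g * x * g⁻¹ ∈ P := ⟨h1, fun hq => hne (by
    rw [h.al_eq h1 (h.hyp.self_mem h.memp h1).2 hq, h2])⟩
  have e1 : g * τ x * g⁻¹ = τ (g * x * g⁻¹) := by rw [e0, tr, h2]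
  rcases h.class_two hg (h.tr_mem hx) with hc | hc
  · rw [hc, mul_inv_cancel_right] at e1
    exact (h.tr_injective hx hpt e1).symm
  · rw [hc, ← mul_assoc, mul_inv_cancel_right] at e1
    exact absurd e1.symm (h.tr_ne_p_mul_tr hpt hx)

/-- The translations fixing `q` are trivial. -/
theorem stab_trivial {g : G} (hg : g ∈ Q) (hq : g * q * g⁻¹ = q)
    (orbit : ∀ d ∈ D, ¬ Commute p d → ∃ k ∈ Q, d = k * q * k⁻¹) : g = 1 := by
  obtain ⟨hgp, -⟩ := h.conj_line hg
  have hfa : ∀ {a : G}, a ∈ com D p q → g * a * g⁻¹ = a := by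
    intro a ha
    obtain ⟨hn, haa⟩ := h.com_nbr ha
    obtain ⟨h1, h2⟩ := h.conj_nbr hg hn
    have hc : Commute q (g * a * g⁻¹) := by
      rw [← hq]; exact commute_conj_iff'.2 ha.2.2.symm
    rw [h.al_eq h1 (h.hyp.self_mem h.memp h1).2 hc, h2, haa]
  have hcen : ∀ k ∈ Q, Commute k g := by
    intro k hk
    refine ((commute_closure_iff (g := g)).2 ?_ k hk)
    rintro s (rfl | ⟨x, hx, rfl⟩)
    · exact hgp.symm
    · refine Commute.symm ?_
      show g * τ x = τ x * g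
      have ha := hfa (h.al_mem_com hx.1)
      have hxx := h.fix_pts hg hx ha
      have e : g * τ x * g⁻¹ = τ x := by
        rw [tr, show g * (α x * x) * g⁻¹ = g * α x * g⁻¹ * (g * x * g⁻¹) by group, ha, hxx]
      conv_rhs => rw [← e]
      rw [inv_mul_cancel_right]
  refine h.hyp.central g fun d hd => ?_
  by_cases hdp : Commute p d
  · by_cases hdp' : d = p
    · rw [hdp']; exact hgp
    have hn : d ∈ nbr D p := ⟨hd, hdp', hdp⟩
    have hfix : g * d * g⁻¹ = d := by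
      by_cases hda : d = α d
      · rw [hda]; exact hfa (h.al_mem_com hn)
      · have hdP : d ∈ P := ⟨hn, fun hh => hda (h.al_eq hn (h.hyp.self_mem h.memp hn).2 hh)⟩
        exact h.fix_pts hg hdP (hfa (h.al_mem_com hn))
    show g * d = d * g
    conv_rhs => rw [← hfix]
    rw [inv_mul_cancel_right]
  · obtain ⟨k, hk, rfl⟩ := orbit d hd hdp
    show g * (k * q * k⁻¹) = k * q * k⁻¹ * g
    have e : Commute g q := by
      show g * q = q * g
      conv_rhs => rw [← hq]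
      rw [inv_mul_cancel_right]
    exact (((hcen k hk).symm.mul_right e).mul_right (hcen k hk).symm.inv_right)

/-- The neighbours of `q` opposite to `p`. -/
theorem near {d : G} (hd : d ∈ D) (hdp : ¬ Commute p d) (hqd : Commute q d) (hne : d ≠ q) :
    ∃ x ∈ P, d = p * τ x * q * (p * τ x)⁻¹ := by
  have hn : d ∈ nbr D q := ⟨hd, hne, hqd⟩
  obtain ⟨r, hr, hpr⟩ := h.hyp.exists_proj h.memq hn h.memp
  have hrq : r ≠ q := fun e => h.opp (e ▸ hpr)
  have hra : r ∈ com D p q := ⟨hr.1, hpr.symm, (h.hyp.pl_subset_com h.memq hn hr).2.1⟩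
  obtain ⟨hrn, hrr⟩ := h.com_nbr hra
  have hrq' : r ∈ nbr D q := ⟨hr.1, hrq, hra.2.2.symm⟩
  have hL : pl D q r = pl D q d := h.hyp.pl_eq h.memq hn (h.hyp.self_mem h.memq hn).1 hr hrq.symm
  obtain ⟨x, y, z, hx, hy, hz, ex, ey, ez, hxy, hxz, hyz, -⟩ := h.exists_three hra
  let F : G → G := fun w => p * w * q * (p * w)⁻¹
  have hF : ∀ w ∈ P, α w = r → F w = p * τ w * q * (p * τ w)⁻¹ ∧ F w ∈ pl D q r ∧
      F w ≠ q ∧ F w ≠ r ∧ Commute (p * w) r := by
    intro w hw ew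
    obtain ⟨-, c1, -, c2, c3⟩ := h.pts_line hw hw rfl
    rw [ew] at c1 c3
    have hc : Commute (p * w) r := c3.mul_left c1.symm
    refine ⟨?_, ?_, ?_, ?_, hc⟩
    · show p * w * q * (p * w)⁻¹ = _
      rw [tr, ew, show p * (r * w) = p * w * r by rw [c1.eq, mul_assoc],
        show p * w * r * q * (p * w * r)⁻¹ = p * w * (r * q * r⁻¹) * (p * w)⁻¹ by group,
        hra.2.2.eq, mul_inv_cancel_right]
    · -- conjugation by two points of the line of `p` through `r`
      have hpn : p ∈ nbr D r := h.hyp.mem_nbr_comm h.memp hrn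
      have hwL : w ∈ pl D r p := by
        rw [pl_comm]; exact ((h.mem_pts_iff hra).1 ⟨hw, ew⟩).1
      have := h.hyp.conj_mem_pl hr.1 hpn hwL ((h.mem_pts_iff hra).1 ⟨hw, ew⟩).2.2
        (h.hyp.mem_nbr_comm h.memq hrq')
      rwa [pl_comm r q] at this
    · intro e
      have hcq : Commute (p * w) q := by
        show p * w * q = q * (p * w)
        conv_rhs => rw [← e]
        show _ = p * w * q * (p * w)⁻¹ * (p * w)
        rw [inv_mul_cancel_right]
      exact h.opp (commute_of_commute_mul h.hyp.ttg.1 h.memq h.memp hw.1.1 c2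
        (fun e' => hw.1.2.1 e'.symm) hcq.symm).1.symm
    · intro e
      apply hrq
      have : q = (p * w)⁻¹ * r * (p * w) := by rw [← e]; show q = (p * w)⁻¹ * (p * w * q * (p * w)⁻¹) * (p * w); group
      rw [this, mul_assoc, ← hc.eq, inv_mul_cancel_left]
  have hinj : ∀ {v w : G}, v ∈ P → w ∈ P → α v = r → α w = r → v ≠ w → F v ≠ F w := by
    intro v w hv hw ev ew hne' e
    have hcq : Commute q (v * w) := by
      have e1 : (p * v)⁻¹ * (p * w) * q * ((p * v)⁻¹ * (p * w))⁻¹ = q := by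
        rw [show (p * v)⁻¹ * (p * w) * q * ((p * v)⁻¹ * (p * w))⁻¹ =
          (p * v)⁻¹ * (F w) * (p * v) by show _ = (p * v)⁻¹ * (p * w * q * (p * w)⁻¹) * (p * v); group,
          ← e]
        show (p * v)⁻¹ * (p * v * q * (p * v)⁻¹) * (p * v) = q
        group
      have e2 : (p * v)⁻¹ * (p * w) = v * w := by
        rw [mul_inv_rev, mul_assoc, inv_mul_cancel_left, h.hyp.inv_eq hv.1.1]
      rw [e2] at e1
      show q * (v * w) = v * w * q
      conv_lhs => rw [← e1]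
      rw [inv_mul_cancel_right]
    exact hv.2 (commute_of_commute_mul h.hyp.ttg.1 h.memq hv.1.1 hw.1.1
      (h.pts_line hv hw (ev.trans ew.symm)).1 hne' hcq).1
  obtain ⟨a1, b1, c1, d1, -⟩ := hF x hx ex
  obtain ⟨a2, b2, c2, d2, -⟩ := hF y hy ey
  obtain ⟨a3, b3, c3, d3, -⟩ := hF z hz ez
  have hdr : d ≠ r := fun e => hdp (e ▸ hpr)
  rcases h.hyp.line_exhaust h.memq hrq' (h.five q h.memq r hrq') (h.hyp.self_mem h.memq hrq').1
    (h.hyp.self_mem h.memq hrq').2 b1 b2 b3 hrq.symm c1.symm c2.symm c3.symm d1.symm d2.symm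
    d3.symm (hinj hx hy ex ey hxy) (hinj hx hz ex ez hxz) (hinj hy hz ey ez hyz)
    (hL.symm ▸ (h.hyp.self_mem h.memq hn).2 : d ∈ pl D q r) with e | e | e | e | e
  · exact absurd e hne
  · exact absurd e hdr
  · exact ⟨x, hx, by rw [e, a1]⟩
  · exact ⟨y, hy, by rw [e, a2]⟩
  · exact ⟨z, hz, by rw [e, a3]⟩

theorem opp_conj {g : G} (hg : g ∈ Q) {d : G} (hd : ¬ Commute p d) :
    ¬ Commute p (g * d * g⁻¹) := by
  intro hc
  apply hd
  rw [← commute_conj_iff' (g := g)]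
  rwa [show g * p * g⁻¹ = p by rw [(h.conj_line hg).1.eq, mul_inv_cancel_right]]

/-- The opposite members form one orbit. -/
theorem orbit {d : G} (hd : d ∈ D) (hdp : ¬ Commute p d) : ∃ k ∈ Q, d = k * q * k⁻¹ := by
  have step : ∀ z ∈ D, ¬ Commute p z → Commute z d ∨ True → ∀ w ∈ D, ¬ Commute p w → Commute z w →
      (∃ k ∈ Q, z = k * q * k⁻¹) → ∃ k ∈ Q, w = k * q * k⁻¹ := by
    rintro z _ _ - w hw hwp hzw ⟨k, hk, rfl⟩
    by_cases e : w = k * q * k⁻¹
    · exact ⟨k, hk, e⟩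
    have hw' : k⁻¹ * w * k ∈ D := by simpa using h.hyp.ttg.2.1 k⁻¹ w hw
    have hop : ¬ Commute p (k⁻¹ * w * k) := by
      have := h.opp_conj ((tg D p q).inv_mem hk) hwp; simpa using this
    obtain ⟨x, hx, ex⟩ := h.near hw' hop (by
      rw [← commute_conj_iff' (g := k), show k * (k⁻¹ * w * k) * k⁻¹ = w by group]
      exact hzw) fun e' => e (by rw [← e']; group)
    refine ⟨k * (p * τ x), (tg D p q).mul_mem hk ((tg D p q).mul_mem h.p_mem (h.tr_mem hx)), ?_⟩
    rw [show k * (p * τ x) * q * (k * (p * τ x))⁻¹ = k * (p * τ x * q * (p * τ x)⁻¹) * k⁻¹ by group,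
      ← ex]
    group
  have step' : ∀ z w, z ∈ D → w ∈ D → ¬ Commute p z → ¬ Commute p w → Commute z w →
      (∃ k ∈ Q, z = k * q * k⁻¹) → ∃ k ∈ Q, w = k * q * k⁻¹ :=
    fun z w hz hw hzp hwp hzw => step z hz hzp (Or.inr trivial) w hw hwp hzw
  have base : ∃ k ∈ Q, q = k * q * k⁻¹ := ⟨1, (tg D p q).one_mem, by group⟩
  by_cases hqd : Commute q d
  · exact step' q d h.memq hd h.opp hdp hqd base
  -- a path of length two, or three
  have two : ∀ z ∈ D, ¬ Commute p z → (∃ k ∈ Q, z = k * q * k⁻¹) → ¬ Commute z d →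
      (∃ r ∈ com D p z, ¬ Commute d r) → ∃ k ∈ Q, d = k * q * k⁻¹ := by
    intro z hz hzp hzo hzd ⟨r, hr, hdr⟩
    have hrn : r ∈ nbr D z := ⟨hr.1, fun e => hzp (e ▸ hr.2.1.symm), hr.2.2.symm⟩
    obtain ⟨w, hw, hdw⟩ := h.hyp.exists_proj hz hrn hd
    have hzw : Commute z w := (h.hyp.pl_subset_com hz hrn hw).2.1.symm
    have hwp : ¬ Commute p w := by
      intro hpw
      refine hzp (h.hyp.commute_line hz hrn hw (h.hyp.self_mem hz hrn).2 (fun e => hdr (e ▸ hdw))
        h.memp hpw hr.2.1.symm (h.hyp.self_mem hz hrn).1)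
    exact step' w d hw.1 hd hwp hdp hdw.symm (step' z w hz hw.1 hzp hwp hzw hzo)
  by_cases hall : ∀ r ∈ com D p q, Commute d r
  swap
  · push Not at hall
    exact two q h.memq h.opp base hqd hall
  have hl := h.hyp.hypLine h.five p h.memp q h.memq d hd h.opp fun g hg => hall g hg.2
  rcases hl with rfl | rfl | e
  · exact absurd (Commute.refl _) hdp
  · exact base
  obtain ⟨r, -, hr⟩ := h.hyp.com_nonempty h.hyp.good_univ h.hyp.hasLine_univ h.memp h.memq
  have hrn : r ∈ nbr D q := ⟨hr.1, fun e' => h.opp (e' ▸ hr.2.1.symm), hr.2.2.symm⟩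
  obtain ⟨z, hz, hzq, hzr⟩ := h.hyp.exists_third h.memq hrn
  have hqz : Commute q z := (h.hyp.pl_subset_com h.memq hrn hz).2.1.symm
  have hzp : ¬ Commute p z := fun hh => h.opp (h.hyp.commute_line h.memq hrn hz
    (h.hyp.self_mem h.memq hrn).2 hzr h.memp hh hr.2.1.symm (h.hyp.self_mem h.memq hrn).1)
  have hzo := step' q z h.memq hz.1 h.opp hzp hqz base
  by_cases hzd : Commute z d
  · exact step' z d hz.1 hd hzp hdp hzd hzo
  by_cases hall' : ∀ s ∈ com D p z, Commute d s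
  swap
  · push Not at hall'
    exact two z hz.1 hzp hzo hzd hall'
  exfalso
  rcases h.hyp.hypLine h.five p h.memp z hz.1 d hd hzp fun g hg => hall' g hg.2 with e' | e' | e'
  · exact hdp (e' ▸ Commute.refl p)
  · exact hzd (e' ▸ Commute.refl z)
  · exact hzq (mul_left_cancel (mul_right_cancel (e.symm.trans e'))).symm

theorem stab_eq_one {g : G} (hg : g ∈ Q) (hq : g * q * g⁻¹ = q) : g = 1 :=
  h.stab_trivial hg hq fun _ hd hdp => h.orbit hd hdp

theorem torsor {g k : G} (hg : g ∈ Q) (hk : k ∈ Q) (he : g * q * g⁻¹ = k * q * k⁻¹) : g = k := by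
  have := h.stab_eq_one ((tg D p q).mul_mem ((tg D p q).inv_mem hk) hg) (by
    rw [show k⁻¹ * g * q * (k⁻¹ * g)⁻¹ = k⁻¹ * (g * q * g⁻¹) * k by group, he]
    group)
  rw [inv_mul_eq_one] at this
  exact this.symm

/-- An element commuting with all translations is trivial or `p`. -/
theorem kernel {g : G} (hg : g ∈ Q) (hz : ∀ x ∈ P, Commute g (τ x)) : g = 1 ∨ g = p := by
  -- such an element permutes the points of each line through `p` by fixing them
  have hfix : ∀ a ∈ com D p q, g * a * g⁻¹ = a := by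
    intro a ha
    obtain ⟨hn, haa⟩ := h.com_nbr ha
    obtain ⟨h1, h2⟩ := h.conj_nbr hg hn
    rw [haa] at h2
    by_contra hne
    have hm : g * a * g⁻¹ ∈ P := ⟨h1, fun hh => hne (by
      rw [h.al_eq h1 (h.hyp.self_mem h.memp h1).2 hh, h2])⟩
    obtain ⟨x, y, z, hx, hy, hz', ex, ey, ez, hxy, hxz, hyz, hall⟩ := h.exists_three ha
    -- a second point not mapped to `a`
    obtain ⟨w, hw, ew, hwm⟩ : ∃ w ∈ P, α w = a ∧ w ≠ g * a * g⁻¹ := by
      by_cases e : x = g * a * g⁻¹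
      · exact ⟨y, hy, ey, e ▸ hxy.symm⟩
      · exact ⟨x, hx, ex, e⟩
    have hcm : g * τ w * g⁻¹ = τ w := by rw [(hz w hw).eq, mul_inv_cancel_right]
    obtain ⟨h3, h4⟩ := h.conj_nbr hg hw.1
    have e2 : g * a * g⁻¹ * (g * w * g⁻¹) = τ w := by
      rw [← hcm, tr, ew]; group
    by_cases hwa : g * w * g⁻¹ = a
    · have c := (h.pts_line hm hm rfl).2.1
      rw [h2] at c
      rw [hwa, tr, ew, ← c.eq] at e2
      exact hwm (mul_left_cancel e2).symm
    · have hm' : g * w * g⁻¹ ∈ P := ⟨h3, fun hh => hwa (by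
        rw [h.al_eq h3 (h.hyp.self_mem h.memp h3).2 hh, h4, ew])⟩
      have hne' : g * a * g⁻¹ ≠ g * w * g⁻¹ := fun e' => h.al_ne hw (by
        rw [ew]; exact mul_left_cancel (mul_right_cancel e'))
      obtain ⟨t, ht, -, -, -, e3⟩ := h.tr_mul_same hm hm' (by rw [h2, h4, ew]) hne'
      rw [← h.tr_mul hm hm' (by rw [h2, h4, ew]), e3] at e2
      exact h.tr_ne_p_mul_tr hw ht e2.symm
  have hd : ∀ r ∈ D ∩ com D p q, Commute (g * q * g⁻¹) r := by
    intro r hr
    rw [← hfix r hr.2]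
    exact commute_conj_iff'.2 hr.2.2.2.symm
  have hgd := h.hyp.ttg.2.1 g q h.memq
  rcases h.hyp.hypLine h.five p h.memp q h.memq _ hgd h.opp hd with e | e | e
  · exact absurd (e ▸ Commute.refl p) (h.opp_conj hg h.opp)
  · exact Or.inl (h.stab_eq_one hg e)
  · refine Or.inr (h.torsor hg h.p_mem ?_)
    rw [e, h.hyp.inv_eq h.memp]

end Frame

end CfsgLib.FischerPolar
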