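import Mathlib
import Cfsg.Agent.FischerPolar.Frame

/-!
The transports between lines through a member respect a cyclic order of their points.
-/

set_option autoImplicit false
set_option linter.unusedSectionVars false
set_option linter.style.haveILetI false

namespace CfsgLib.FischerPolar

open Cfsg CfsgLib.ThreeTransp CfsgLib.FischerGQ

variable {G : Type*} [Group G] {D : Set G}

/-- The transport of a point to the line of `b`. -/
noncomputable def mv (D : Set G) (p q x b : G) : G := tr D p q x * b * (tr D p q x)⁻¹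

/-- One of the two rotations of three letters. -/
def rot (u : ℤˣ) : Equiv.Perm (Fin 3) := if u = 1 then finRotate 3 else (finRotate 3)⁻¹

theorem rot_spec : ∀ u : ℤˣ, ∀ i : Fin 3, rot u i ≠ i ∧ rot u (rot u (rot u i)) = i := by decide

theorem rot_conj : ∀ (π : Equiv.Perm (Fin 3)) (u : ℤˣ) (i : Fin 3),
    π (rot u i) = rot (u * Equiv.Perm.sign π) (π i) := by decide

theorem sign_of_free : ∀ π : Equiv.Perm (Fin 3), (∀ i, π i ≠ i) → Equiv.Perm.sign π = 1 := by decide

namespace Frame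

variable [Finite G] {p q : G} (h : Frame D p q)

include h

local notation "α" => al D p q
local notation "τ" => tr D p q
local notation "P" => pts D p q
local notation "Q" => tg D p q

theorem bab_mem {a b : G} (ha : a ∈ com D p q) (hb : b ∈ com D p q) : b * a * b ∈ com D p q :=
  ⟨h.hyp.conj_mem hb.1 ha.1, (hb.2.1.mul_left ha.2.1).mul_left hb.2.1,
    (hb.2.2.mul_left ha.2.2).mul_left hb.2.2⟩

theorem commute_pts {x b : G} (hx : x ∈ P) (hb : b ∈ com D p q) (hc : Commute (α x) b) :
    Commute (τ x) b := by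
  have hn := (h.com_nbr (h.al_mem_com hx.1)).1
  have := ((h.mem_pts_iff (h.al_mem_com hx.1)).1 ⟨hx, rfl⟩).1.2 b ⟨hb.1, hb.2.1, hc.symm⟩
  exact hc.mul_left this.symm

theorem commute_tr_of_commute {x y : G} (hx : x ∈ P) (hy : y ∈ P) (hc : Commute (α x) (α y)) :
    Commute (τ x) (τ y) := by
  have hax := h.al_mem_com hx.1
  have hay := h.al_mem_com hy.1
  have mx := ((h.mem_pts_iff hax).1 ⟨hx, rfl⟩).1
  have my := ((h.mem_pts_iff hay).1 ⟨hy, rfl⟩).1
  have hxb : Commute x (α y) := (mx.2 _ ⟨hay.1, hay.2.1, hc.symm⟩).symm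
  have hya : Commute (α x) y := my.2 _ ⟨hax.1, hax.2.1, hc⟩
  have hyx : Commute x y := my.2 _ ⟨hx.1.1, hx.1.2.2.symm, hxb⟩
  exact (hc.mul_right hya).mul_left (hxb.mul_right hyx)

theorem not_commute_tr {x b : G} (hx : x ∈ P) (hb : b ∈ com D p q) (hnc : ¬ Commute (α x) b) :
    ¬ Commute (τ x) b := fun hc =>
  hnc (commute_of_commute_mul h.hyp.ttg.1 hb.1 (h.al_mem_com hx.1).1 hx.1.1
    (h.pts_line hx hx rfl).2.1 (h.al_ne hx) hc.symm).1.symm

theorem mv_mem {x b : G} (hx : x ∈ P) (hb : b ∈ com D p q) (hnc : ¬ Commute (α x) b) :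
    mv D p q x b ∈ P ∧ α (mv D p q x b) = b := by
  obtain ⟨hn, hbb⟩ := h.com_nbr hb
  obtain ⟨h1, h2⟩ := h.conj_nbr (h.tr_mem hx) hn
  rw [hbb] at h2
  refine ⟨⟨h1, fun hq => h.not_commute_tr hx hb hnc ?_⟩, h2⟩
  have e := (h.al_eq h1 (h.hyp.self_mem h.memp h1).2 hq).trans h2
  show τ x * b = b * τ x
  conv_rhs => rw [← e]
  show _ = τ x * b * (τ x)⁻¹ * τ x
  rw [inv_mul_cancel_right]

theorem mv_inj {x y b : G} (hx : x ∈ P) (hy : y ∈ P) (he : α x = α y) (hb : b ∈ com D p q)
    (hnc : ¬ Commute (α x) b) (e : mv D p q x b = mv D p q y b) : x = y := by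
  by_contra hne
  obtain ⟨z, hz, ez, -, -, e'⟩ := h.tr_mul_same hy hx he.symm (Ne.symm hne)
  apply h.not_commute_tr hz hb (by rwa [ez, ← he])
  have hc : Commute (τ y * τ x) b := by
    show τ y * τ x * b = b * (τ y * τ x)
    have e2 : τ x * b = τ y * b * (τ y)⁻¹ * τ x := by
      have := congrArg (fun t => t * τ x) e
      simpa only [mv, inv_mul_cancel_right] using this
    rw [mul_assoc, e2, h.tr_inv hy]
    simp only [← mul_assoc, h.tr_sq hy, one_mul]
  rw [e'] at hc
  have hp' : Commute p b := hb.2.1.symm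
  have := hp'.mul_left hc
  rwa [← mul_assoc, h.hyp.mul_self h.memp, one_mul] at this

theorem mv_commute_iff {x y b : G} (hx : x ∈ P) (hy : y ∈ P) (hb : α y = b)
    (hnc : ¬ Commute (α x) b) : Commute (τ x) (τ y) ↔ y = mv D p q x b := by
  have hbc : b ∈ com D p q := hb ▸ h.al_mem_com hy.1
  obtain ⟨hm, em⟩ := h.mv_mem hx hbc hnc
  set m := mv D p q x b with hmdef
  have hsq := h.tr_sq hx
  have e1 : τ x * b * τ x = m := by rw [hmdef, mv, h.tr_inv hx]
  constructor
  · intro hc
    by_contra hne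
    obtain ⟨h1, h2⟩ := h.conj_nbr (h.tr_mem hx) hy.1
    rw [h.tr_inv hx] at h1 h2
    rw [hb] at h2
    -- the image of `y` would be a product of members
    obtain ⟨z, hz, ez, hzy, hzm, e2⟩ := h.exists_other hy hm (by rw [hb, em]) hne
    rw [hb] at e2 ez
    obtain ⟨-, cb, cy, -, -⟩ := h.pts_line hm hy (by rw [em, hb])
    rw [em] at cb cy
    have e3 : m * (τ x * y * τ x) = b * y := by
      have : τ x * τ y * τ x = τ y := by rw [hc.eq, mul_assoc, hsq, mul_one]
      rw [tr, tr, hb, ← tr] at this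
      rw [← e1]
      calc τ x * b * τ x * (τ x * y * τ x) = τ x * b * (τ x * τ x) * y * τ x := by
            simp only [mul_assoc]
        _ = b * y := by rw [hsq, mul_one, mul_assoc (τ x) b y, this]
    have e4 : τ x * y * τ x = p * z := by
      have hm2 := h.hyp.mul_self hm.1.1
      calc τ x * y * τ x = m * (b * y) := by rw [← e3, ← mul_assoc, hm2, one_mul]
        _ = b * (m * y) := by rw [← mul_assoc, cb.symm.eq, mul_assoc]
        _ = b * (y * m) := by rw [(h.pts_line hm hy (by rw [em, hb])).1.eq]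
        _ = b * (p * (b * z)) := by rw [e2]
        _ = p * z := by
            rw [← mul_assoc b p, hbc.2.1.eq, mul_assoc p b, tt_cancel_left h.hyp.ttg.1 hbc.1]
    exact no_rel₃ h.hyp.ttg.1 h.noTwins h.memp hz.1.1 h1.1 hz.1.2.2 hz.1.2.1.symm e4.symm
  · intro e
    replace e1 : τ x * b * τ x = y := e1.trans e.symm
    show τ x * τ y = τ y * τ x
    have hsym : τ x * y * τ x = b := by
      rw [show y = τ x * b * τ x from e1.symm]
      simp only [mul_assoc, hsq, mul_one]
      rw [← mul_assoc, hsq, one_mul]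
    have : τ x * τ y * τ x = τ y := by
      calc τ x * τ y * τ x = τ x * (b * y) * τ x := by rw [show τ y = α y * y from rfl, hb]
        _ = (τ x * b * τ x) * (τ x * y * τ x) := by
            simp only [mul_assoc]
            rw [← mul_assoc (τ x) (τ x), hsq, one_mul]
        _ = y * b := by rw [hsym, e1]
        _ = τ y := by
            rw [show τ y = α y * y from rfl, hb]
            have := (h.pts_line hy hy rfl).2.1
            rw [hb] at this
            exact this.symm.eq
    calc τ x * τ y = τ x * τ y * τ x * τ x := by rw [mul_assoc _ (τ x) (τ x), hsq, mul_one]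
      _ = τ y * τ x := by rw [this]

theorem bit_tr {x y : G} (hx : x ∈ P) (hy : y ∈ P) :
    (Commute (α x) (α y) → bit (τ x) (τ y) = 0) ∧
      (¬ Commute (α x) (α y) → (bit (τ x) (τ y) = 0 ↔ y = mv D p q x (α y))) :=
  ⟨fun hc => bit_eq_zero.2 (h.commute_tr_of_commute hx hy hc),
    fun hnc => bit_eq_zero.trans (h.mv_commute_iff hx hy rfl hnc)⟩

theorem mv_back {x b : G} (hx : x ∈ P) (hb : b ∈ com D p q) (hnc : ¬ Commute (α x) b) :
    mv D p q (mv D p q x b) (α x) = x := by
  obtain ⟨hm, em⟩ := h.mv_mem hx hb hnc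
  have hc := (h.mv_commute_iff hx hm em hnc).2 rfl
  exact ((h.mv_commute_iff hm hx rfl (fun hh => hnc (em ▸ hh.symm))).1 hc.symm).symm

theorem mv_prod {x b : G} (hx : x ∈ P) (hb : b ∈ com D p q) (hnc : ¬ Commute (α x) b) :
    b * x * b ∈ P ∧ α (b * x * b) = b * α x * b ∧
      τ x * τ (mv D p q x b) = τ (b * x * b) := by
  obtain ⟨hm, em⟩ := h.mv_mem hx hb hnc
  have ha := h.al_mem_com hx.1
  have hbab := h.bab_mem ha hb
  have hbi := h.hyp.inv_eq hb.1
  have hbp : b * p * b⁻¹ = p := by rw [hb.2.1.eq, mul_inv_cancel_right]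
  obtain ⟨hxL, hxp, hxa⟩ := (h.mem_pts_iff ha).1 ⟨hx, rfl⟩
  have hmem : b * x * b ∈ P ∧ α (b * x * b) = b * α x * b := by
    refine (h.mem_pts_iff hbab).2 ⟨?_, fun e => hxp ?_, fun e => hxa ?_⟩
    · have := pl_conj h.hyp.ttg b p (α x)
      rw [hbp] at this
      rw [show b * α x * b = b * α x * b⁻¹ by rw [hbi], this]
      exact ⟨x, hxL, by rw [hbi]⟩
    · rw [show x = b⁻¹ * (b * x * b) * b⁻¹ by group, e, hbi, hb.2.1.eq, mul_assoc,
        h.hyp.mul_self hb.1, mul_one]
    · exact mul_left_cancel (mul_right_cancel e)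
  refine ⟨hmem.1, hmem.2, ?_⟩
  set u := τ x with hu
  have hu2 : u * u = 1 := h.tr_sq hx
  have hb2 := h.hyp.mul_self hb.1
  have ev : τ (b * x * b) = b * u * b := by
    rw [tr, hmem.2, hu, tr]
    calc b * α x * b * (b * x * b) = b * α x * (b * b) * (x * b) := by simp only [mul_assoc]
      _ = b * (α x * x) * b := by rw [hb2, mul_one]; simp only [mul_assoc]
  have em' : mv D p q x b = u * b * u := by rw [mv, ← hu, h.tr_inv hx]
  have hc := (h.pts_line hm hm rfl).2.1
  rw [em] at hc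
  have ew : τ (mv D p q x b) = b * (u * b * u) := by rw [tr, em, em']
  rw [ev, ew]
  -- the fourth power of `u b` is trivial
  have h4 : (u * b * u * b) * (u * b * u * b) = 1 := by
    rw [em'] at hc
    rw [hc.mul_mul_mul_comm, hb2, mul_one]
    calc u * b * u * (u * b * u) = u * b * (u * u) * b * u := by simp only [mul_assoc]
      _ = 1 := by rw [hu2, mul_one, mul_assoc u b b, hb2, mul_one, hu2]
  have hi : (u * b * u * b)⁻¹ = b * u * b * u := by
    rw [mul_inv_rev, mul_inv_rev, mul_inv_rev, hbi, hu, h.tr_inv hx]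
    simp only [mul_assoc]
  have e2 : u * b * u * b = b * u * b * u := by rw [eq_inv_of_mul_eq_one_left h4, hi]
  calc u * (b * (u * b * u)) = u * b * u * b * u := by simp only [mul_assoc]
    _ = b * u * b * (u * u) := by rw [e2]; simp only [mul_assoc]
    _ = b * u * b := by rw [hu2, mul_one]

/-- A coherent cyclic order on the three points of each line. -/
theorem exists_turn : ∃ σ : G → G,
    (∀ x ∈ P, σ x ∈ P ∧ α (σ x) = α x ∧ σ x ≠ x ∧ σ (σ (σ x)) = x) ∧
    ∀ x ∈ P, ∀ b ∈ com D p q, ¬ Commute (α x) b → σ (mv D p q x b) = mv D p q (σ x) b := by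
  classical
  haveI : Inhabited G := ⟨1⟩
  have hR := h.hyp.good_inter h.hyp.good_univ h.memp h.memq h.opp
  have henum : ∀ a ∈ com D p q, ∃ e : Fin 3 → G, Function.Injective e ∧
      (∀ i, e i ∈ P ∧ α (e i) = a) ∧ ∀ w ∈ P, α w = a → ∃ i, e i = w := by
    intro a ha
    obtain ⟨x, y, z, hx, hy, hz, ex, ey, ez, hxy, hxz, hyz, hall⟩ := h.exists_three ha
    refine ⟨![x, y, z], ?_, fun i => ?_, fun w hw hwa => ?_⟩
    · intro i j
      fin_cases i <;> fin_cases j <;> simp [hxy, hxz, hyz, hxy.symm, hxz.symm, hyz.symm]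
    · fin_cases i <;> simp [hx, hy, hz, ex, ey, ez]
    · rcases hall w hw hwa with rfl | rfl | rfl
      exacts [⟨0, rfl⟩, ⟨1, rfl⟩, ⟨2, rfl⟩]
  choose! en hinj hen hsur using henum
  have hperm : ∀ a b : G, a ∈ com D p q → b ∈ com D p q → ¬ Commute a b →
      ∃ π : Equiv.Perm (Fin 3), ∀ i, mv D p q (en a i) b = en b (π i) := by
    intro a b ha hb hab
    have hi : ∀ i, ∃ j, en b j = mv D p q (en a i) b := fun i => by
      obtain ⟨h1, h2⟩ := h.mv_mem (hen a ha i).1 hb (by rwa [(hen a ha i).2])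
      exact hsur b hb _ h1 h2
    choose j hj using hi
    have : Function.Injective j := fun i k e => hinj a ha
      (h.mv_inj (hen a ha i).1 (hen a ha k).1 ((hen a ha i).2.trans (hen a ha k).2.symm) hb
        (by rwa [(hen a ha i).2]) (by rw [← hj, ← hj, e]))
    exact ⟨Equiv.ofBijective j (Finite.injective_iff_bijective.1 this), fun i => (hj i).symm⟩
  choose! π hπ using hperm
  let s : G → G → ℤˣ := fun a b => Equiv.Perm.sign (π a b)
  have hs_symm : ∀ a b : G, a ∈ com D p q → b ∈ com D p q → ¬ Commute a b → s b a = s a b := by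
    intro a b ha hb hab
    have e : π b a * π a b = 1 := Equiv.ext fun i => hinj a ha (by
      rw [Equiv.Perm.mul_apply, ← hπ b a hb ha (fun hh => hab hh.symm), ← hπ a b ha hb hab]
      have := h.mv_back (hen a ha i).1 hb (by rwa [(hen a ha i).2])
      rw [(hen a ha i).2] at this
      exact this)
    have := congrArg Equiv.Perm.sign e
    rw [map_mul, map_one] at this
    show Equiv.Perm.sign (π b a) = Equiv.Perm.sign (π a b)
    rw [eq_inv_of_mul_eq_one_left this, Int.units_inv_eq_self]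
  have htri : ∀ a b c : G, a ∈ com D p q → b ∈ com D p q → c ∈ com D p q → ¬ Commute a b →
      ¬ Commute a c → ¬ Commute b c → s a b * s b c = s a c := by
    intro a b c ha hb hc hab hac hbc
    set M := (π a c)⁻¹ * (π b c * π a b) with hM
    have key : ∀ i, (Commute c (b * a * b) → M i = i) ∧ (¬ Commute c (b * a * b) → M i ≠ i) := by
      intro i
      obtain ⟨hxP, hxa⟩ := hen a ha i
      set x := en a i with hx
      obtain ⟨hy, ey⟩ := h.mv_mem hxP hb (by rwa [hxa])
      set y := mv D p q x b with hydef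
      obtain ⟨hz, ez, eprod⟩ := h.mv_prod hxP hb (by rwa [hxa])
      rw [hxa] at ez
      rw [← hydef] at eprod
      obtain ⟨hw, ew⟩ := h.mv_mem hxP hc (by rwa [hxa])
      set w := mv D p q x c with hwdef
      have eM : M i = i ↔ mv D p q y c = w := by
        have e1 : mv D p q y c = en c ((π b c * π a b) i) := by
          rw [hydef, hx, hπ a b ha hb hab, hπ b c hb hc hbc]; rfl
        rw [e1, hwdef, hx, hπ a c ha hc hac, hM, Equiv.Perm.mul_apply, Equiv.Perm.inv_eq_iff_eq]
        exact ⟨fun e => by rw [e], fun e => hinj c hc e⟩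
      constructor
      · intro hcd
        have h1 : bit (τ (b * x * b)) (τ w) = 0 :=
          (h.bit_tr hz hw).1 (by rw [ez, ew]; exact hcd.symm)
        rw [← eprod, h.bit_mul (h.tr_mem hxP) (h.tr_mem hy) (h.tr_mem hw),
          ((h.bit_tr hxP hw).2 (by rw [hxa, ew]; exact hac)).2 (by rw [ew]), zero_add] at h1
        have := ((h.bit_tr hy hw).2 (by rw [ey, ew]; exact hbc)).1 h1
        rw [ew] at this
        exact eM.2 this.symm
      · intro hcd hfix
        have hyw := eM.1 hfix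
        have hnc' : ¬ Commute (α (b * x * b)) c := by rw [ez]; exact fun hh => hcd hh.symm
        obtain ⟨h3, e3⟩ := h.mv_mem hz hc hnc'
        obtain ⟨k, hk, ek, hkm⟩ : ∃ k ∈ P, α k = c ∧ k ≠ mv D p q (b * x * b) c := by
          by_cases e : en c 0 = mv D p q (b * x * b) c
          · exact ⟨en c 1, (hen c hc 1).1, (hen c hc 1).2,
              fun e' => absurd (hinj c hc (e.trans e'.symm)) (by decide)⟩
          · exact ⟨en c 0, (hen c hc 0).1, (hen c hc 0).2, e⟩
        have h1 : bit (τ (b * x * b)) (τ k) ≠ 0 := fun e => hkm (by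
          have := ((h.bit_tr hz hk).2 (by rw [ek]; exact hnc')).1 e
          rwa [ek] at this)
        apply h1
        rw [← eprod, h.bit_mul (h.tr_mem hxP) (h.tr_mem hy) (h.tr_mem hk)]
        have i1 := (h.bit_tr hxP hk).2 (by rw [hxa, ek]; exact hac)
        have i2 := (h.bit_tr hy hk).2 (by rw [ey, ek]; exact hbc)
        rw [ek, ← hwdef] at i1
        rw [ek, hyw] at i2
        by_cases hkw : k = w
        · rw [i1.2 hkw, i2.2 hkw, add_zero]
        · have e1 : bit (τ x) (τ k) = 1 := by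
            rw [bit_eq_one, ← bit_eq_zero]; exact fun hh => hkw (i1.1 hh)
          have e2 : bit (τ y) (τ k) = 1 := by
            rw [bit_eq_one, ← bit_eq_zero]; exact fun hh => hkw (i2.1 hh)
          rw [e1, e2]; rfl
    have hsgn : Equiv.Perm.sign M = 1 := by
      by_cases hcd : Commute c (b * a * b)
      · rw [show M = 1 from Equiv.ext fun i => (key i).1 hcd, map_one]
      · exact sign_of_free M fun i => (key i).2 hcd
    rw [hM, map_mul, map_inv, map_mul, inv_mul_eq_one] at hsgn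
    show Equiv.Perm.sign (π a b) * Equiv.Perm.sign (π b c) = Equiv.Perm.sign (π a c)
    rw [hsgn, mul_comm]
  -- the orientation
  obtain ⟨⟨a₀, ha₀⟩⟩ : Nonempty ↥(com D p q) := by
    obtain ⟨r, -, hr⟩ := h.hyp.com_nonempty h.hyp.good_univ h.hyp.hasLine_univ h.memp h.memq
    exact ⟨⟨r, hr⟩⟩
  have hopp : ∀ a b : G, a ∈ com D p q → b ∈ com D p q →
      ∃ w ∈ com D p q, ¬ Commute w a ∧ ¬ Commute w b := by
    intro a b ha hb
    obtain ⟨w, hw, h1, h2⟩ := h.hyp.common_opp hR ⟨ha.1, ha⟩ ⟨hb.1, hb⟩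
    exact ⟨w, hw.2, h1, h2⟩
  have hwell : ∀ b c c' : G, b ∈ com D p q → c ∈ com D p q → c' ∈ com D p q → ¬ Commute c a₀ →
      ¬ Commute c b → ¬ Commute c' a₀ → ¬ Commute c' b →
      s a₀ c * s c b = s a₀ c' * s c' b := by
    intro b c c' hb hc hc' hca hcb hca' hcb'
    have adj : ∀ c c' : G, c ∈ com D p q → c' ∈ com D p q → ¬ Commute c a₀ → ¬ Commute c b →
        ¬ Commute c' a₀ → ¬ Commute c' b → ¬ Commute c c' →
        s a₀ c * s c b = s a₀ c' * s c' b := by
      intro c c' hc hc' hca hcb hca' hcb' hcc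
      rw [← htri a₀ c c' ha₀ hc hc' (fun e => hca e.symm) (fun e => hca' e.symm) hcc,
        mul_assoc, htri c c' b hc hc' hb hcc hcb hcb']
    by_cases hab : Commute a₀ b
    swap
    · rw [htri a₀ c b ha₀ hc hb (fun e => hca e.symm) hab hcb,
        htri a₀ c' b ha₀ hc' hb (fun e => hca' e.symm) hab hcb']
    by_cases hcc : Commute c c'
    swap
    · exact adj c c' hc hc' hca hcb hca' hcb' hcc
    -- the third member of `a₀` and `c`
    set d := a₀ * c * a₀ with hd
    have hdR := h.bab_mem hc ha₀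
    have hac : ¬ Commute a₀ c := fun e => hca e.symm
    obtain ⟨r1, r2, r3⟩ := h.hyp.tri_rel (x := c') ha₀.1 hc.1 hac
    obtain ⟨n1, n2⟩ := h.hyp.tri_not_commute ha₀.1 hc.1 hac
    have hdb : ¬ Commute d b := fun e =>
      hcb ((h.hyp.tri_rel (x := b) ha₀.1 hc.1 hac).2.1 hab.symm e.symm).symm
    have hdc' : ¬ Commute c' d := fun e => hca' (r3 hcc.symm e)
    exact (adj c d hc hdR hca hcb (fun e => n1 e.symm) hdb n2).trans
      (adj d c' hdR hc' (fun e => n1 e.symm) hdb hca' hcb' (fun e => hdc' e.symm))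
  choose! via hvia hvia1 hvia2 using fun b (hb : b ∈ com D p q) => hopp a₀ b ha₀ hb
  let ε : G → ℤˣ := fun b => s a₀ (via b) * s (via b) b
  have hε : ∀ b c : G, b ∈ com D p q → c ∈ com D p q → ¬ Commute b c → ε c = ε b * s b c := by
    intro b c hb hc hbc
    have hεeq : ∀ {b w : G}, b ∈ com D p q → w ∈ com D p q → ¬ Commute w a₀ → ¬ Commute w b →
        ε b = s a₀ w * s w b := fun {b w} hb hw h1 h2 =>
      hwell b (via b) w hb (hvia b hb) hw (hvia1 b hb) (hvia2 b hb) h1 h2
    have hεdir : ∀ {b : G}, b ∈ com D p q → ¬ Commute a₀ b → ε b = s a₀ b := fun {b} hb hab =>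
      htri a₀ (via b) b ha₀ (hvia b hb) hb (fun e => hvia1 b hb e.symm) hab (hvia2 b hb)
    by_cases hab : Commute a₀ b <;> by_cases hac : Commute a₀ c
    · obtain ⟨c₁, hc₁, h1, h2⟩ := hopp a₀ b ha₀ hb
      obtain ⟨w, hw, hw1, hw2, hw3⟩ : ∃ w ∈ com D p q, ¬ Commute w a₀ ∧ ¬ Commute w b ∧
          ¬ Commute w c := by
        by_cases h3 : Commute c₁ c
        swap
        · exact ⟨c₁, hc₁, h1, h2, h3⟩
        have hbc₁ : ¬ Commute b c₁ := fun e => h2 e.symm
        refine ⟨b * c₁ * b, h.bab_mem hc₁ hb, fun e => h1 ?_, fun e => ?_, fun e => hbc ?_⟩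
        · exact ((h.hyp.tri_rel (x := a₀) hb.1 hc₁.1 hbc₁).2.1 hab e.symm).symm
        · exact (h.hyp.tri_not_commute hb.1 hc₁.1 hbc₁).1 e.symm
        · exact ((h.hyp.tri_rel (x := c) hb.1 hc₁.1 hbc₁).2.2 h3.symm e.symm).symm
      rw [hεeq hb hw hw1 hw2, hεeq hc hw hw1 hw3, mul_assoc, htri w b c hw hb hc hw2 hw3 hbc]
    · rw [hεdir hc hac, hεeq hb hc (fun e => hac e.symm) (fun e => hbc e.symm),
        hs_symm b c hb hc hbc, mul_assoc, Int.units_mul_self, mul_one]
    · rw [hεdir hb hab, hεeq hc hb (fun e => hab e.symm) hbc]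
    · rw [hεdir hb hab, hεdir hc hac, htri a₀ b c ha₀ hb hc hab hac hbc]
  -- the turn
  have hidx : ∀ x ∈ P, ∃ i, en (α x) i = x := fun x hx => hsur _ (h.al_mem_com hx.1) x hx rfl
  choose! idx hidx using hidx
  let σ : G → G := fun x => en (α x) (rot (ε (α x)) (idx x))
  have hσ : ∀ a : G, a ∈ com D p q → ∀ i, σ (en a i) = en a (rot (ε a) i) := by
    intro a ha i
    show en (α (en a i)) (rot (ε (α (en a i))) (idx (en a i))) = _
    obtain ⟨h1, h2⟩ := hen a ha i
    have h3 := hidx _ h1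
    rw [h2] at h3
    rw [h2, hinj a ha h3]
  refine ⟨σ, fun x hx => ?_, fun x hx b hb hnc => ?_⟩
  · have ha := h.al_mem_com hx.1
    obtain ⟨i, hi⟩ : ∃ i, en (α x) i = x := ⟨_, hidx x hx⟩
    have key : σ x = en (α x) (rot (ε (α x)) i) := by conv_lhs => rw [← hi, hσ _ ha]
    refine ⟨key ▸ (hen _ ha _).1, key ▸ (hen _ ha _).2, fun e => ?_, ?_⟩
    · exact (rot_spec (ε (α x)) i).1 (hinj _ ha (key.symm.trans (e.trans hi.symm)))
    · rw [key, hσ _ ha, hσ _ ha, (rot_spec _ i).2, hi]
  · have ha := h.al_mem_com hx.1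
    obtain ⟨i, hi⟩ : ∃ i, en (α x) i = x := ⟨_, hidx x hx⟩
    have key : σ x = en (α x) (rot (ε (α x)) i) := by conv_lhs => rw [← hi, hσ _ ha]
    rw [key, hπ _ _ ha hb hnc, rot_conj]
    show σ (mv D p q x b) = _
    rw [show mv D p q x b = mv D p q (en (α x) i) b by rw [hi], hπ _ _ ha hb hnc, hσ b hb,
      hε (α x) b ha hb hnc]

end Frame

end CfsgLib.FischerPolar
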