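import Mathlib
import Cfsg.Agent.FischerPolar.Orient

/-!
The translation group is the unitary Heisenberg group: traces, the hermitian form, the central
coordinate.
-/

set_option autoImplicit false
set_option linter.unusedSectionVars false
set_option linter.style.haveILetI false

namespace CfsgLib.FischerPolar

open Cfsg CfsgLib.ThreeTransp CfsgLib.FischerGQ

variable {G : Type*} [Group G] {D : Set G} {F : Type} [Field F]

/-- The trace vector of a translation. -/
noncomputable def vv (D : Set G) (p q g : G) : G → ZMod 2 := fun y =>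
  haveI := _root_.Classical.propDecidable (y ∈ pts D p q)
  if y ∈ pts D p q then bit g (tr D p q y) else 0

/-- The rotation of trace vectors. -/
noncomputable def jv (D : Set G) (p q : G) (σ : G → G) (v : G → ZMod 2) : G → ZMod 2 := fun y =>
  haveI := _root_.Classical.propDecidable (y ∈ pts D p q)
  if y ∈ pts D p q then v (σ (σ y)) else 0

/-- A translation with rotated trace. -/
noncomputable def jl (D : Set G) (p q : G) (σ : G → G) (g : G) : G :=
  haveI := _root_.Classical.propDecidable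
    (∃ k, k ∈ tg D p q ∧ vv D p q k = jv D p q σ (vv D p q g))
  if hk : ∃ k, k ∈ tg D p q ∧ vv D p q k = jv D p q σ (vv D p q g) then hk.choose else 1

/-- A bit as a scalar. -/
def c2 (a : ZMod 2) : F := if a = 0 then 0 else 1

/-- The hermitian form on translations. -/
noncomputable def hh (D : Set G) (p q : G) (σ : G → G) (ω : F) (g k : G) : F :=
  c2 (bit g (jl D p q σ k)) + ω * c2 (bit g k)

/-- A frame with coherent turns and a primitive cube root of one. -/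
structure Turned (D : Set G) (p q : G) (σ : G → G) (ω : F) : Prop where
  frame : Frame D p q
  turn : ∀ x ∈ pts D p q, σ x ∈ pts D p q ∧ al D p q (σ x) = al D p q x ∧ σ x ≠ x ∧
    σ (σ (σ x)) = x
  equiv : ∀ x ∈ pts D p q, ∀ b ∈ com D p q, ¬ Commute (al D p q x) b →
    σ (mv D p q x b) = mv D p q (σ x) b
  omega : ω * ω + ω + 1 = 0
  two : (1 : F) + 1 = 0

namespace Turned

variable [Finite G] {p q : G} {σ : G → G} {ω : F} (T : Turned D p q σ ω)

include T

local notation "α" => al D p q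
local notation "τ" => tr D p q
local notation "P" => pts D p q
local notation "Q" => tg D p q
local notation "Vv" => vv D p q
local notation "J" => jl D p q σ
local notation "H" => hh D p q σ ω

theorem bit_p {g : G} (hg : g ∈ Q) : bit g p = 0 := bit_eq_zero.2 (T.frame.conj_line hg).1

theorem vv_apply {g y : G} (hy : y ∈ P) : Vv g y = bit g (τ y) := by simp [vv, hy]

theorem vv_mul {g k : G} (hg : g ∈ Q) (hk : k ∈ Q) : Vv (g * k) = Vv g + Vv k := by
  funext y
  by_cases hy : y ∈ P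
  · simp only [Pi.add_apply, T.vv_apply hy]
    exact T.frame.bit_mul hg hk (T.frame.tr_mem hy)
  · simp [vv, hy]

theorem vv_one : Vv 1 = 0 := by
  funext y
  by_cases hy : y ∈ P
  · rw [T.vv_apply hy, Pi.zero_apply, bit_eq_zero]
    exact Commute.one_left _
  · simp [vv, hy]

theorem vv_p : Vv p = 0 := by
  funext y
  by_cases hy : y ∈ P
  · rw [T.vv_apply hy, Pi.zero_apply, bit_eq_zero]
    exact T.frame.p_commute_tr hy
  · simp [vv, hy]

theorem vv_inv {g : G} (hg : g ∈ Q) : Vv g⁻¹ = Vv g := by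
  have h1 := T.vv_mul hg ((tg D p q).inv_mem hg)
  rw [mul_inv_cancel, T.vv_one] at h1
  funext y
  have h2 := congrFun h1 y
  simp only [Pi.zero_apply, Pi.add_apply] at h2
  exact (CharTwo.add_eq_zero.1 h2.symm).symm

theorem ker_vv {g k : G} (hg : g ∈ Q) (hk : k ∈ Q) (he : Vv g = Vv k) : k = g ∨ k = p * g := by
  have h1 : Vv (k * g⁻¹) = 0 := by
    rw [T.vv_mul hk ((tg D p q).inv_mem hg), T.vv_inv hg, he]
    funext y; exact CharTwo.add_self_eq_zero _
  rcases T.frame.kernel ((tg D p q).mul_mem hk ((tg D p q).inv_mem hg)) (fun x hx => by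
    have := congrFun h1 x
    rw [T.vv_apply hx] at this
    exact bit_eq_zero.1 this) with e | e
  · exact Or.inl (mul_inv_eq_one.1 e)
  · exact Or.inr (mul_inv_eq_iff_eq_mul.1 e)

theorem bit_congr {g g' k : G} (hg : g ∈ Q) (hg' : g' ∈ Q) (hk : k ∈ Q) (he : Vv g = Vv g') :
    bit g k = bit g' k := by
  rcases T.ker_vv hg hg' he with rfl | rfl
  · rfl
  · rw [T.frame.bit_mul T.frame.p_mem hg hk, bit_comm p, T.bit_p hk, zero_add]

theorem three_exhaust {x u : G} (hx : x ∈ P) (hu : u ∈ P) (he : α u = α x) :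
    u = x ∨ u = σ x ∨ u = σ (σ x) := by
  obtain ⟨h1, e1, n1, c1⟩ := T.turn x hx
  obtain ⟨h2, e2, n2, -⟩ := T.turn _ h1
  have n3 : σ (σ x) ≠ x := fun e => n1 (by have := congrArg σ e; rw [c1] at this; exact this.symm)
  obtain ⟨a, b, c, -, -, -, -, -, -, hab, hac, hbc, hall⟩ :=
    T.frame.exists_three (T.frame.al_mem_com hx.1)
  rcases hall u hu he with rfl | rfl | rfl <;> rcases hall x hx rfl with rfl | rfl | rfl <;>
    rcases hall _ h1 e1 with e | e | e <;>
    rcases hall _ h2 (e2.trans e1) with e' | e' | e' <;>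
    simp_all

theorem turn_two {x : G} (hx : x ∈ P) : σ (σ x) ∈ P ∧ α (σ (σ x)) = α x ∧ σ (σ x) ≠ σ x ∧
    σ (σ x) ≠ x := by
  obtain ⟨h1, e1, n1, c1⟩ := T.turn x hx
  obtain ⟨h2, e2, n2, -⟩ := T.turn _ h1
  exact ⟨h2, e2.trans e1, n2,
    fun e => n1 (by have := congrArg σ e; rw [c1] at this; exact this.symm)⟩

theorem tr_turn {x : G} (hx : x ∈ P) : τ (σ x) * τ (σ (σ x)) = p * τ x := by
  obtain ⟨h1, e1, -, -⟩ := T.turn x hx
  obtain ⟨h2, e2, n2, -⟩ := T.turn_two hx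
  obtain ⟨w, hw, ew, hw1, hw2, e⟩ := T.frame.tr_mul_same h1 h2 (e1.trans e2.symm) n2.symm
  rcases T.three_exhaust hx hw (ew.trans e1) with rfl | rfl | rfl
  · exact e
  · exact absurd rfl hw1
  · exact absurd rfl hw2

theorem bit_turn {x y : G} (hx : x ∈ P) (hy : y ∈ P) :
    bit (τ (σ x)) (τ y) = bit (τ x) (τ (σ (σ y))) := by
  obtain ⟨hsx, esx, -, cx⟩ := T.turn x hx
  obtain ⟨hsy, esy, -, -⟩ := T.turn_two hy
  by_cases hc : Commute (α x) (α y)
  · rw [(T.frame.bit_tr hsx hy).1 (by rw [esx]; exact hc),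
      (T.frame.bit_tr hx hsy).1 (by rw [esy]; exact hc)]
  · have i1 := (T.frame.bit_tr hsx hy).2 (by rw [esx]; exact hc)
    have i2 := (T.frame.bit_tr hx hsy).2 (by rw [esy]; exact hc)
    rw [esy] at i2
    rw [← T.equiv x hx (α y) (T.frame.al_mem_com hy.1) hc] at i1
    obtain ⟨hm, -⟩ := T.frame.mv_mem hx (T.frame.al_mem_com hy.1) hc
    have key : y = σ (mv D p q x (α y)) ↔ σ (σ y) = mv D p q x (α y) := by
      constructor
      · intro e
        conv_lhs => rw [e]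
        exact (T.turn _ hm).2.2.2
      · intro e
        conv_rhs => rw [← e]
        exact (T.turn y hy).2.2.2.symm
    by_cases h1 : bit (τ (σ x)) (τ y) = 0
    · rw [h1, i2.2 (key.1 (i1.1 h1))]
    · have h2 : bit (τ x) (τ (σ (σ y))) ≠ 0 := fun e => h1 (i1.2 (key.2 (i2.1 e)))
      rw [bit_eq_one.2 fun e => h1 (bit_eq_zero.2 e), bit_eq_one.2 fun e => h2 (bit_eq_zero.2 e)]

theorem jv_vv_tr {x : G} (hx : x ∈ P) : Vv (τ (σ x)) = jv D p q σ (Vv (τ x)) := by
  funext y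
  by_cases hy : y ∈ P
  · rw [T.vv_apply hy]
    simp only [jv, if_pos hy]
    rw [T.vv_apply (T.turn_two hy).1, T.bit_turn hx hy]
  · simp [vv, jv, hy]

theorem tg_induction {S : G → Prop} (one : S 1) (hp : S p) (htr : ∀ x ∈ P, S (τ x))
    (mul : ∀ g k, g ∈ Q → k ∈ Q → S g → S k → S (g * k)) {g : G} (hg : g ∈ Q) : S g := by
  have gen : ∀ s ∈ insert p (τ '' P), S s ∧ s⁻¹ = s := by
    rintro s (rfl | ⟨x, hx, rfl⟩)
    · exact ⟨hp, T.frame.hyp.inv_eq T.frame.memp⟩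
    · exact ⟨htr x hx, T.frame.tr_inv hx⟩
  induction hg using Subgroup.closure_induction'' with
  | mem s hs => exact (gen s hs).1
  | inv_mem s hs => rw [(gen s hs).2]; exact (gen s hs).1
  | one => exact one
  | mul a b ha hb ia ib => exact mul a b ha hb ia ib

theorem exists_jl {g : G} (hg : g ∈ Q) :
    ∃ k, k ∈ Q ∧ Vv k = jv D p q σ (Vv g) := by
  have zero : ∀ k, Vv k = 0 → ∃ m, m ∈ Q ∧ Vv m = jv D p q σ (Vv k) := fun k hk =>
    ⟨1, (tg D p q).one_mem, by rw [T.vv_one, hk]; funext y; simp [jv]⟩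
  refine T.tg_induction (S := fun g => ∃ k, k ∈ Q ∧ Vv k = jv D p q σ (Vv g)) (zero 1 T.vv_one)
    (zero p T.vv_p) (fun x hx => ⟨_, T.frame.tr_mem (T.turn x hx).1, T.jv_vv_tr hx⟩) ?_ hg
  rintro a b ha hb ⟨k, hk, ek⟩ ⟨l, hl, el⟩
  refine ⟨k * l, (tg D p q).mul_mem hk hl, ?_⟩
  rw [T.vv_mul hk hl, T.vv_mul ha hb, ek, el]
  funext y
  by_cases hy : y ∈ P <;> simp [jv, hy]

theorem jl_spec {g : G} (hg : g ∈ Q) : J g ∈ Q ∧ Vv (J g) = jv D p q σ (Vv g) := by
  have hex := T.exists_jl hg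
  rw [jl, dif_pos hex]
  exact hex.choose_spec

theorem jl_mem {g : G} (hg : g ∈ Q) : J g ∈ Q := (T.jl_spec hg).1

theorem jl_congr {g g' : G} (hg : g ∈ Q) (hg' : g' ∈ Q) (he : Vv g = Vv g') :
    Vv (J g) = Vv (J g') := by rw [(T.jl_spec hg).2, (T.jl_spec hg').2, he]

theorem jl_mul {g g' : G} (hg : g ∈ Q) (hg' : g' ∈ Q) :
    Vv (J (g * g')) = Vv (J g * J g') := by
  rw [(T.jl_spec ((tg D p q).mul_mem hg hg')).2, T.vv_mul (T.jl_mem hg) (T.jl_mem hg'),
    (T.jl_spec hg).2, (T.jl_spec hg').2, T.vv_mul hg hg']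
  funext y
  by_cases hy : y ∈ P <;> simp [jv, hy]

theorem jl_tr {x : G} (hx : x ∈ P) : Vv (J (τ x)) = Vv (τ (σ x)) := by
  rw [(T.jl_spec (T.frame.tr_mem hx)).2, T.jv_vv_tr hx]

theorem bit_jl_tr {x k : G} (hk : k ∈ Q) (hx : x ∈ P) :
    bit k (J (τ x)) = bit k (τ (σ x)) := by
  rw [bit_comm k, bit_comm k, T.bit_congr (T.jl_mem (T.frame.tr_mem hx))
    (T.frame.tr_mem (T.turn x hx).1) hk (T.jl_tr hx)]

theorem jl_bit {g k : G} (hg : g ∈ Q) (hk : k ∈ Q) : bit (J g) (J k) = bit g k := by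
  refine T.tg_induction (S := fun k => bit (J g) (J k) = bit g k) ?_ ?_ ?_ ?_ hk
  · rw [bit_comm, bit_comm g, T.bit_congr (T.jl_mem (tg D p q).one_mem) (tg D p q).one_mem
      (T.jl_mem hg) (by rw [(T.jl_spec (tg D p q).one_mem).2, T.vv_one]; funext y; simp [jv]),
      bit_eq_zero.2 (Commute.one_left _), bit_eq_zero.2 (Commute.one_left _)]
  · rw [bit_comm, T.bit_p hg, T.bit_congr (T.jl_mem T.frame.p_mem) T.frame.p_mem (T.jl_mem hg)
      (by rw [(T.jl_spec T.frame.p_mem).2, T.vv_p]; funext y; simp [jv]),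
      bit_comm p, T.bit_p (T.jl_mem hg)]
  · intro x hx
    rw [T.bit_jl_tr (T.jl_mem hg) hx]
    have := congrFun (T.jl_spec hg).2 (σ x)
    rw [T.vv_apply (T.turn x hx).1] at this
    simp only [jv, if_pos (T.turn x hx).1] at this
    rw [this, (T.turn x hx).2.2.2, T.vv_apply hx]
  · intro a b ha hb ia ib
    rw [T.frame.bit_mul_right ha hb hg, ← ia, ← ib,
      ← T.frame.bit_mul_right (T.jl_mem ha) (T.jl_mem hb) (T.jl_mem hg), bit_comm, bit_comm (J g)]
    exact T.bit_congr (T.jl_mem ((tg D p q).mul_mem ha hb))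
      ((tg D p q).mul_mem (T.jl_mem ha) (T.jl_mem hb)) (T.jl_mem hg) (T.jl_mul ha hb)

theorem vv_turn_sum {x : G} (hx : x ∈ P) : Vv (τ (σ (σ x))) = Vv (τ x) + Vv (τ (σ x)) := by
  have h1 := congrArg (vv D p q) (T.tr_turn hx)
  rw [T.vv_mul (T.frame.tr_mem (T.turn x hx).1) (T.frame.tr_mem (T.turn_two hx).1),
    T.vv_mul T.frame.p_mem (T.frame.tr_mem hx), T.vv_p, zero_add] at h1
  rw [← h1]
  funext y
  simp only [Pi.add_apply]
  linear_combination (CharTwo.add_self_eq_zero (Vv (τ (σ x)) y)).symm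

theorem jl_jl {g : G} (hg : g ∈ Q) : Vv (J (J g)) = Vv g + Vv (J g) := by
  refine T.tg_induction (S := fun g => Vv (J (J g)) = Vv g + Vv (J g)) ?_ ?_ ?_ ?_ hg
  · rw [(T.jl_spec (T.jl_mem (tg D p q).one_mem)).2, (T.jl_spec (tg D p q).one_mem).2, T.vv_one]
    funext y; simp [jv]
  · rw [(T.jl_spec (T.jl_mem T.frame.p_mem)).2, (T.jl_spec T.frame.p_mem).2, T.vv_p]
    funext y; simp [jv]
  · intro x hx
    rw [(T.jl_spec (T.jl_mem (T.frame.tr_mem hx))).2, T.jl_tr hx, ← T.jv_vv_tr (T.turn x hx).1,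
      T.vv_turn_sum hx]
  · intro a b ha hb ia ib
    rw [T.jl_congr (T.jl_mem ((tg D p q).mul_mem ha hb))
      ((tg D p q).mul_mem (T.jl_mem ha) (T.jl_mem hb)) (T.jl_mul ha hb),
      T.jl_mul (T.jl_mem ha) (T.jl_mem hb), T.vv_mul (T.jl_mem (T.jl_mem ha))
      (T.jl_mem (T.jl_mem hb)), ia, ib, T.vv_mul ha hb, T.jl_mul ha hb,
      T.vv_mul (T.jl_mem ha) (T.jl_mem hb)]
    abel

theorem bit_swap {g k : G} (hg : g ∈ Q) (hk : k ∈ Q) :
    bit k (J g) = bit g (J k) + bit g k := by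
  rw [bit_comm k, ← T.jl_bit (T.jl_mem hg) hk,
    T.bit_congr (T.jl_mem (T.jl_mem hg)) ((tg D p q).mul_mem hg (T.jl_mem hg)) (T.jl_mem hk)
      (by rw [T.jl_jl hg, T.vv_mul hg (T.jl_mem hg)]),
    T.frame.bit_mul hg (T.jl_mem hg) (T.jl_mem hk), T.jl_bit hg hk]

theorem c2_add (a b : ZMod 2) : (c2 (a + b) : F) = c2 a + c2 b := by
  have hz : ∀ t : ZMod 2, t = 0 ∨ t = 1 := by decide
  rcases hz a with rfl | rfl <;> rcases hz b with rfl | rfl <;>
    simp [c2, show (1 : ZMod 2) + 1 = 0 from rfl, T.two]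

theorem hh_add_left {g g' k : G} (hg : g ∈ Q) (hg' : g' ∈ Q) (hk : k ∈ Q) :
    H (g * g') k = H g k + H g' k := by
  simp only [hh, T.frame.bit_mul hg hg' (T.jl_mem hk), T.frame.bit_mul hg hg' hk, T.c2_add]
  ring

theorem hh_congr {g g' k k' : G} (hg : g ∈ Q) (hg' : g' ∈ Q) (hk : k ∈ Q) (hk' : k' ∈ Q)
    (he : Vv g = Vv g') (he' : Vv k = Vv k') : H g k = H g' k' := by
  simp only [hh]
  rw [T.bit_congr hg hg' (T.jl_mem hk) he, T.bit_congr hg hg' hk he, bit_comm g', bit_comm g' k,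
    T.bit_congr (T.jl_mem hk) (T.jl_mem hk') hg' (T.jl_congr hk hk' he'),
    T.bit_congr hk hk' hg' he', bit_comm _ g', bit_comm k']

theorem hh_conj {g k : G} (hg : g ∈ Q) (hk : k ∈ Q) : H k g = H g k ^ 2 := by
  have h2 : (2 : F) = 0 := by rw [← one_add_one_eq_two]; exact T.two
  have hsq : ∀ a : ZMod 2, (c2 a : F) ^ 2 = c2 a := fun a => by unfold c2; split_ifs <;> simp
  have hω : ω ^ 2 = ω + 1 := by linear_combination T.omega - (ω + 1) * h2
  simp only [hh]
  rw [T.bit_swap hg hk, bit_comm k g, T.c2_add, add_sq, mul_pow, hsq, hsq, hω]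
  linear_combination (-(ω * c2 (bit g (J k)) * c2 (bit g k))) * h2

theorem hh_add_right {g g' k : G} (hg : g ∈ Q) (hg' : g' ∈ Q) (hk : k ∈ Q) :
    H k (g * g') = H k g + H k g' := by
  have h2 : (2 : F) = 0 := by rw [← one_add_one_eq_two]; exact T.two
  rw [T.hh_conj ((tg D p q).mul_mem hg hg') hk, T.hh_add_left hg hg' hk, add_sq, h2,
    T.hh_conj hg hk, T.hh_conj hg' hk]
  ring

theorem hh_p {g : G} (hg : g ∈ Q) : H g p = 0 ∧ H p g = 0 := by
  have h0 : H p g = 0 := by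
    simp only [hh]
    rw [bit_comm p, T.bit_p (T.jl_mem hg), bit_comm p, T.bit_p hg]
    simp [c2]
  exact ⟨by rw [T.hh_conj T.frame.p_mem hg, h0]; ring, h0⟩

theorem hh_sum {g k : G} (hg : g ∈ Q) (hk : k ∈ Q) : H g k + H k g = c2 (bit g k) := by
  simp only [hh]
  rw [T.bit_swap hg hk, bit_comm k g, T.c2_add]
  linear_combination (c2 (bit g (J k)) + ω * c2 (bit g k)) * T.two

theorem hh_jl {g k : G} (hg : g ∈ Q) (hk : k ∈ Q) : H (J g) k = ω * H g k := by
  simp only [hh]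
  rw [T.jl_bit hg hk, bit_comm (J g) k, T.bit_swap hg hk, T.c2_add]
  linear_combination (-(c2 (bit g k) : F)) * T.omega + (ω * c2 (bit g k) + c2 (bit g k)) * T.two

theorem hh_self_jl {g : G} (hg : g ∈ Q) : H g g = c2 (bit g (J g)) := by
  simp [hh, bit_eq_zero.2 (Commute.refl g), c2]

/-- The extension of the translations by scalars. -/
structure Ext (T : Turned D p q σ ω) where
  g : ↥(tg D p q)
  c : F

theorem ext_eq {a b : Ext T} (h1 : (a.g : G) = b.g) (h2 : a.c = b.c) : a = b := by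
  cases a; cases b
  simp only [Subtype.coe_inj] at h1
  subst h1; subst h2; rfl

noncomputable instance : Group (Ext T) where
  mul a b := ⟨a.g * b.g, a.c + b.c + hh D p q σ ω b.g a.g⟩
  one := ⟨1, 0⟩
  inv a := ⟨a.g⁻¹, a.c + hh D p q σ ω a.g a.g⟩
  mul_assoc a b c := T.ext_eq (mul_assoc _ _ _) (by
    show a.c + b.c + H b.g a.g + c.c + H c.g (a.g * b.g : G) =
      a.c + (b.c + c.c + H c.g b.g) + H (b.g * c.g : G) a.g
    rw [T.hh_add_right a.g.2 b.g.2 c.g.2, T.hh_add_left b.g.2 c.g.2 a.g.2]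
    ring)
  one_mul a := T.ext_eq (one_mul _) (by
    show 0 + a.c + H a.g (1 : G) = a.c
    rw [show H (a.g : G) (1 : G) = 0 by
      rw [T.hh_congr a.g.2 a.g.2 (tg D p q).one_mem T.frame.p_mem rfl (by rw [T.vv_one, T.vv_p])]
      exact (T.hh_p a.g.2).1, zero_add, add_zero])
  mul_one a := T.ext_eq (mul_one _) (by
    show a.c + 0 + H (1 : G) a.g = a.c
    rw [show H (1 : G) (a.g : G) = 0 by
      rw [T.hh_congr (tg D p q).one_mem T.frame.p_mem a.g.2 a.g.2 (by rw [T.vv_one, T.vv_p]) rfl]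
      exact (T.hh_p a.g.2).2, add_zero, add_zero])
  inv_mul_cancel a := T.ext_eq (inv_mul_cancel _) (by
    show a.c + H a.g a.g + a.c + H a.g ((a.g : G)⁻¹) = 0
    rw [T.hh_congr a.g.2 a.g.2 ((tg D p q).inv_mem a.g.2) a.g.2 rfl (T.vv_inv a.g.2)]
    linear_combination (a.c + H (a.g : G) a.g) * T.two)

theorem mul_g (a b : Ext T) : ((a * b).g : G) = a.g * b.g := rfl

theorem mul_c (a b : Ext T) : (a * b).c = a.c + b.c + H b.g a.g := rfl

theorem one_g : (((1 : Ext T).g : ↥(tg D p q)) : G) = 1 := rfl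

theorem one_c : (1 : Ext T).c = 0 := rfl

/-- The central involution of the extension. -/
noncomputable def pe : Ext T := ⟨⟨p, T.frame.p_mem⟩, 1⟩

/-- The distinguished lift of a singular point. -/
noncomputable def ge (x : G) : Ext T :=
  haveI := _root_.Classical.propDecidable (x ∈ pts D p q)
  if hx : x ∈ pts D p q then
    ⟨⟨p * tr D p q x, (tg D p q).mul_mem T.frame.p_mem (T.frame.tr_mem hx)⟩, 0⟩
  else 1

theorem ge_g {x : G} (hx : x ∈ P) : ((T.ge x).g : G) = p * τ x ∧ (T.ge x).c = 0 := by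
  rw [ge, dif_pos hx]; exact ⟨rfl, rfl⟩

theorem vv_ct {x : G} (hx : x ∈ P) : Vv (p * τ x) = Vv (τ x) := by
  rw [T.vv_mul T.frame.p_mem (T.frame.tr_mem hx), T.vv_p, zero_add]

theorem hh_ge {x y : G} (hx : x ∈ P) (hy : y ∈ P) :
    H (T.ge y).g (T.ge x).g = c2 (bit (τ y) (τ (σ x))) + ω * c2 (bit (τ y) (τ x)) := by
  rw [(T.ge_g hx).1, (T.ge_g hy).1,
    T.hh_congr ((tg D p q).mul_mem T.frame.p_mem (T.frame.tr_mem hy)) (T.frame.tr_mem hy)
      ((tg D p q).mul_mem T.frame.p_mem (T.frame.tr_mem hx)) (T.frame.tr_mem hx) (T.vv_ct hy)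
      (T.vv_ct hx)]
  rw [hh, T.bit_jl_tr (T.frame.tr_mem hy) hx]

theorem ge_mul_g {x y : G} (hx : x ∈ P) (hy : y ∈ P) :
    ((T.ge x * T.ge y).g : G) = τ x * τ y := by
  rw [T.mul_g, (T.ge_g hx).1, (T.ge_g hy).1, (T.frame.p_commute_tr hx).eq, mul_assoc,
    ← mul_assoc p p, T.frame.hyp.mul_self T.frame.memp, one_mul]

theorem pe_comm (a : Ext T) : Commute (T.pe) a :=
  T.ext_eq (T.frame.conj_line a.g.2).1.symm.eq (by
    rw [T.mul_c, T.mul_c]
    show 1 + a.c + H a.g p = a.c + 1 + H p a.g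
    rw [(T.hh_p a.g.2).1, (T.hh_p a.g.2).2]; ring)

theorem pe_sq : T.pe * T.pe = 1 :=
  T.ext_eq (T.frame.hyp.mul_self T.frame.memp) (by
    rw [T.mul_c, T.one_c]
    show 1 + 1 + H p p = 0
    rw [(T.hh_p T.frame.p_mem).1, T.two, add_zero])

/-- Equality up to the central involution. -/
def Near (a b : Ext T) : Prop := a = b ∨ a = T.pe * b

theorem near_trans {a b c : Ext T} (h1 : T.Near a b) (h2 : T.Near b c) : T.Near a c := by
  rcases h1 with rfl | rfl
  · exact h2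
  · rcases h2 with rfl | rfl
    · exact Or.inr rfl
    · left; rw [← mul_assoc, T.pe_sq, one_mul]

theorem near_mul_right {a b : Ext T} (h1 : T.Near a b) (c : Ext T) : T.Near (a * c) (b * c) := by
  rcases h1 with rfl | rfl
  · exact Or.inl rfl
  · exact Or.inr (mul_assoc _ _ _)

theorem near_mul_left {a b : Ext T} (h1 : T.Near a b) (c : Ext T) : T.Near (c * a) (c * b) := by
  rcases h1 with rfl | rfl
  · exact Or.inl rfl
  · right; rw [← mul_assoc, ← (T.pe_comm c).eq, mul_assoc]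

theorem near_comm {x y : G} (hx : x ∈ P) (hy : y ∈ P) :
    T.Near (T.ge x * T.ge y) (T.ge y * T.ge x) := by
  have hb : bit ((T.ge x).g : G) (T.ge y).g = bit (τ x) (τ y) := by
    rw [(T.ge_g hx).1, (T.ge_g hy).1,
      T.bit_congr ((tg D p q).mul_mem T.frame.p_mem (T.frame.tr_mem hx)) (T.frame.tr_mem hx)
        ((tg D p q).mul_mem T.frame.p_mem (T.frame.tr_mem hy)) (T.vv_ct hx),
      bit_comm (τ x), T.bit_congr ((tg D p q).mul_mem T.frame.p_mem (T.frame.tr_mem hy))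
        (T.frame.tr_mem hy) (T.frame.tr_mem hx) (T.vv_ct hy), bit_comm]
  have hs := T.hh_sum (g := ((T.ge x).g : G)) (k := (T.ge y).g) (T.ge x).g.2 (T.ge y).g.2
  rw [hb] at hs
  have hcx := (T.ge_g hx).2
  have hcy := (T.ge_g hy).2
  by_cases hc : Commute (τ x) (τ y)
  · left
    rw [bit_eq_zero.2 hc, show (c2 (0 : ZMod 2) : F) = 0 from if_pos rfl] at hs
    refine T.ext_eq (by rw [T.ge_mul_g hx hy, T.ge_mul_g hy hx, hc.eq]) ?_
    rw [T.mul_c, T.mul_c, hcx, hcy]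
    linear_combination hs - H ((T.ge x).g : G) (T.ge y).g * T.two
  · right
    rw [bit_eq_one.2 hc, show (c2 (1 : ZMod 2) : F) = 1 from if_neg one_ne_zero] at hs
    refine T.ext_eq ?_ ?_
    · rw [T.mul_g T.pe (T.ge y * T.ge x), T.ge_mul_g hx hy, T.ge_mul_g hy hx]
      exact T.frame.not_commute_eq (T.frame.tr_mem hx) (T.frame.tr_mem hy) hc
    · rw [T.mul_c T.pe, T.mul_c (T.ge x), T.mul_c (T.ge y), hcx, hcy,
        show H ((T.ge y * T.ge x).g : G) (T.pe.g : G) = 0 from (T.hh_p (T.ge y * T.ge x).g.2).1]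
      show 0 + 0 + H (T.ge y).g (T.ge x).g = 1 + (0 + 0 + H (T.ge x).g (T.ge y).g) + 0
      linear_combination hs - H ((T.ge x).g : G) (T.ge y).g * T.two

theorem ct_line {x : G} (hx : x ∈ P) :
    p * τ x * q * (p * τ x)⁻¹ ∈ pl D q (α x) := by
  have ha := T.frame.al_mem_com hx.1
  obtain ⟨han, -⟩ := T.frame.com_nbr ha
  obtain ⟨-, c1, -, -, c3⟩ := T.frame.pts_line hx hx rfl
  have hpn : p ∈ nbr D (α x) := T.frame.hyp.mem_nbr_comm T.frame.memp han
  have hqn : q ∈ nbr D (α x) :=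
    ⟨T.frame.memq, fun e => T.frame.opp (e ▸ han.2.2), ha.2.2⟩
  obtain ⟨hxL, hxp, hxa⟩ := (T.frame.mem_pts_iff ha).1 ⟨hx, rfl⟩
  rw [pl_comm] at hxL
  have := T.frame.hyp.conj_mem_pl ha.1 hpn hxL hxa hqn
  rw [pl_comm q, tr, show p * (α x * x) = p * x * α x by rw [c1.eq, mul_assoc],
    show p * x * α x * q * (p * x * α x)⁻¹ = p * x * (α x * q * (α x)⁻¹) * (p * x)⁻¹ by group,
    ha.2.2.eq, mul_inv_cancel_right]
  exact this

/-- Two commuting lifts combine. -/
theorem combine {x y : G} (hx : x ∈ P) (hy : y ∈ P) (hc : Commute (τ x) (τ y)) :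
    T.Near (T.ge x * T.ge y) 1 ∨ ∃ z ∈ P, T.Near (T.ge x * T.ge y) (T.ge z) := by
  have hcx := (T.ge_g hx).2
  have hcy := (T.ge_g hy).2
  have hc0 : bit (τ y) (τ x) = 0 := bit_eq_zero.2 hc.symm
  have c20 : (c2 (0 : ZMod 2) : F) = 0 := if_pos rfl
  obtain ⟨hsx, esx, -, -⟩ := T.turn x hx
  by_cases hxy : x = y
  · subst hxy
    left; left
    refine T.ext_eq (by rw [T.ge_mul_g hx hx, T.frame.tr_sq hx, T.one_g]) ?_
    rw [T.mul_c, hcx, T.one_c, T.hh_ge hx hx, (T.frame.bit_tr hx hsx).1 (by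
      rw [esx]), bit_eq_zero.2 (Commute.refl (τ x)), c20]
    ring
  right
  by_cases hab : α x = α y
  · obtain ⟨z, hz, -, -, -, e⟩ := T.frame.tr_mul_same hx hy hab hxy
    refine ⟨z, hz, Or.inl (T.ext_eq (by rw [T.ge_mul_g hx hy, e, (T.ge_g hz).1]) ?_)⟩
    rw [T.mul_c, hcx, hcy, (T.ge_g hz).2, T.hh_ge hx hy, (T.frame.bit_tr hy hsx).1 (by
      rw [esx, hab]), hc0, c20]
    ring
  by_cases hlc : Commute (α x) (α y)
  · -- collinear lines
    set g := p * τ x * (p * τ y) with hg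
    have hgQ : g ∈ Q := (tg D p q).mul_mem ((tg D p q).mul_mem T.frame.p_mem (T.frame.tr_mem hx))
      ((tg D p q).mul_mem T.frame.p_mem (T.frame.tr_mem hy))
    have hgD := T.frame.hyp.ttg.2.1 g q T.frame.memq
    have hd1 := T.ct_line hx
    have hd2 := T.ct_line hy
    have ha := T.frame.al_mem_com hx.1
    have hb := T.frame.al_mem_com hy.1
    have hbn : α y ∈ nbr D q := ⟨hb.1, fun e => T.frame.opp (e ▸ hb.2.1).symm, hb.2.2.symm⟩
    have han : α x ∈ nbr D q := ⟨ha.1, fun e => T.frame.opp (e ▸ ha.2.1).symm, ha.2.2.symm⟩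
    have hq' : Commute q (g * q * g⁻¹) := by
      have h1 : Commute (α x) (p * τ y * q * (p * τ y)⁻¹) :=
        hd2.2 _ ⟨ha.1, ha.2.2, hlc⟩
      have h2 : Commute (p * τ y * q * (p * τ y)⁻¹) (p * τ x * q * (p * τ x)⁻¹) :=
        hd1.2 _ ⟨hd2.1, (T.frame.hyp.pl_subset_com T.frame.memq hbn hd2).2.1, h1.symm⟩
      have h3 := (commute_conj_iff' (g := p * τ x)).2 h2
      have hx2 : p * τ x * (p * τ x) = 1 := by
        rw [(T.frame.p_commute_tr hx).symm.mul_mul_mul_comm, T.frame.hyp.mul_self T.frame.memp,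
          T.frame.tr_sq hx, one_mul]
      have hxi : (p * τ x)⁻¹ = p * τ x := inv_eq_of_mul_eq_one_right hx2
      rw [show p * τ x * (p * τ y * q * (p * τ y)⁻¹) * (p * τ x)⁻¹ = g * q * g⁻¹ by rw [hg]; group,
        show p * τ x * (p * τ x * q * (p * τ x)⁻¹) * (p * τ x)⁻¹ =
          (p * τ x * (p * τ x)) * q * (p * τ x * (p * τ x))⁻¹ by group, hx2] at h3
      simpa using h3.symm
    have hne : g * q * g⁻¹ ≠ q := by
      intro e
      have h1 := T.frame.stab_eq_one hgQ e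
      apply hxy
      have h2 : τ x * τ y = 1 := by
        rw [← h1, hg, (T.frame.p_commute_tr hx).eq, mul_assoc, ← mul_assoc p p,
          T.frame.hyp.mul_self T.frame.memp, one_mul]
      exact T.frame.tr_injective hx hy ((eq_inv_of_mul_eq_one_left h2).trans (T.frame.tr_inv hy))
    obtain ⟨z, hz, ez⟩ := T.frame.near hgD (T.frame.opp_conj hgQ T.frame.opp) hq' hne
    have eg : g = p * τ z := T.frame.torsor hgQ
      ((tg D p q).mul_mem T.frame.p_mem (T.frame.tr_mem hz)) ez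
    refine ⟨z, hz, Or.inl (T.ext_eq ?_ ?_)⟩
    · rw [T.mul_g, (T.ge_g hx).1, (T.ge_g hy).1, (T.ge_g hz).1, ← hg, eg]
    · rw [T.mul_c, hcx, hcy, (T.ge_g hz).2, T.hh_ge hx hy, (T.frame.bit_tr hy hsx).1 (by
        rw [esx]; exact hlc.symm), hc0, c20]
      ring
  · -- opposite lines
    have hb := T.frame.al_mem_com hy.1
    have hym := (T.frame.mv_commute_iff hx hy rfl hlc).1 hc
    obtain ⟨hz, ez, e⟩ := T.frame.mv_prod hx hb hlc
    rw [← hym] at e
    refine ⟨α y * x * α y, hz, Or.inr (T.ext_eq ?_ ?_)⟩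
    · rw [T.ge_mul_g hx hy, e, T.mul_g, (T.ge_g hz).1]
      show _ = p * (p * _)
      rw [← mul_assoc, T.frame.hyp.mul_self T.frame.memp, one_mul]
    · have h1 : bit (τ y) (τ (σ x)) = 1 := by
        rw [bit_eq_one, Commute.symm_iff]
        intro hcm
        have := (T.frame.mv_commute_iff hsx hy rfl (by rw [esx]; exact hlc)).1 hcm
        exact (T.turn x hx).2.2.1 (T.frame.mv_inj hsx hx esx hb (by rw [esx]; exact hlc)
          (this.symm.trans hym))
      rw [T.mul_c, T.mul_c, hcx, hcy, (T.ge_g hz).2, T.hh_ge hx hy, h1, hc0, c20,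
        show (c2 (1 : ZMod 2) : F) = 1 from if_neg one_ne_zero]
      show 0 + 0 + (1 + ω * 0) = 1 + 0 + H (T.ge (α y * x * α y)).g p
      rw [(T.hh_p (T.ge (α y * x * α y)).g.2).1]
      ring

/-- At most two lifts, in normal form. -/
def Form (a : Ext T) : Prop :=
  T.Near a 1 ∨ (∃ x ∈ pts D p q, T.Near a (T.ge x)) ∨
    ∃ x ∈ pts D p q, ∃ y ∈ pts D p q, bit (tr D p q x) (tr D p q y) = 1 ∧
      T.Near a (T.ge x * T.ge y)

theorem form_two {x y : G} (hx : x ∈ P) (hy : y ∈ P) {a : Ext T}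
    (ha : T.Near a (T.ge x * T.ge y)) : T.Form a := by
  by_cases hc : Commute (τ x) (τ y)
  · rcases T.combine hx hy hc with e | ⟨z, hz, e⟩
    · exact Or.inl (T.near_trans ha e)
    · exact Or.inr (Or.inl ⟨z, hz, T.near_trans ha e⟩)
  · exact Or.inr (Or.inr ⟨x, hx, y, hy, bit_eq_one.2 hc, ha⟩)

theorem form_le_two {a : Ext T} {u v : G} (hu : u ∈ P) (hv : v ∈ P) {b : Ext T}
    (hb : T.Near b 1 ∨ ∃ z ∈ P, T.Near b (T.ge z)) (hc : Commute (τ u) (τ v))
    (ha : T.Near a (b * (T.ge u * T.ge v))) : T.Form a := by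
  rcases T.combine hu hv hc with e | ⟨z, hz, e⟩ <;> rcases hb with eb | ⟨w, hw, eb⟩
  · left
    exact T.near_trans ha (T.near_trans (T.near_mul_left e b) (by rw [mul_one]; exact eb))
  · exact Or.inr (Or.inl ⟨w, hw,
      T.near_trans ha (T.near_trans (T.near_mul_left e b) (by rw [mul_one]; exact eb))⟩)
  · refine Or.inr (Or.inl ⟨z, hz, T.near_trans ha (T.near_trans (T.near_mul_left e b) ?_)⟩)
    exact T.near_trans (T.near_mul_right eb _) (by rw [one_mul]; exact Or.inl rfl)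
  · exact T.form_two hw hz
      (T.near_trans ha (T.near_trans (T.near_mul_left e b) (T.near_mul_right eb _)))

theorem bit_split {x z : G} (hx : x ∈ P) (hz : z ∈ P) :
    bit (τ x) (τ (σ z)) + bit (τ x) (τ (σ (σ z))) = bit (τ x) (τ z) := by
  rw [← T.frame.bit_mul_right (T.frame.tr_mem (T.turn z hz).1)
      (T.frame.tr_mem (T.turn_two hz).1) (T.frame.tr_mem hx), T.tr_turn hz,
    T.frame.bit_mul_right T.frame.p_mem (T.frame.tr_mem hz) (T.frame.tr_mem hx),
    T.bit_p (T.frame.tr_mem hx), zero_add]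

/-- The pivot step. -/
theorem pivot {x y z : G} (hx : x ∈ P) (hy : y ∈ P) (hz : z ∈ P) (bxz : bit (τ x) (τ z) = 1)
    (byz : bit (τ y) (τ z) = 1) (hne : bit (τ x) (τ (σ z)) ≠ bit (τ y) (τ (σ z))) {a : Ext T}
    (ha : T.Near a (T.ge x * T.ge y * T.ge z)) : T.Form a := by
  obtain ⟨hs, es, -, -⟩ := T.turn z hz
  obtain ⟨hss, ess, -, -⟩ := T.turn_two hz
  have e : T.ge z = T.ge (σ z) * T.ge (σ (σ z)) := by
    refine T.ext_eq ?_ ?_
    · rw [T.ge_mul_g hs hss, T.tr_turn hz, (T.ge_g hz).1]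
    · rw [T.mul_c, (T.ge_g hs).2, (T.ge_g hss).2, (T.ge_g hz).2, T.hh_ge hs hss]
      rw [(T.frame.bit_tr hss hss).1 (Commute.refl _),
        (T.frame.bit_tr hss hs).1 (by rw [es, ess])]
      simp [c2]
  -- the two halves
  have key : ∀ u v, u ∈ P → v ∈ P → Commute (τ x) (τ u) → Commute (τ y) (τ v) →
      T.Near a (T.ge x * T.ge y * (T.ge u * T.ge v)) → T.Form a := by
    intro u v hu hv c1 c2' hn
    refine T.form_le_two hy hv (T.combine hx hu c1) c2' (T.near_trans hn ?_)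
    rw [show T.ge x * T.ge y * (T.ge u * T.ge v) = T.ge x * (T.ge y * T.ge u) * T.ge v by
      simp only [mul_assoc],
      show T.ge x * T.ge u * (T.ge y * T.ge v) = T.ge x * (T.ge u * T.ge y) * T.ge v by
      simp only [mul_assoc]]
    exact T.near_mul_right (T.near_mul_left (T.near_comm hy hu) _) _
  rw [e] at ha
  have s1 := T.bit_split hx hz
  have s2 := T.bit_split hy hz
  rw [bxz] at s1
  rw [byz] at s2
  have hz2 : ∀ t : ZMod 2, t ≠ 0 → t = 1 := by decide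
  by_cases h0 : bit (τ x) (τ (σ z)) = 0
  · rw [h0] at hne
    rw [hz2 _ (Ne.symm hne)] at s2
    exact key _ _ hs hss (bit_eq_zero.1 h0) (bit_eq_zero.1 (by simpa using s2)) ha
  · rw [hz2 _ h0] at s1 hne
    have h1 : bit (τ y) (τ (σ z)) = 0 := by
      by_contra hh
      exact hne (hz2 _ hh).symm
    refine key _ _ hss hs (bit_eq_zero.1 (by simpa using s1)) (bit_eq_zero.1 h1)
      (T.near_trans ha (T.near_mul_left (T.near_comm hs hss) _))

theorem form_mul {a : Ext T} (ha : T.Form a) {z : G} (hz : z ∈ P) : T.Form (a * T.ge z) := by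
  rcases ha with e | ⟨x, hx, e⟩ | ⟨x, hx, y, hy, bxy, e⟩
  · refine Or.inr (Or.inl ⟨z, hz, ?_⟩)
    have := T.near_mul_right e (T.ge z)
    rwa [one_mul] at this
  · exact T.form_two hx hz (T.near_mul_right e _)
  have hn := T.near_mul_right e (T.ge z)
  by_cases byz : Commute (τ y) (τ z)
  · exact T.form_le_two hy hz (Or.inr ⟨x, hx, Or.inl rfl⟩) byz
      (by rw [← mul_assoc]; exact hn)
  by_cases bxz : Commute (τ x) (τ z)
  · exact T.form_le_two hx hz (Or.inr ⟨y, hy, Or.inl rfl⟩) bxz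
      (T.near_trans hn (T.near_trans (T.near_mul_right (T.near_comm hx hy) _)
        (Or.inl (mul_assoc _ _ _))))
  have b1 := bit_eq_one.2 byz
  have b2 := bit_eq_one.2 bxz
  by_cases hp1 : bit (τ x) (τ (σ z)) = bit (τ y) (τ (σ z))
  swap
  · exact T.pivot hx hy hz b2 b1 hp1 hn
  by_cases hp2 : bit (τ z) (τ (σ y)) = bit (τ x) (τ (σ y))
  swap
  · refine T.pivot hz hx hy (by rw [bit_comm]; exact b1) bxy hp2 (T.near_trans hn ?_)
    refine T.near_trans (Or.inl (mul_assoc _ _ _))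
      (T.near_trans (T.near_mul_left (T.near_comm hy hz) _) ?_)
    rw [← mul_assoc]
    exact T.near_mul_right (T.near_comm hx hz) _
  by_cases hp3 : bit (τ y) (τ (σ x)) = bit (τ z) (τ (σ x))
  swap
  · refine T.pivot hy hz hx (by rw [bit_comm]; exact bxy) (by rw [bit_comm]; exact b2) hp3
      (T.near_trans hn ?_)
    refine T.near_trans (T.near_mul_right (T.near_comm hx hy) _)
      (T.near_trans (Or.inl (mul_assoc _ _ _)) ?_)
    rw [mul_assoc]
    exact T.near_mul_left (T.near_comm hx hz) _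
  exfalso
  have sw : ∀ u v, u ∈ P → v ∈ P →
      bit (τ v) (τ (σ u)) = bit (τ u) (τ (σ v)) + bit (τ u) (τ v) := by
    intro u v hu hv
    rw [← T.bit_jl_tr (T.frame.tr_mem hv) hu, T.bit_swap (T.frame.tr_mem hu) (T.frame.tr_mem hv),
      T.bit_jl_tr (T.frame.tr_mem hu) hv]
  rw [sw y z hy hz, sw y x hy hx, b1, bit_comm (τ y) (τ x), bxy] at hp2
  rw [sw x z hx hz, b2] at hp3
  rw [hp1] at hp3
  generalize bit (τ y) (τ (σ z)) = u at hp2 hp3
  generalize bit (τ y) (τ (σ x)) = w at hp2 hp3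
  revert u w
  decide

theorem form_of_mem {a : Ext T}
    (ha : a ∈ Subgroup.closure (T.ge '' pts D p q)) : T.Form a := by
  induction ha using Subgroup.closure_induction_right with
  | one => exact Or.inl (Or.inl rfl)
  | mul_right a _ s hs ia =>
    obtain ⟨z, hz, rfl⟩ := hs
    exact T.form_mul ia hz
  | mul_inv_cancel a _ s hs ia =>
    obtain ⟨z, hz, rfl⟩ := hs
    have e : (T.ge z)⁻¹ = T.ge z := by
      refine inv_eq_of_mul_eq_one_right (T.ext_eq (by rw [T.ge_mul_g hz hz, T.frame.tr_sq hz, T.one_g]) ?_)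
      rw [T.mul_c, (T.ge_g hz).2, T.one_c, T.hh_ge hz hz,
        (T.frame.bit_tr hz (T.turn z hz).1).1 (by rw [(T.turn z hz).2.1]),
        bit_eq_zero.2 (Commute.refl (τ z))]
      simp [c2]
    rw [e]
    exact T.form_mul ia hz

theorem near_vv {a b : Ext T} (h1 : T.Near a b) : Vv (a.g : G) = Vv b.g := by
  rcases h1 with rfl | rfl
  · rfl
  · rw [T.mul_g]
    show Vv (p * b.g) = _
    rw [T.vv_mul T.frame.p_mem b.g.2, T.vv_p, zero_add]

theorem vv_tr_ne {x : G} (hx : x ∈ P) : Vv (τ x) ≠ 0 := by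
  intro e
  rcases T.ker_vv (tg D p q).one_mem (T.frame.tr_mem hx) (by rw [e, T.vv_one]) with e' | e'
  · exact T.frame.tr_ne_one hx e'
  · rw [mul_one] at e'; exact T.frame.tr_ne_p hx e'

theorem vv_tr_inj {x y : G} (hx : x ∈ P) (hy : y ∈ P) (e : Vv (τ x) = Vv (τ y)) : x = y := by
  rcases T.ker_vv (T.frame.tr_mem hx) (T.frame.tr_mem hy) e with e' | e'
  · exact (T.frame.tr_injective hy hx e').symm
  · exact absurd e' (T.frame.tr_ne_p_mul_tr hy hx)

theorem form_one {a : Ext T} (ha : T.Form a) (hg : (a.g : G) = 1) : a.c = 0 := by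
  have h0 : Vv (a.g : G) = 0 := by rw [hg, T.vv_one]
  rcases ha with e | ⟨x, hx, e⟩ | ⟨x, hx, y, hy, bxy, e⟩
  · rcases e with e | e
    · rw [e, T.one_c]
    · exfalso
      rw [e, mul_one] at hg
      exact tt_ne_one T.frame.hyp.ttg.1 T.frame.memp hg
  · rw [T.near_vv e, (T.ge_g hx).1, T.vv_ct hx] at h0
    exact absurd h0 (T.vv_tr_ne hx)
  · rw [T.near_vv e, T.ge_mul_g hx hy, T.vv_mul (T.frame.tr_mem hx) (T.frame.tr_mem hy)] at h0
    exfalso
    have : Vv (τ x) = Vv (τ y) := funext fun u => CharTwo.add_eq_zero.1 (congrFun h0 u)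
    rw [T.vv_tr_inj hx hy this, bit_eq_zero.2 (Commute.refl _)] at bxy
    exact zero_ne_one bxy

theorem exists_graph {g : G} (hg : g ∈ Q) :
    ∃ a : Ext T, a ∈ Subgroup.closure (T.ge '' pts D p q) ∧ (a.g : G) = g := by
  have hp : ∃ a : Ext T, a ∈ Subgroup.closure (T.ge '' pts D p q) ∧ (a.g : G) = p := by
    obtain ⟨r, -, hr⟩ := T.frame.hyp.com_nonempty T.frame.hyp.good_univ T.frame.hyp.hasLine_univ
      T.frame.memp T.frame.memq
    obtain ⟨x, y, z, hx, hy, hz, ex, ey, -, hxy, -⟩ := T.frame.exists_three hr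
    obtain ⟨w, hw, -, -, -, e⟩ := T.frame.tr_mul_same hx hy (ex.trans ey.symm) hxy
    have hm : ∀ u ∈ P, T.ge u ∈ Subgroup.closure (T.ge '' pts D p q) :=
      fun u hu => Subgroup.subset_closure ⟨u, hu, rfl⟩
    -- a product over two opposite lines
    obtain ⟨b, ⟨-, hb⟩, hrb⟩ :=
      (T.frame.hyp.good_inter T.frame.hyp.good_univ T.frame.memp T.frame.memq T.frame.opp).opp r
        ⟨hr.1, hr⟩
    have hnc : ¬ Commute (α x) b := by rw [ex]; exact hrb
    obtain ⟨hm', -⟩ := T.frame.mv_mem hx hb hnc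
    obtain ⟨hz', -, e'⟩ := T.frame.mv_prod hx hb hnc
    refine ⟨T.ge x * T.ge (mv D p q x b) * T.ge (b * x * b),
      Subgroup.mul_mem _ (Subgroup.mul_mem _ (hm x hx) (hm _ hm')) (hm _ hz'), ?_⟩
    rw [T.mul_g, T.ge_mul_g hx hm', e', (T.ge_g hz').1, ← mul_assoc,
      ← (T.frame.p_commute_tr hz').eq, mul_assoc, T.frame.tr_sq hz', mul_one]
  refine T.tg_induction (S := fun g => ∃ a : Ext T, a ∈ Subgroup.closure (T.ge '' pts D p q) ∧
    (a.g : G) = g) ⟨1, Subgroup.one_mem _, rfl⟩ hp (fun x hx => ?_) ?_ hg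
  · obtain ⟨a, ha, e⟩ := hp
    refine ⟨a * T.ge x, Subgroup.mul_mem _ ha (Subgroup.subset_closure ⟨x, hx, rfl⟩), ?_⟩
    rw [T.mul_g, e, (T.ge_g hx).1, ← mul_assoc, T.frame.hyp.mul_self T.frame.memp, one_mul]
  · rintro u v - - ⟨a, ha, ea⟩ ⟨b, hb, eb⟩
    exact ⟨a * b, Subgroup.mul_mem _ ha hb, by rw [T.mul_g, ea, eb]⟩

theorem graph_unique {a b : Ext T} (ha : a ∈ Subgroup.closure (T.ge '' pts D p q))
    (hb : b ∈ Subgroup.closure (T.ge '' pts D p q)) (e : (a.g : G) = b.g) : a = b := by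
  have h1 := T.form_of_mem (Subgroup.mul_mem _ (Subgroup.inv_mem _ ha) hb)
  have hg : ((a⁻¹ * b).g : G) = 1 := by
    rw [T.mul_g]
    show (a.g : G)⁻¹ * b.g = 1
    rw [e, inv_mul_cancel]
  have h2 : a⁻¹ * b = 1 := T.ext_eq hg (T.form_one h1 hg)
  exact (inv_mul_eq_one.1 h2)

/-- The central coordinate. -/
noncomputable def chi (g : G) : F :=
  haveI := _root_.Classical.propDecidable
    (∃ a : Ext T, a ∈ Subgroup.closure (T.ge '' pts D p q) ∧ (a.g : G) = g)
  if hh' : ∃ a : Ext T, a ∈ Subgroup.closure (T.ge '' pts D p q) ∧ (a.g : G) = g then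
    hh'.choose.c else 0

theorem chi_eq {a : Ext T} (ha : a ∈ Subgroup.closure (T.ge '' pts D p q)) :
    T.chi a.g = a.c := by
  have hex : ∃ b : Ext T, b ∈ Subgroup.closure (T.ge '' pts D p q) ∧ (b.g : G) = a.g :=
    ⟨a, ha, rfl⟩
  rw [chi, dif_pos hex, T.graph_unique hex.choose_spec.1 ha hex.choose_spec.2]

theorem chi_mul {g k : G} (hg : g ∈ Q) (hk : k ∈ Q) :
    T.chi (g * k) = T.chi g + T.chi k + H k g := by
  obtain ⟨a, ha, rfl⟩ := T.exists_graph hg
  obtain ⟨b, hb, rfl⟩ := T.exists_graph hk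
  rw [← T.mul_g, T.chi_eq (Subgroup.mul_mem _ ha hb), T.chi_eq ha, T.chi_eq hb, T.mul_c]

theorem chi_ct {x : G} (hx : x ∈ P) : T.chi (p * τ x) = 0 := by
  rw [← (T.ge_g hx).1, T.chi_eq (Subgroup.subset_closure ⟨x, hx, rfl⟩), (T.ge_g hx).2]

theorem chi_one : T.chi 1 = 0 := by
  rw [← T.one_g, T.chi_eq (Subgroup.one_mem _), T.one_c]

/-- Vectors of norm one are never traces of singular points. -/
theorem classify {g : G} (hg : g ∈ Q) :
    ∃ a : Ext T, T.Form a ∧ (a.g : G) = g ∧ a.c = T.chi g := by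
  obtain ⟨a, ha, rfl⟩ := T.exists_graph hg
  exact ⟨a, T.form_of_mem ha, rfl, (T.chi_eq ha).symm⟩

theorem pe_mem : T.pe ∈ Subgroup.closure (T.ge '' pts D p q) := by
  obtain ⟨r, -, hr⟩ := T.frame.hyp.com_nonempty T.frame.hyp.good_univ T.frame.hyp.hasLine_univ
    T.frame.memp T.frame.memq
  obtain ⟨x, -, -, hx, -, -, ex, -⟩ := T.frame.exists_three hr
  obtain ⟨b, ⟨-, hb⟩, hrb⟩ :=
    (T.frame.hyp.good_inter T.frame.hyp.good_univ T.frame.memp T.frame.memq T.frame.opp).opp r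
      ⟨hr.1, hr⟩
  have hnc : ¬ Commute (α x) b := by rw [ex]; exact hrb
  obtain ⟨hy, ey⟩ := T.frame.mv_mem hx hb hnc
  obtain ⟨hsy, esy, -, -⟩ := T.turn _ hy
  -- two non-commuting lifts generate the centre
  have hnc' : ¬ Commute (τ x) (τ (σ (mv D p q x b))) := fun hc => by
    have := (T.frame.mv_commute_iff hx hsy (esy.trans ey) hnc).1 hc
    exact (T.turn _ hy).2.2.1 this
  have hmem : ∀ u ∈ P, T.ge u ∈ Subgroup.closure (T.ge '' pts D p q) :=
    fun u hu => Subgroup.subset_closure ⟨u, hu, rfl⟩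
  rcases T.near_comm hx hsy with e | e
  · exfalso
    apply hnc'
    have := congrArg (fun a : Ext T => (a.g : G)) e
    simp only [T.ge_mul_g hx hsy, T.ge_mul_g hsy hx] at this
    exact this
  · rw [eq_mul_inv_of_mul_eq e.symm]
    exact Subgroup.mul_mem _ (Subgroup.mul_mem _ (hmem _ hx) (hmem _ hsy))
      (Subgroup.inv_mem _ (Subgroup.mul_mem _ (hmem _ hsy) (hmem _ hx)))

theorem chi_p : T.chi p = 1 := T.chi_eq T.pe_mem

theorem chi_trace {g : G} (hg : g ∈ Q) : T.chi g + T.chi g ^ 2 = H g g := by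
  have h2 : (2 : F) = 0 := by rw [← one_add_one_eq_two]; exact T.two
  refine T.tg_induction (S := fun g => T.chi g + T.chi g ^ 2 = H g g) ?_ ?_ ?_ ?_ hg
  · rw [T.chi_one, T.hh_congr (tg D p q).one_mem T.frame.p_mem (tg D p q).one_mem T.frame.p_mem
      (by rw [T.vv_one, T.vv_p]) (by rw [T.vv_one, T.vv_p]), (T.hh_p T.frame.p_mem).1]
    ring
  · rw [T.chi_p, (T.hh_p T.frame.p_mem).1]
    linear_combination T.two
  · intro x hx
    have hxQ := T.frame.tr_mem hx
    have e : T.chi (τ x) = 1 := by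
      have := T.chi_mul T.frame.p_mem ((tg D p q).mul_mem T.frame.p_mem hxQ)
      rwa [← mul_assoc, T.frame.hyp.mul_self T.frame.memp, one_mul, T.chi_p, T.chi_ct hx,
        (T.hh_p ((tg D p q).mul_mem T.frame.p_mem hxQ)).1, add_zero, add_zero] at this
    rw [e, T.hh_self_jl hxQ, T.bit_jl_tr hxQ hx,
      (T.frame.bit_tr hx (T.turn x hx).1).1 (by rw [(T.turn x hx).2.1]), c2, if_pos rfl]
    linear_combination T.two
  · intro a b ha hb ia ib
    have hb2 : H b a ^ 2 = H a b := (T.hh_conj hb ha).symm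
    rw [T.chi_mul ha hb, T.hh_add_left ha hb ((tg D p q).mul_mem ha hb), T.hh_add_right ha hb ha,
      T.hh_add_right ha hb hb]
    linear_combination ia + ib + hb2 +
      (T.chi a * T.chi b + T.chi a * H b a + T.chi b * H b a) * h2

/-- Translations of vanishing coordinate are the distinguished ones. -/
theorem chi_zero_iff {g : G} (hg : g ∈ Q) :
    T.chi g = 0 ↔ g = 1 ∨ ∃ x ∈ P, g = p * τ x := by
  refine ⟨fun h0 => ?_, ?_⟩
  · obtain ⟨a, ha, rfl, hc⟩ := T.classify hg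
    rw [h0] at hc
    rcases ha with e | ⟨x, hx, e⟩ | ⟨x, hx, y, hy, bxy, e⟩
    · rcases e with e | e
      · left; rw [e, T.one_g]
      · exfalso
        rw [e, mul_one] at hc
        exact one_ne_zero hc
    · rcases e with e | e
      · exact Or.inr ⟨x, hx, by rw [e, (T.ge_g hx).1]⟩
      · exfalso
        rw [e, T.mul_c, (T.ge_g hx).2] at hc
        change (1 : F) + 0 + H (T.ge x).g p = 0 at hc
        rw [(T.hh_p (T.ge x).g.2).1, add_zero, add_zero] at hc
        exact one_ne_zero hc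
    · exfalso
      have ht := T.chi_trace a.g.2
      rw [h0] at ht
      have he : H (a.g : G) a.g = H (τ x * τ y) (τ x * τ y) := by
        have := T.near_vv e
        rw [T.ge_mul_g hx hy] at this
        exact T.hh_congr a.g.2 ((tg D p q).mul_mem (T.frame.tr_mem hx) (T.frame.tr_mem hy)) a.g.2
          ((tg D p q).mul_mem (T.frame.tr_mem hx) (T.frame.tr_mem hy)) this this
      have hxQ := T.frame.tr_mem hx
      have hyQ := T.frame.tr_mem hy
      have hs := T.hh_sum hxQ hyQ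
      rw [bxy, c2, if_neg one_ne_zero] at hs
      have self0 : ∀ u ∈ P, H (τ u) (τ u) = 0 := fun u hu => by
        rw [T.hh_self_jl (T.frame.tr_mem hu), T.bit_jl_tr (T.frame.tr_mem hu) hu,
          (T.frame.bit_tr hu (T.turn u hu).1).1 (by rw [(T.turn u hu).2.1]), c2, if_pos rfl]
      rw [he, T.hh_add_left hxQ hyQ ((tg D p q).mul_mem hxQ hyQ), T.hh_add_right hxQ hyQ hxQ,
        T.hh_add_right hxQ hyQ hyQ, self0 x hx, self0 y hy] at ht
      apply (one_ne_zero : (1 : F) ≠ 0)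
      linear_combination -hs - ht
  · rintro (rfl | ⟨x, hx, rfl⟩)
    · exact T.chi_one
    · exact T.chi_ct hx

/-- When two opposite members commute. -/
theorem commute_iff_chi {g k : G} (hg : g ∈ Q) (hk : k ∈ Q) :
    Commute (g * q * g⁻¹) (k * q * k⁻¹) ↔ T.chi g ^ 2 + T.chi k + H k g = 0 := by
  have hm : g⁻¹ * k ∈ Q := (tg D p q).mul_mem ((tg D p q).inv_mem hg) hk
  have e : T.chi (g⁻¹ * k) = T.chi g ^ 2 + T.chi k + H k g := by
    have h1 := T.chi_mul hg hm
    rw [mul_inv_cancel_left, T.hh_congr hm ((tg D p q).mul_mem hg hk) hg hg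
      (by rw [T.vv_mul ((tg D p q).inv_mem hg) hk, T.vv_inv hg, T.vv_mul hg hk]) rfl,
      T.hh_add_left hg hk hg] at h1
    have ht := T.chi_trace hg
    linear_combination -h1 - ht - (H k g + H g g) * T.two
  rw [← e, T.chi_zero_iff hm, ← commute_conj_iff' (g := g⁻¹),
    show g⁻¹ * (g * q * g⁻¹) * g⁻¹⁻¹ = q by group,
    show g⁻¹ * (k * q * k⁻¹) * g⁻¹⁻¹ = g⁻¹ * k * q * (g⁻¹ * k)⁻¹ by group]
  generalize g⁻¹ * k = m at hm ⊢
  constructor
  · intro hc
    by_cases hne : m * q * m⁻¹ = q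
    · exact Or.inl (T.frame.stab_eq_one hm hne)
    obtain ⟨x, hx, ex⟩ := T.frame.near (T.frame.hyp.ttg.2.1 m q T.frame.memq)
      (T.frame.opp_conj hm T.frame.opp) hc hne
    exact Or.inr ⟨x, hx, T.frame.torsor hm
      ((tg D p q).mul_mem T.frame.p_mem (T.frame.tr_mem hx)) ex⟩
  · rintro (rfl | ⟨x, hx, rfl⟩)
    · simp
    · have hq : α x ∈ nbr D q := by
        have ha := T.frame.al_mem_com hx.1
        exact ⟨ha.1, fun e => T.frame.opp (e ▸ ha.2.1).symm, ha.2.2.symm⟩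
      exact (T.frame.hyp.pl_subset_com T.frame.memq hq (T.ct_line hx)).2.1.symm

end Turned

end CfsgLib.FischerPolar
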