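import Mathlib
import Cfsg.Agent.FischerPolar.Heis

/-!
Orthonormal coordinates for the translations and the commuting pattern in those terms.
-/

set_option autoImplicit false
set_option linter.unusedSectionVars false
set_option linter.style.haveILetI false

namespace CfsgLib.FischerPolar

open Cfsg CfsgLib.ThreeTransp CfsgLib.FischerGQ

variable {G : Type*} [Group G] {D : Set G} {F : Type} [Field F]

namespace Turned

variable [Finite G] {p q : G} {σ : G → G} {ω : F} (T : Turned D p q σ ω)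

include T

local notation "α" => al D p q
local notation "τ" => tr D p q
local notation "P" => pts D p q
local notation "Q" => tg D p q
local notation "Vv" => vv D p q
local notation "J" => jl D p q σ
local notation "H" => hh D p q σ ω

theorem omega_ne : ω ≠ 0 ∧ ω ≠ 1 := by
  refine ⟨fun e => ?_, fun e => ?_⟩
  · have := T.omega; rw [e] at this; simp at this
  · have := T.omega
    rw [e] at this
    exact (one_ne_zero : (1 : F) ≠ 0) (by linear_combination this - T.two)

theorem omega_cube : ω ^ 3 = 1 := by linear_combination (ω - 1) * T.omega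

theorem exists_scalar (hcases : ∀ a : F, a = 0 ∨ a = 1 ∨ a = ω ∨ a = ω * ω) (a : F) {i : G}
    (hi : i ∈ Q) : ∃ r ∈ Q, ∀ k ∈ Q, H r k = a * H i k := by
  rcases hcases a with rfl | rfl | rfl | rfl
  · refine ⟨1, (tg D p q).one_mem, fun k hk => ?_⟩
    rw [T.hh_congr (tg D p q).one_mem T.frame.p_mem hk hk (by rw [T.vv_one, T.vv_p]) rfl,
      (T.hh_p hk).2, zero_mul]
  · exact ⟨i, hi, fun k _ => (one_mul _).symm⟩
  · exact ⟨J i, T.jl_mem hi, fun k hk => T.hh_jl hi hk⟩
  · exact ⟨J (J i), T.jl_mem (T.jl_mem hi), fun k hk => by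
      rw [T.hh_jl (T.jl_mem hi) hk, T.hh_jl hi hk, mul_assoc]⟩

theorem exists_comb (hcases : ∀ a : F, a = 0 ∨ a = 1 ∨ a = ω ∨ a = ω * ω) (S : Finset G)
    (hS : ∀ i ∈ S, i ∈ Q) (a : G → F) :
    ∃ r ∈ Q, ∀ k ∈ Q, H r k = ∑ i ∈ S, a i * H i k := by
  classical
  induction S using Finset.induction with
  | empty =>
    refine ⟨1, (tg D p q).one_mem, fun k hk => ?_⟩
    rw [T.hh_congr (tg D p q).one_mem T.frame.p_mem hk hk (by rw [T.vv_one, T.vv_p]) rfl,
      (T.hh_p hk).2, Finset.sum_empty]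
  | insert i S hi ih =>
    obtain ⟨r, hr, er⟩ := ih fun j hj => hS j (Finset.mem_insert_of_mem hj)
    obtain ⟨s, hs, es⟩ := T.exists_scalar hcases (a i) (hS i (Finset.mem_insert_self i S))
    refine ⟨s * r, (tg D p q).mul_mem hs hr, fun k hk => ?_⟩
    rw [T.hh_add_left hs hr hk, es k hk, er k hk, Finset.sum_insert hi]

/-- Orthonormal coordinates. -/
theorem exists_coord (hcases : ∀ a : F, a = 0 ∨ a = 1 ∨ a = ω ∨ a = ω * ω) :
    ∃ (m : ℕ) (κ : G → Fin m → F), κ p = 0 ∧
      (∀ g ∈ Q, ∀ k ∈ Q, κ (g * k) = κ g + κ k) ∧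
      (∀ a : Fin m → F, ∃ g ∈ Q, κ g = a) ∧
      ∀ g ∈ Q, ∀ k ∈ Q, H g k = ∑ i, κ g i * κ k i ^ 2 := by
  classical
  haveI := Fintype.ofFinite G
  let Orth : Finset G → Prop := fun S =>
    (∀ i ∈ S, i ∈ Q) ∧ ∀ i ∈ S, ∀ j ∈ S, H i j = if i = j then 1 else 0
  obtain ⟨S, hS, hmax⟩ := Finset.exists_max_image
    ((Finset.univ : Finset (Finset G)).filter Orth) Finset.card
    ⟨∅, Finset.mem_filter.2 ⟨Finset.mem_univ _, by simp, by simp⟩⟩
  obtain ⟨hSQ, hSo⟩ := (Finset.mem_filter.1 hS).2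
  -- the perp
  have hperp : ∀ w ∈ Q, (∀ i ∈ S, H w i = 0) → H w w = 0 := by
    intro w hw hwS
    by_contra hne
    have h1 : H w w = 1 := by
      rw [T.hh_self_jl hw] at hne ⊢
      unfold c2 at hne ⊢
      split_ifs at hne ⊢ with h0
      · exact absurd rfl hne
      · rfl
    have hnot : w ∉ S := fun hh' => hne (by
      have := hwS w hh'; exact this)
    have : Orth (insert w S) := by
      refine ⟨fun i hi => ?_, fun i hi j hj => ?_⟩
      · rcases Finset.mem_insert.1 hi with rfl | hi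
        · exact hw
        · exact hSQ i hi
      · rcases Finset.mem_insert.1 hi with rfl | hi' <;> rcases Finset.mem_insert.1 hj with rfl | hj'
        · rw [if_pos rfl]; exact h1
        · rw [hwS j hj', if_neg]
          intro e
          exact hnot (e.symm ▸ hj')
        · rw [T.hh_conj hw (hSQ i hi'), hwS i hi', if_neg]
          · ring
          · intro e
            exact hnot (e ▸ hi')
        · exact hSo i hi' j hj'
    have h2 := hmax _ (Finset.mem_filter.2 ⟨Finset.mem_univ _, this⟩)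
    rw [Finset.card_insert_of_notMem hnot] at h2
    omega
  have hperp2 : ∀ w ∈ Q, ∀ w' ∈ Q, (∀ i ∈ S, H w i = 0) → (∀ i ∈ S, H w' i = 0) → H w w' = 0 := by
    intro w hw w' hw' h1 h2
    have step : ∀ v ∈ Q, (∀ i ∈ S, H v i = 0) → H w v + H w v ^ 2 = 0 := by
      intro v hv hvS
      have := hperp (w * v) ((tg D p q).mul_mem hw hv) fun i hi => by
        rw [T.hh_add_left hw hv (hSQ i hi), h1 i hi, hvS i hi, add_zero]
      rw [T.hh_add_left hw hv ((tg D p q).mul_mem hw hv), T.hh_add_right hw hv hw,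
        T.hh_add_right hw hv hv, hperp w hw h1, hperp v hv hvS, T.hh_conj hw hv] at this
      linear_combination this
    have e1 := step w' hw' h2
    have e2 := step (J w') (T.jl_mem hw') fun i hi => by
      rw [T.hh_jl hw' (hSQ i hi), h2 i hi, mul_zero]
    rw [T.hh_conj (T.jl_mem hw') hw, T.hh_jl hw' hw, T.hh_conj hw hw'] at e2
    generalize H w w' = t at e1 e2 ⊢
    have h3 : t ^ 2 = t := by linear_combination e1 - t * T.two
    rw [h3, mul_pow, mul_pow, h3, h3,
      show (ω ^ 2) ^ 2 = ω by linear_combination ω * T.omega_cube] at e2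
    linear_combination t * T.omega - e2
  have hdecomp : ∀ g ∈ Q, ∀ k ∈ Q, H g k = ∑ i ∈ S, H g i * H i k := by
    intro g hg k hk
    have res : ∀ g ∈ Q, ∃ r ∈ Q, (∀ i ∈ S, H r i = 0) ∧
        ∀ k ∈ Q, H r k = H g k + ∑ i ∈ S, H g i * H i k := by
      intro g hg
      obtain ⟨r, hr, er⟩ := T.exists_comb hcases S hSQ fun i => H g i
      refine ⟨g * r, (tg D p q).mul_mem hg hr, fun i hi => ?_, fun k hk => by
        rw [T.hh_add_left hg hr hk, er k hk]⟩
      rw [T.hh_add_left hg hr (hSQ i hi), er i (hSQ i hi), Finset.sum_eq_single i,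
        hSo i hi i hi, if_pos rfl, mul_one]
      · linear_combination H g i * T.two
      · intro j hj hji
        rw [hSo j hj i hi, if_neg hji, mul_zero]
      · exact fun hni => absurd hi hni
    obtain ⟨r, hr, hr0, er⟩ := res g hg
    obtain ⟨r', hr', hr'0, er'⟩ := res k hk
    have h1 := er' r hr
    rw [hperp2 r' hr' r hr hr'0 hr0, Finset.sum_eq_zero fun i hi => by
      rw [T.hh_conj hr (hSQ i hi), hr0 i hi]; ring, add_zero] at h1
    have h2 : H r k = 0 := by rw [T.hh_conj hk hr, ← h1]; ring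
    rw [er k hk] at h2
    linear_combination h2 - (∑ i ∈ S, H g i * H i k) * T.two
  let e : Fin S.card → G := fun i => (S.equivFin.symm i : G)
  have hsum : ∀ f : G → F, ∑ i, f (e i) = ∑ i ∈ S, f i := fun f => by
    rw [← Finset.sum_coe_sort S]
    exact Equiv.sum_comp S.equivFin.symm fun i : ↥S => f i
  refine ⟨S.card, fun g i => H g (e i), funext fun i => (T.hh_p (hSQ _ (S.equivFin.symm i).2)).2,
    fun g hg k hk => funext fun i => T.hh_add_left hg hk (hSQ _ (S.equivFin.symm i).2),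
    fun a => ?_, fun g hg k hk => ?_⟩
  · obtain ⟨r, hr, er⟩ := T.exists_comb hcases S hSQ
      (fun i => if hi : i ∈ S then a (S.equivFin ⟨i, hi⟩) else 0)
    refine ⟨r, hr, funext fun i => ?_⟩
    have hm : e i ∈ S := (S.equivFin.symm i).2
    show H r (e i) = a i
    rw [er _ (hSQ _ hm), Finset.sum_eq_single (e i), hSo _ hm _ hm, if_pos rfl, mul_one, dif_pos hm]
    · exact congrArg a (S.equivFin.apply_symm_apply i)
    · intro j hj hji
      rw [hSo j hj _ hm, if_neg hji, mul_zero]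
    · exact fun hni => absurd hm hni
  · rw [hdecomp g hg k hk, ← hsum]
    refine Finset.sum_congr rfl fun i _ => ?_
    rw [T.hh_conj hk (hSQ _ (S.equivFin.symm i).2)]

theorem hh_eq_zero_iff {g k : G} : H g k = 0 ↔ bit g (J k) = 0 ∧ bit g k = 0 := by
  have hz : ∀ t : ZMod 2, t = 0 ∨ t = 1 := by decide
  obtain ⟨h0, h1⟩ := T.omega_ne
  unfold hh
  rcases hz (bit g (J k)) with e | e <;> rcases hz (bit g k) with e' | e' <;>
    simp only [e, e', c2, if_pos, one_ne_zero, if_false, mul_zero, mul_one, add_zero, zero_add,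
      and_self, true_and, and_true, and_false, false_and, iff_false, iff_true]
  · exact h0
  · intro hh'
    exact h1 (by linear_combination hh' - T.two)

theorem cross_zero_iff {x y : G} (hx : x ∈ P) (hy : y ∈ P) :
    H (τ x) (τ y) = 0 ↔ Commute (α x) (α y) := by
  rw [T.hh_eq_zero_iff, T.bit_jl_tr (T.frame.tr_mem hx) hy]
  obtain ⟨hsy, esy, nsy, -⟩ := T.turn y hy
  refine ⟨fun ⟨h1, h2⟩ => ?_, fun hc => ⟨(T.frame.bit_tr hx hsy).1 (by rw [esy]; exact hc),
    (T.frame.bit_tr hx hy).1 hc⟩⟩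
  by_contra hnc
  have e1 := ((T.frame.bit_tr hx hsy).2 (by rw [esy]; exact hnc)).1 h1
  have e2 := ((T.frame.bit_tr hx hy).2 hnc).1 h2
  rw [esy, ← e2] at e1
  exact nsy e1

/-- Where a translation sends the point commuting with `q`. -/
theorem fix_iff {k x : G} (hk : k ∈ Q) (hx : x ∈ P) :
    (k * α x * k⁻¹ = α x ↔ H (τ x) k = 0) ∧ (k * α x * k⁻¹ = x ↔ H (τ x) k = 1) := by
  obtain ⟨hsx, esx, -, -⟩ := T.turn x hx
  obtain ⟨hssx, essx, -, -⟩ := T.turn_two hx
  have ha := T.frame.al_mem_com hx.1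
  obtain ⟨han, haa⟩ := T.frame.com_nbr ha
  obtain ⟨hf, ef⟩ := T.frame.conj_nbr hk han
  rw [haa] at ef
  have fA : k * α x * k⁻¹ = α x → ∀ u ∈ P, α u = α x → bit k (τ u) = 0 := by
    intro e u hu eu
    have e1 := T.frame.fix_pts hk hu (by rw [eu]; exact e)
    rw [bit_eq_zero]
    show k * τ u = τ u * k
    have e2 : k * τ u * k⁻¹ = τ u := by
      rw [tr, show k * (α u * u) * k⁻¹ = k * α u * k⁻¹ * (k * u * k⁻¹) by group, eu, e, e1]
    conv_rhs => rw [← e2]
    rw [inv_mul_cancel_right]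
  have fP : ∀ u ∈ P, α u = α x → k * α x * k⁻¹ = u →
      bit k (τ u) = 0 ∧ bit k (τ (σ u)) = 1 := by
    intro u hu eu e
    have img : ∀ v ∈ P, α v = α x → ∀ w ∈ P, α w = α x → bit k (τ v) = 0 →
        k * v * k⁻¹ = w → w ≠ u → False := by
      intro v hv ev w hw ew hb e1 hne
      have e2 : k * τ v * k⁻¹ = τ v := by rw [(bit_eq_zero.1 hb).eq, mul_inv_cancel_right]
      rw [tr, ev, show k * (α x * v) * k⁻¹ = k * α x * k⁻¹ * (k * v * k⁻¹) by group, e, e1] at e2
      obtain ⟨z, hz, ez, -, -, e3⟩ := T.frame.exists_other hu hw (eu.trans ew.symm) hne.symm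
      rw [e3, eu, show α x * v = τ v by rw [tr, ev], show α x * z = τ z by
        rw [tr, ez, eu]] at e2
      exact T.frame.tr_ne_p_mul_tr hv hz e2.symm
    have ku : ∀ v ∈ P, α v = α x → k * v * k⁻¹ = α x ∨
        ∃ w ∈ P, α w = α x ∧ k * v * k⁻¹ = w ∧ w ≠ u := by
      intro v hv ev
      obtain ⟨h1, h2⟩ := T.frame.conj_nbr hk hv.1
      by_cases e1 : k * v * k⁻¹ = α x
      · exact Or.inl e1
      refine Or.inr ⟨_, ⟨h1, fun hh' => e1 ?_⟩, h2.trans ev, rfl, fun e2 => ?_⟩
      · rw [T.frame.al_eq h1 (T.frame.hyp.self_mem T.frame.memp h1).2 hh', h2, ev]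
      · rw [← e] at e2
        exact T.frame.al_ne hv (ev.trans (mul_left_cancel (mul_right_cancel e2)).symm)
    have h0 : bit k (τ u) = 0 := by
      rw [bit_eq_zero]
      show k * τ u = τ u * k
      rcases ku u hu eu with e1 | ⟨w, hw, ew, e1, hne⟩
      · have e2 : k * τ u * k⁻¹ = τ u := by
          rw [tr, eu, show k * (α x * u) * k⁻¹ = k * α x * k⁻¹ * (k * u * k⁻¹) by group, e, e1]
          have c := (T.frame.pts_line hu hu rfl).2.1
          rw [eu] at c
          exact c.symm.eq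
        conv_rhs => rw [← e2]
        rw [inv_mul_cancel_right]
      · exfalso
        have e2 : k * τ u * k⁻¹ = u * w := by
          rw [tr, eu, show k * (α x * u) * k⁻¹ = k * α x * k⁻¹ * (k * u * k⁻¹) by group, e, e1]
        obtain ⟨z, hz, ez, hzu, -, e3⟩ := T.frame.exists_other hu hw (eu.trans ew.symm) hne.symm
        rw [e3, show α u * z = τ z by rw [tr, ez]] at e2
        rcases T.frame.class_two hk (T.frame.tr_mem hu) with hc | hc
        · rw [hc, mul_inv_cancel_right] at e2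
          exact T.frame.tr_ne_p_mul_tr hu hz e2
        · rw [hc, ← mul_assoc, mul_inv_cancel_right] at e2
          exact hzu (T.frame.tr_injective hz hu (mul_left_cancel e2).symm)
    refine ⟨h0, ?_⟩
    have hz : ∀ t : ZMod 2, t ≠ 0 → t = 1 := by decide
    refine hz _ fun hs => ?_
    obtain ⟨hsu, esu, nsu, -⟩ := T.turn u hu
    rcases ku (σ u) hsu (esu.trans eu) with e1 | ⟨w, hw, ew, e1, hne⟩
    · have e2 : k * τ (σ u) * k⁻¹ = τ (σ u) := by
        rw [(bit_eq_zero.1 hs).eq, mul_inv_cancel_right]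
      rw [tr, esu, eu, show k * (α x * σ u) * k⁻¹ = k * α x * k⁻¹ * (k * σ u * k⁻¹) by group, e,
        e1] at e2
      have c := (T.frame.pts_line hu hu rfl).2.1
      rw [eu] at c
      rw [← c.eq] at e2
      exact nsu (mul_left_cancel e2).symm
    · exact img (σ u) hsu (esu.trans eu) w hw ew hs e1 hne
  have hbits : ∀ t : F, H (τ x) k = t →
      t = (c2 (bit k (τ (σ x))) + ω * c2 (bit k (τ x))) ^ 2 := by
    rintro t rfl
    rw [T.hh_conj hk (T.frame.tr_mem hx), hh, T.bit_jl_tr hk hx]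
  have hsum : bit k (τ (σ x)) + bit k (τ (σ (σ x))) = bit k (τ x) := by
    rw [← T.frame.bit_mul_right (T.frame.tr_mem hsx) (T.frame.tr_mem hssx) hk, T.tr_turn hx,
      T.frame.bit_mul_right T.frame.p_mem (T.frame.tr_mem hx) hk, T.bit_p hk, zero_add]
  have hcase : k * α x * k⁻¹ = α x ∨ k * α x * k⁻¹ = x ∨ k * α x * k⁻¹ = σ x ∨
      k * α x * k⁻¹ = σ (σ x) := by
    by_cases e : k * α x * k⁻¹ = α x
    · exact Or.inl e
    right
    exact T.three_exhaust hx ⟨hf, fun hh' => e (by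
      rw [T.frame.al_eq hf (T.frame.hyp.self_mem T.frame.memp hf).2 hh', ef])⟩ ef
  have c20 : (c2 (0 : ZMod 2) : F) = 0 := if_pos rfl
  have c21 : (c2 (1 : ZMod 2) : F) = 1 := if_neg one_ne_zero
  obtain ⟨w0, w1⟩ := T.omega_ne
  have hw : ω ^ 2 ≠ 0 ∧ ω ^ 2 ≠ 1 := ⟨pow_ne_zero 2 w0, fun e => w1 (by
    have := T.omega_cube; rw [pow_succ, e, one_mul] at this; exact this)⟩
  -- the four patterns
  have key : (k * α x * k⁻¹ = α x → H (τ x) k = 0) ∧ (k * α x * k⁻¹ = x → H (τ x) k = 1) ∧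
      (k * α x * k⁻¹ = σ x → H (τ x) k ≠ 0 ∧ H (τ x) k ≠ 1) ∧
      (k * α x * k⁻¹ = σ (σ x) → H (τ x) k ≠ 0 ∧ H (τ x) k ≠ 1) := by
    refine ⟨fun e => ?_, fun e => ?_, fun e => ?_, fun e => ?_⟩
    · rw [hbits _ rfl, fA e x hx rfl, fA e (σ x) hsx esx, c20]; ring
    · obtain ⟨h0, h1⟩ := fP x hx rfl e
      rw [hbits _ rfl, h0, h1, c20, c21]; ring
    · obtain ⟨h0, h1⟩ := fP (σ x) hsx esx e
      rw [h0, h1, zero_add] at hsum
      rw [hbits _ rfl, h0, ← hsum, c20, c21, zero_add, mul_one]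
      exact hw
    · obtain ⟨h0, h1⟩ := fP (σ (σ x)) hssx essx e
      rw [(T.turn x hx).2.2.2] at h1
      rw [h0, h1, add_zero] at hsum
      rw [hbits _ rfl, hsum, h1, c21, mul_one]
      have e1 : (1 + ω) ^ 2 = ω := by linear_combination T.omega
      rw [e1]
      exact T.omega_ne
  constructor
  · refine ⟨key.1, fun h0 => ?_⟩
    rcases hcase with e | e | e | e
    · exact e
    · exact absurd ((key.2.1 e).symm.trans h0) one_ne_zero
    · exact absurd h0 (key.2.2.1 e).1
    · exact absurd h0 (key.2.2.2 e).1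
  · refine ⟨key.2.1, fun h1 => ?_⟩
    rcases hcase with e | e | e | e
    · exact absurd ((key.1 e).symm.trans h1) zero_ne_one
    · exact e
    · exact absurd h1 (key.2.2.1 e).2
    · exact absurd h1 (key.2.2.2 e).2

theorem pts_commute_iff {d e : G} (hd : d ∈ nbr D p) (he : e ∈ nbr D p) :
    Commute d e ↔ Commute (α d) (α e) := by
  obtain ⟨d1, -, d3, d4⟩ := T.frame.al_spec hd
  obtain ⟨e1, -, e3, e4⟩ := T.frame.al_spec he
  exact ⟨fun hc => T.frame.hyp.lift_commute T.frame.memp d3 e3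
      (d4 ▸ (T.frame.hyp.self_mem T.frame.memp hd).2) (e4 ▸ (T.frame.hyp.self_mem T.frame.memp he).2)
      hd.2.1 he.2.1 hc,
    fun hc => T.frame.hyp.lift_commute T.frame.memp hd he d1 e1 d3.2.1 e3.2.1 hc⟩

theorem commute_opp_iff {d k : G} (hd : d ∈ nbr D p) (hk : k ∈ Q) :
    Commute d (k * q * k⁻¹) ↔ d = k * α d * k⁻¹ := by
  obtain ⟨-, h2, h3, -⟩ := T.frame.al_spec hd
  obtain ⟨hn, he⟩ := T.frame.conj_nbr ((tg D p q).inv_mem hk) hd
  rw [inv_inv] at hn he
  constructor
  · intro hc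
    have h4 : Commute q (k⁻¹ * d * k) := by
      rw [← commute_conj_iff' (g := k), show k * (k⁻¹ * d * k) * k⁻¹ = d by group]
      exact hc.symm
    have := T.frame.al_eq hn (T.frame.hyp.self_mem T.frame.memp hn).2 h4
    rw [he] at this
    rw [← this]; group
  · intro e
    rw [e]
    exact commute_conj_iff'.2 h2.symm

end Turned

end CfsgLib.FischerPolar
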