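import Mathlib
import Cfsg.Agent.FischerPolar.Coord
import Cfsg.Agent.ThreeTransp.SU2.Transv
import Cfsg.Agent.Classical.Unitary.Center

/-!
Lines of five points: the unitary groups over the field with four elements.
-/

set_option autoImplicit false
set_option linter.unusedSectionVars false
set_option linter.style.haveILetI false

namespace CfsgLib.FischerPolar

open Cfsg CfsgLib.ThreeTransp CfsgLib.FischerGQ CfsgLib.Unitary CfsgLib.TTUnitary

variable {G : Type*} [Group G] [Finite G] {D : Set G}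

/-- A representation of `D` by isotropic points of a unitary space gives the group. -/
theorem iso_psu_of_points (h : Hyp D) (hHL : HypLine D D) {F : Type} [Field F] [Fintype F]
    (hF : Fintype.card F = 2 ^ 2) {n : ℕ} (hn : 4 ≤ n) (φ : G → Fin n → F)
    (hφ0 : ∀ d ∈ D, φ d ≠ 0) (hiso : ∀ d ∈ D, hermForm n F 2 (φ d) (φ d) = 0)
    (hcomm : ∀ d ∈ D, ∀ e ∈ D, (Commute d e ↔ hermForm n F 2 (φ d) (φ e) = 0))
    (hsurj : ∀ v, v ≠ 0 → hermForm n F 2 v v = 0 → ∃ d ∈ D, ∃ l : F, v = l • φ d) :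
    Nonempty (G ≃* Cfsg.PSU n F 2) := by
  classical
  let ψ : ↥D → ↥(SU n F 2) := fun d => tv hF (φ d.1) (hiso d.1 d.2)
  have hzero : ∀ {x y : Fin n → F}, hermForm n F 2 x y = 0 → hermForm n F 2 y x = 0 :=
    fun hxy => herm_eq_zero_comm hF hxy
  -- the transvection determines the member
  have hψinj : Function.Injective ψ := by
    intro d e he
    refine Subtype.ext (h.eq_of_perp_subset h.good_univ d.2 e.2 fun g hg hgd => ?_)
    rw [hcomm g hg d.1 d.2] at hgd
    rw [hcomm g hg e.1 e.2]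
    have h1 := congrArg (fun A => sv A (φ g)) he
    simp only [ψ, sv_tv, hgd, zero_smul, add_zero, left_eq_add] at h1
    exact (smul_eq_zero.1 h1).resolve_right (hφ0 e.1 e.2)
  have hscale : ∀ (v : Fin n → F), v ≠ 0 → ∀ hv : hermForm n F 2 v v = 0, ∃ d : ↥D,
      ∃ l : F, l ≠ 0 ∧ v = l • φ d.1 ∧ tv hF v hv = ψ d := by
    intro v hv0 hv
    obtain ⟨d, hd, l, rfl⟩ := hsurj v hv0 hv
    have hl : l ≠ 0 := fun e => hv0 (by rw [e, zero_smul])
    refine ⟨⟨d, hd⟩, l, hl, rfl, sv_ext fun x => ?_⟩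
    rw [sv_tv]
    show _ = sv (tv hF (φ d) (hiso d hd)) x
    rw [sv_tv, herm_smul_right, smul_smul]
    have h3 := FiniteField.pow_card_sub_one_eq_one l hl
    rw [hF] at h3
    norm_num at h3
    rw [show l ^ 2 * hermForm n F 2 x (φ d) * l = l ^ 3 * hermForm n F 2 x (φ d) by ring, h3, one_mul]
  -- conjugation
  have hsv0 : ∀ (A : ↥(SU n F 2)) {v : Fin n → F}, v ≠ 0 → sv A v ≠ 0 := by
    intro A v hv e
    apply hv
    rw [← sv_inv_sv A v, e]
    exact Matrix.mulVec_zero _
  have hconj : ∀ d g : ↥D, ψ d * ψ g * (ψ d)⁻¹ =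
      ψ ⟨d.1 * g.1 * d.1⁻¹, h.ttg.2.1 d.1 g.1 g.2⟩ := by
    intro d g
    show tv hF _ (hiso d.1 d.2) * tv hF _ (hiso g.1 g.2) * (tv hF _ (hiso d.1 d.2))⁻¹ = _
    rw [tv_conj]
    by_cases hc : Commute d.1 g.1
    · have h0 : hermForm n F 2 (φ g.1) (φ d.1) = 0 := (hcomm g.1 g.2 d.1 d.2).1 hc.symm
      have e : (⟨d.1 * g.1 * d.1⁻¹, h.ttg.2.1 d.1 g.1 g.2⟩ : ↥D) = g :=
        Subtype.ext (by show d.1 * g.1 * d.1⁻¹ = g.1; rw [hc.eq, mul_inv_cancel_right])
      rw [e]
      exact tv_congr hF _ _ (by rw [sv_tv, h0, zero_smul, add_zero])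
    · set v := sv (tv hF (φ d.1) (hiso d.1 d.2)) (φ g.1) with hv
      have hviso : hermForm n F 2 v v = 0 := herm_sv_self_eq_zero _ (hiso g.1 g.2)
      obtain ⟨e, l, hl, hle, hte⟩ := hscale v (hsv0 _ (hφ0 g.1 g.2)) hviso
      rw [hte]
      congr 1
      refine Subtype.ext ?_
      show e.1 = d.1 * g.1 * d.1⁻¹
      have hgd : hermForm n F 2 (φ g.1) (φ d.1) ≠ 0 :=
        fun h0 => hc ((hcomm g.1 g.2 d.1 d.2).2 h0).symm
      have hv' : v = φ g.1 + hermForm n F 2 (φ g.1) (φ d.1) • φ d.1 := by rw [hv, sv_tv]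
      rcases hHL d.1 d.2 g.1 g.2 e.1 e.2 hc (fun z hz => by
          obtain ⟨-, hzD, hzd, hzg⟩ := hz
          rw [hcomm e.1 e.2 z hzD]
          have hlz : l * hermForm n F 2 (φ e.1) (φ z) = 0 := by
            rw [← herm_smul_left, ← hle, hv', herm_add_left, herm_smul_left,
              (hcomm g.1 g.2 z hzD).1 hzg.symm, (hcomm d.1 d.2 z hzD).1 hzd.symm, mul_zero, add_zero]
          exact (mul_eq_zero.1 hlz).resolve_left hl) with e1 | e1 | e1
      · exfalso
        rw [e1] at hle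
        have h1 : hermForm n F 2 v (φ d.1) = 0 := by rw [hle, herm_smul_left, hiso d.1 d.2, mul_zero]
        rw [hv', herm_add_left, herm_smul_left, hiso d.1 d.2, mul_zero, add_zero] at h1
        exact hgd h1
      · exfalso
        rw [e1] at hle
        have h1 : hermForm n F 2 v (φ g.1) = 0 := by rw [hle, herm_smul_left, hiso g.1 g.2, mul_zero]
        rw [hv', herm_add_left, herm_smul_left, hiso g.1 g.2, zero_add] at h1
        rcases mul_eq_zero.1 h1 with h2 | h2
        · exact hgd h2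
        · exact hgd (hzero h2)
      · rw [e1, h.inv_eq d.2]
  -- the two permutation representations
  let cj : G →* Equiv.Perm ↥D :=
    { toFun := fun g =>
        { toFun := fun d => ⟨g * d.1 * g⁻¹, h.ttg.2.1 g d.1 d.2⟩
          invFun := fun d => ⟨g⁻¹ * d.1 * g, by simpa using h.ttg.2.1 g⁻¹ d.1 d.2⟩
          left_inv := fun d => Subtype.ext (by show g⁻¹ * (g * d.1 * g⁻¹) * g = d.1; group)
          right_inv := fun d => Subtype.ext (by show g * (g⁻¹ * d.1 * g) * g⁻¹ = d.1; group) }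
      map_one' := Equiv.ext fun d => Subtype.ext (by show 1 * d.1 * 1⁻¹ = d.1; group)
      map_mul' := fun a b => Equiv.ext fun d => Subtype.ext (by
        show a * b * d.1 * (a * b)⁻¹ = a * (b * d.1 * b⁻¹) * a⁻¹; group) }
  have hcjinj : Function.Injective cj := by
    rw [injective_iff_map_eq_one]
    intro g hg
    refine h.central g fun d hd => ?_
    have := congrArg Subtype.val (Equiv.ext_iff.1 hg ⟨d, hd⟩)
    show g * d = d * g
    conv_rhs => rw [← show g * d * g⁻¹ = d from this]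
    rw [inv_mul_cancel_right]
  have hact : ∀ (A : ↥(SU n F 2)) (d : ↥D), ∃ e : ↥D, A * ψ d * A⁻¹ = ψ e := by
    intro A d
    show ∃ e, A * tv hF _ (hiso d.1 d.2) * A⁻¹ = ψ e
    rw [tv_conj]
    obtain ⟨e, -, -, -, he⟩ := hscale _ (hsv0 A (hφ0 d.1 d.2)) (herm_sv_self_eq_zero A (hiso d.1 d.2))
    exact ⟨e, he⟩
  choose act hact using hact
  have act_mul : ∀ A B d, act (A * B) d = act A (act B d) := fun A B d => hψinj (by
    rw [← hact, ← hact, ← hact]; group)
  have act_one : ∀ d, act 1 d = d := fun d => hψinj (by rw [← hact]; group)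
  let Θ : ↥(SU n F 2) →* Equiv.Perm ↥D :=
    { toFun := fun A =>
        { toFun := act A
          invFun := act A⁻¹
          left_inv := fun d => by rw [← act_mul, inv_mul_cancel, act_one]
          right_inv := fun d => by rw [← act_mul, mul_inv_cancel, act_one] }
      map_one' := Equiv.ext act_one
      map_mul' := fun A B => Equiv.ext fun d => act_mul A B d }
  have hΘψ : ∀ d : ↥D, Θ (ψ d) = cj d.1 := fun d => Equiv.ext fun g => hψinj (by
    show ψ (act (ψ d) g) = _
    rw [← hact, hconj]; rfl)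
  have hgen : Subgroup.closure (Set.range ψ) = ⊤ := by
    rw [eq_top_iff, ← transvGroup_eq_top hF (fun hh => by omega : ¬ (n = 3 ∧ 2 = 2)), transvGroup,
      Subgroup.closure_le]
    rintro A ⟨v, c, hv, hA⟩
    obtain ⟨c', hc', rfl, -⟩ := eq_transvSU_of_matrix_eq hF hv hA
    by_cases hv0 : v = 0
    · rw [transvSU_eq_one hF _ _ (Or.inr hv0)]; exact Subgroup.one_mem _
    have hc01 : c' = 0 ∨ c' = 1 := by
      rcases mul_eq_zero.1 (show c' * (1 + c') = 0 by linear_combination hc') with e | e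
      · exact Or.inl e
      · exact Or.inr (by linear_combination e - one_add_one hF)
    rcases hc01 with e | e
    · rw [transvSU_eq_one hF _ _ (Or.inl e)]; exact Subgroup.one_mem _
    · subst e
      obtain ⟨d, -, -, -, hd⟩ := hscale v hv0 hv
      exact Subgroup.subset_closure ⟨d, hd.symm⟩
  have hrange : Θ.range = cj.range := by
    rw [MonoidHom.range_eq_map, MonoidHom.range_eq_map, ← hgen, ← h.ttg.2.2, MonoidHom.map_closure,
      MonoidHom.map_closure]
    congr 1
    ext π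
    constructor
    · rintro ⟨_, ⟨d, rfl⟩, rfl⟩; exact ⟨d.1, d.2, (hΘψ d).symm⟩
    · rintro ⟨d, hd, rfl⟩; exact ⟨ψ ⟨d, hd⟩, ⟨_, rfl⟩, hΘψ ⟨d, hd⟩⟩
  have hker : Θ.ker = Subgroup.center ↥(SU n F 2) := by
    ext A
    rw [MonoidHom.mem_ker]
    constructor
    · intro hA
      have hcomA : ∀ B ∈ Set.range ψ, Commute A B := by
        rintro _ ⟨d, rfl⟩
        have h1 : act A d = d := Equiv.ext_iff.1 hA d
        show A * ψ d = ψ d * A
        conv_rhs => rw [← h1, ← hact, inv_mul_cancel_right]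
      refine Subgroup.mem_center_iff.2 fun B => ?_
      exact (commute_closure_iff.2 (fun s hs => (hcomA s hs).symm) B
        (hgen ▸ Subgroup.mem_top B)).eq
    · intro hA
      refine Equiv.ext fun d => hψinj ?_
      show ψ (act A d) = ψ d
      rw [← hact, ← Subgroup.mem_center_iff.1 hA (ψ d), mul_inv_cancel_right]
  exact ⟨(MonoidHom.ofInjective hcjinj).trans ((MulEquiv.subgroupCongr hrange.symm).trans
    ((QuotientGroup.quotientKerEquivRange Θ).symm.trans
      (QuotientGroup.quotientMulEquivOfEq hker)))⟩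

/-- Two coordinates for the pair and the others for the translations. -/
def mkv {F : Type} {m : ℕ} (a b : F) (u : Fin m → F) : Fin (m + 2) → F := Fin.cons a (Fin.cons b u)

theorem herm_mkv {F : Type} [Field F] {m : ℕ} (a b a' b' : F) (u u' : Fin m → F) :
    hermForm (m + 2) F 2 (mkv a b u) (mkv a' b' u') =
      a * a' ^ 2 + b * b' ^ 2 + ∑ i, u i * u' i ^ 2 := by
  simp [hermForm, mkv, Fin.sum_univ_succ, add_assoc]

theorem mkv_smul {F : Type} [Field F] {m : ℕ} (l a b : F) (u : Fin m → F) :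
    l • mkv a b u = mkv (l * a) (l * b) (l • u) := by
  funext i
  refine Fin.cases ?_ (fun j => Fin.cases ?_ (fun k => ?_) j) i <;> simp [mkv]

theorem mkv_inj {F : Type} {m : ℕ} {a b a' b' : F} {u u' : Fin m → F}
    (h : mkv a b u = mkv a' b' u') : a = a' ∧ b = b' ∧ u = u' := by
  have h0 := Fin.cons_injective2 h
  exact ⟨h0.1, (Fin.cons_injective2 h0.2).1, (Fin.cons_injective2 h0.2).2⟩

theorem mkv_eta {F : Type} {m : ℕ} (v : Fin (m + 2) → F) :
    ∃ a b u, v = mkv a b u :=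
  ⟨v 0, v 1, fun i => v i.succ.succ, by
    funext i
    refine Fin.cases ?_ (fun j => Fin.cases ?_ (fun k => ?_) j) i <;> simp [mkv]⟩

theorem Hyp.exists_iso_psu (h : Hyp D)
    (h5 : ∀ a ∈ D, ∀ b ∈ nbr D a, (pl D a b).ncard = 5) :
    ∃ (F : Type) (_ : Field F) (_ : Fintype F) (n : ℕ), Fintype.card F = 4 ∧
      Nonempty (G ≃* Cfsg.PSU n F 2) := by
  classical
  letI : Fintype (GaloisField 2 2) := Fintype.ofFinite _
  have hF : Fintype.card (GaloisField 2 2) = 2 ^ 2 := by
    rw [← Nat.card_eq_fintype_card, GaloisField.card 2 2 two_ne_zero]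
  refine ⟨GaloisField 2 2, inferInstance, inferInstance, ?_⟩
  suffices ∃ n : ℕ, Nonempty (G ≃* Cfsg.PSU n (GaloisField 2 2) 2) by
    obtain ⟨n, hn⟩ := this
    exact ⟨n, by rw [hF]; norm_num, hn⟩
  obtain ⟨p, hp, q, hq, hpq⟩ := h.noncomm
  have fr : Frame D p q := ⟨h, h5, hp, hq, hpq⟩
  obtain ⟨σ, hσ, hσ'⟩ := fr.exists_turn
  have htwo := TTUnitary.one_add_one hF
  have h2 : (2 : GaloisField 2 2) = 0 := by linear_combination htwo
  obtain ⟨ω, hω3, hω2⟩ := exists_norm_one_ne_inv hF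
  have hω : ω * ω + ω + 1 = 0 := by
    have h1 : (ω - 1) * (ω * ω + ω + 1) = 0 := by linear_combination hω3
    refine (mul_eq_zero.1 h1).resolve_left fun e => hω2 ?_
    rw [sub_eq_zero.1 e, one_pow]
  have T : Turned D p q σ ω := ⟨fr, hσ, hσ', hω, htwo⟩
  obtain ⟨w0, w1⟩ := T.omega_ne
  have hcases : ∀ a : GaloisField 2 2, a = 0 ∨ a = 1 ∨ a = ω ∨ a = ω * ω := by
    have hset : ({0, 1, ω, ω * ω} : Finset (GaloisField 2 2)) = Finset.univ := by
      refine Finset.eq_univ_of_card _ ?_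
      have e1 : ω * ω ≠ 1 := fun e => w0 (by linear_combination hω - e - htwo)
      have e2 : ω * ω ≠ ω := fun e => w1 (mul_left_cancel₀ w0 (e.trans (mul_one ω).symm))
      rw [hF, Finset.card_insert_of_notMem (by simp [w0.symm, (mul_ne_zero w0 w0).symm]),
        Finset.card_insert_of_notMem (by simp [w1.symm, e1.symm]), Finset.card_pair e2.symm]
      norm_num
    intro a
    have := Finset.mem_univ a
    rw [← hset] at this
    simpa using this
  obtain ⟨m, κ, hκp, hκmul, hκsurj, hκH⟩ := T.exists_coord hcases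
  set τ := tr D p q with hτ
  set α := al D p q with hα
  have htrm : ∀ x ∈ pts D p q, τ x ∈ tg D p q := fun x hx => fr.tr_mem hx
  have hκ1 : κ 1 = 0 := by
    have e := hκmul 1 (tg D p q).one_mem 1 (tg D p q).one_mem
    rw [mul_one] at e
    exact left_eq_add.1 e
  have hpts : ∀ x ∈ pts D p q, ∀ y ∈ pts D p q,
      (∑ i, κ (τ x) i * κ (τ y) i ^ 2 = 0 ↔ Commute (α x) (α y)) := fun x hx y hy => by
    rw [← hκH _ (htrm x hx) _ (htrm y hy)]; exact T.cross_zero_iff hx hy
  have hm : 2 ≤ m := by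
    obtain ⟨r, -, hr⟩ := h.com_nonempty h.good_univ h.hasLine_univ hp hq
    obtain ⟨x, -, -, hx, -, -, ex, -⟩ := fr.exists_three hr
    obtain ⟨b, ⟨-, hb⟩, hrb⟩ := (h.good_inter h.good_univ hp hq hpq).opp r ⟨hr.1, hr⟩
    obtain ⟨y, -, -, hy, -, -, ey, -⟩ := fr.exists_three hb
    have hne : ¬ ∑ i, κ (τ x) i * κ (τ y) i ^ 2 = 0 := fun e => hrb (by
      have := (hpts x hx y hy).1 e
      rwa [hα, ex, ey] at this)
    by_contra hlt
    apply hne
    have hxx := (hpts x hx x hx).2 (Commute.refl _)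
    have hcase : m = 0 ∨ m = 1 := by omega
    rcases hcase with rfl | rfl
    · simp
    · rw [Fin.sum_univ_one] at hxx ⊢
      have h0 : κ (τ x) 0 = 0 := by
        rcases mul_eq_zero.1 hxx with e | e
        · exact e
        · exact pow_eq_zero_iff two_ne_zero |>.1 e
      rw [h0, zero_mul]
  -- rotated traces are scalar multiples
  have hκJ : ∀ x ∈ pts D p q, κ (τ (σ x)) = ω • κ (τ x) := by
    intro x hx
    funext i
    obtain ⟨g, hg, eg⟩ := hκsurj (Pi.single i 1)
    have h1 := hκH _ (T.jl_mem (htrm x hx)) g hg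
    rw [T.hh_jl (htrm x hx) hg, hκH _ (htrm x hx) g hg] at h1
    have h3 := hκH _ (htrm _ (hσ x hx).1) g hg
    rw [T.hh_congr (htrm _ (hσ x hx).1) (T.jl_mem (htrm x hx)) hg hg (T.jl_tr hx).symm rfl,
      hκH _ (T.jl_mem (htrm x hx)) g hg, ← h1] at h3
    rw [eg] at h3
    simpa [Pi.single_apply, ite_pow] using h3.symm
  -- the representatives
  have hrep : ∀ d ∈ nbr D p, ∃ x, x ∈ pts D p q ∧ α x = α d ∧ (d = α d ∨ d = x) := by
    intro d hd
    by_cases e : d = α d
    · obtain ⟨x, -, -, hx, -, -, ex, -⟩ := fr.exists_three (fr.al_mem_com hd)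
      exact ⟨x, hx, ex, Or.inl e⟩
    · exact ⟨d, ⟨hd, fun hh' => e (fr.al_eq hd (h.self_mem hp hd).2 hh')⟩, rfl, Or.inr rfl⟩
  choose! rep hrepP hrepα hrepc using hrep
  have horb : ∀ d ∈ D, ¬ Commute p d → ∃ k, k ∈ tg D p q ∧ d = k * q * k⁻¹ := fun d hd hdp => by
    obtain ⟨k, hk, e⟩ := fr.orbit hd hdp
    exact ⟨k, hk, e⟩
  choose! kof hkof hkofe using horb
  let cf : G → GaloisField 2 2 := fun d => if d = α d then 0 else 1
  let φ : G → Fin (m + 2) → GaloisField 2 2 := fun d =>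
    if d = p then mkv 1 1 0
    else if Commute p d then mkv (cf d) (cf d) (κ (τ (rep d)))
    else mkv (ω + T.chi (kof d)) (ω * ω + T.chi (kof d)) (κ (kof d))
  have φp : φ p = mkv 1 1 0 := if_pos rfl
  have φn : ∀ d ∈ nbr D p, φ d = mkv (cf d) (cf d) (κ (τ (rep d))) := fun d hd => by
    simp only [φ, if_neg hd.2.1, if_pos hd.2.2]
  have φo : ∀ d, ¬ Commute p d →
      φ d = mkv (ω + T.chi (kof d)) (ω * ω + T.chi (kof d)) (κ (kof d)) := fun d hd => by
    have : d ≠ p := fun e => hd (e ▸ Commute.refl p)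
    simp only [φ, if_neg this, if_neg hd]
  have φopp : ∀ g ∈ tg D p q,
      φ (g * q * g⁻¹) = mkv (ω + T.chi g) (ω * ω + T.chi g) (κ g) := fun g hg => by
    have hd := h.ttg.2.1 g q hq
    have hdp := fr.opp_conj hg hpq
    rw [φo _ hdp, ← fr.torsor hg (hkof _ hd hdp) (hkofe _ hd hdp)]
  have kinds : ∀ d ∈ D, d = p ∨ d ∈ nbr D p ∨ ¬ Commute p d := fun d hd => by
    by_cases e : d = p
    · exact Or.inl e
    by_cases e' : Commute p d
    · exact Or.inr (Or.inl ⟨hd, e, e'⟩)
    · exact Or.inr (Or.inr e')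
  have hw : (ω * ω) ^ 2 = ω := by linear_combination ω * T.omega_cube
  have e_po : ∀ e, ¬ Commute p e →
      hermForm (m + 2) (GaloisField 2 2) 2 (φ p) (φ e) = 1 := by
    intro e he
    rw [φp, φo e he, herm_mkv]
    simp only [Pi.zero_apply, zero_mul, Finset.sum_const_zero]
    linear_combination hw + hω + ((ω + ω * ω) * T.chi (kof e) + T.chi (kof e) ^ 2 - 1) * h2
  have e_pn : ∀ e ∈ nbr D p, hermForm (m + 2) (GaloisField 2 2) 2 (φ p) (φ e) = 0 := by
    intro e he
    rw [φp, φn e he, herm_mkv]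
    simp only [Pi.zero_apply, zero_mul, Finset.sum_const_zero]
    linear_combination (cf e) ^ 2 * h2
  have e_nn : ∀ d ∈ nbr D p, ∀ e ∈ nbr D p,
      (Commute d e ↔ hermForm (m + 2) (GaloisField 2 2) 2 (φ d) (φ e) = 0) := by
    intro d hd e he
    rw [φn d hd, φn e he, herm_mkv,
      show cf d * cf e ^ 2 + cf d * cf e ^ 2 = 0 by linear_combination (cf d * cf e ^ 2) * h2,
      zero_add, hpts _ (hrepP d hd) _ (hrepP e he), hrepα d hd, hrepα e he]
    exact T.pts_commute_iff hd he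
  have e_no : ∀ d ∈ nbr D p, ∀ e ∈ D, ¬ Commute p e →
      (Commute d e ↔ hermForm (m + 2) (GaloisField 2 2) 2 (φ d) (φ e) = 0) := by
    intro d hd e heD he
    have hk := hkof e heD he
    obtain ⟨i1, i2⟩ := T.fix_iff hk (hrepP d hd)
    have hc : Commute d e ↔ d = kof e * α d * (kof e)⁻¹ := by
      conv_lhs => rw [hkofe e heD he]
      exact T.commute_opp_iff hd hk
    rw [hc, φn d hd, φo e he, herm_mkv, ← hκH _ (htrm _ (hrepP d hd)) _ hk]
    rw [← hα, hrepα d hd] at i1 i2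
    have hs : cf d * (ω + T.chi (kof e)) ^ 2 + cf d * (ω * ω + T.chi (kof e)) ^ 2 = cf d := by
      linear_combination cf d * (hw + hω) +
        cf d * ((ω + ω * ω) * T.chi (kof e) + T.chi (kof e) ^ 2 - 1) * h2
    rw [hs]
    by_cases ed : d = α d
    · rw [show cf d = 0 from if_pos ed, zero_add, ← i1]
      exact ⟨fun e' => e'.symm.trans ed, fun e' => ed.trans e'.symm⟩
    · rw [show cf d = 1 from if_neg ed]
      have ex : d = rep d := (hrepc d hd).resolve_left ed
      rw [← ex] at i2 ⊢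
      constructor
      · intro e'; linear_combination (i2.1 e'.symm) + htwo
      · intro e'; exact (i2.2 (by linear_combination e' - htwo)).symm
  have e_oo : ∀ d ∈ D, ¬ Commute p d → ∀ e ∈ D, ¬ Commute p e →
      (Commute d e ↔ hermForm (m + 2) (GaloisField 2 2) 2 (φ d) (φ e) = 0) := by
    intro d hdD hd e heD he
    have hk := hkof d hdD hd
    have hl := hkof e heD he
    have hc : Commute d e ↔
        T.chi (kof e) ^ 2 + T.chi (kof d) + hh D p q σ ω (kof d) (kof e) = 0 := by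
      conv_lhs => rw [hkofe d hdD hd, hkofe e heD he]
      rw [← T.commute_iff_chi hl hk]
      exact ⟨Commute.symm, Commute.symm⟩
    rw [hc, φo d hd, φo e he, herm_mkv, ← hκH _ hk _ hl]
    have hs : (ω + T.chi (kof d)) * (ω + T.chi (kof e)) ^ 2 +
        (ω * ω + T.chi (kof d)) * (ω * ω + T.chi (kof e)) ^ 2 =
        T.chi (kof e) ^ 2 + T.chi (kof d) := by
      linear_combination (2 + ω ^ 3 + T.chi (kof d) * ω) * T.omega_cube +
        (T.chi (kof e) ^ 2 + T.chi (kof d)) * hω +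
        (1 - T.chi (kof e) ^ 2 - T.chi (kof d) + T.chi (kof d) * T.chi (kof e) ^ 2 +
          (ω ^ 2 + ω ^ 4) * T.chi (kof e) +
          (ω + ω * ω) * T.chi (kof d) * T.chi (kof e)) * h2
    rw [hs]
  have hcomm : ∀ d ∈ D, ∀ e ∈ D,
      (Commute d e ↔ hermForm (m + 2) (GaloisField 2 2) 2 (φ d) (φ e) = 0) := by
    have hsymm : ∀ {d e : G}, (Commute d e ↔ hermForm (m + 2) (GaloisField 2 2) 2 (φ d) (φ e) = 0) →
        (Commute e d ↔ hermForm (m + 2) (GaloisField 2 2) 2 (φ e) (φ d) = 0) := fun hde =>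
      ⟨fun hc => herm_eq_zero_comm hF (hde.1 hc.symm), fun hc => (hde.2 (herm_eq_zero_comm hF hc)).symm⟩
    intro d hd e he
    rcases kinds d hd with rfl | hd' | hd' <;> rcases kinds e he with rfl | he' | he'
    · refine iff_of_true (Commute.refl _) ?_
      rw [φp, herm_mkv]; simp [htwo]
    · exact iff_of_true he'.2.2 (e_pn e he')
    · refine iff_of_false he' ?_
      rw [e_po e he']; exact one_ne_zero
    · exact hsymm (iff_of_true hd'.2.2 (e_pn d hd'))
    · exact e_nn d hd' e he'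
    · exact e_no d hd' e he he'
    · refine hsymm (iff_of_false hd' ?_)
      rw [e_po d hd']; exact one_ne_zero
    · exact hsymm (e_no e he' d hd hd')
    · exact e_oo d hd hd' e he he'
  have hiso : ∀ d ∈ D, hermForm (m + 2) (GaloisField 2 2) 2 (φ d) (φ d) = 0 :=
    fun d hd => (hcomm d hd d hd).1 (Commute.refl d)
  have hφ0 : ∀ d ∈ D, φ d ≠ 0 := by
    intro d hd e
    obtain ⟨z, hz, hdz⟩ := h.exists_noncommute hd
    exact hdz ((hcomm d hd z hz).2 (by rw [e, herm_zero_left]))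
  -- singular traces are points
  have hsing : ∀ u : Fin m → GaloisField 2 2, u ≠ 0 → ∑ i, u i * u i ^ 2 = 0 →
      ∃ x ∈ pts D p q, κ (τ x) = u := by
    intro u hu hn
    obtain ⟨g, hg, eg⟩ := hκsurj u
    have hN : hh D p q σ ω g g = 0 := by rw [hκH g hg g hg, eg]; exact hn
    obtain ⟨g', hg', eg', hc'⟩ : ∃ g' ∈ tg D p q, κ g' = u ∧ T.chi g' = 0 := by
      have ht := T.chi_trace hg
      rw [hN] at ht
      rcases mul_eq_zero.1 (show T.chi g * (1 + T.chi g) = 0 by linear_combination ht) with e | e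
      · exact ⟨g, hg, eg, e⟩
      · refine ⟨p * g, (tg D p q).mul_mem fr.p_mem hg, ?_, ?_⟩
        · rw [hκmul _ fr.p_mem _ hg, hκp, zero_add, eg]
        · rw [T.chi_mul fr.p_mem hg, T.chi_p, (T.hh_p hg).1, add_zero, e]
    rcases (T.chi_zero_iff hg').1 hc' with rfl | ⟨x, hx, rfl⟩
    · exact absurd (eg'.symm.trans hκ1) hu
    · refine ⟨x, hx, ?_⟩
      rw [hκmul _ fr.p_mem _ (htrm x hx), hκp, zero_add] at eg'
      exact eg'
  refine ⟨m + 2, iso_psu_of_points h (h.hypLine h5) hF (by omega) φ hφ0 hiso hcomm ?_⟩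
  intro v hv0 hv
  obtain ⟨a, b, u, rfl⟩ := mkv_eta v
  rw [herm_mkv] at hv
  by_cases hβ : a + b = 0
  · have hab : b = a := by linear_combination hβ - a * h2
    subst hab
    have hn : ∑ i, u i * u i ^ 2 = 0 := by linear_combination hv - (b * b ^ 2) * h2
    by_cases hu : u = 0
    · subst hu
      refine ⟨p, hp, b, ?_⟩
      rw [φp, mkv_smul, mul_one, smul_zero]
    by_cases hb : b = 0
    · subst hb
      obtain ⟨x, hx, ex⟩ := hsing u hu hn
      have ha := fr.al_mem_com hx.1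
      obtain ⟨han, haa⟩ := fr.com_nbr ha
      rw [← hα] at han haa ha
      refine ⟨α x, han.1, ?_⟩
      have hy := hrepP _ han
      have ey := hrepα _ han
      rw [haa] at ey
      have hcf : cf (α x) = 0 := if_pos haa.symm
      rcases T.three_exhaust hy hx (by rw [← hα, ey]) with e | e | e
      · exact ⟨1, by rw [φn _ han, mkv_smul, hcf, mul_zero, one_smul, ← ex]; congr 1; rw [← e]⟩
      · exact ⟨ω, by rw [φn _ han, mkv_smul, hcf, mul_zero, ← ex, ← hκJ _ hy, ← e]⟩
      · exact ⟨ω * ω, by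
          rw [φn _ han, mkv_smul, hcf, mul_zero, ← ex, mul_smul, ← hκJ _ hy,
            ← hκJ _ (hσ _ hy).1, ← e]⟩
    · have hu' : b⁻¹ • u ≠ 0 := smul_ne_zero (inv_ne_zero hb) hu
      obtain ⟨x, hx, ex⟩ := hsing (b⁻¹ • u) hu' (by
        simp only [Pi.smul_apply, smul_eq_mul]
        rw [show (∑ i, b⁻¹ * u i * (b⁻¹ * u i) ^ 2) = b⁻¹ ^ 3 * ∑ i, u i * u i ^ 2 by
          rw [Finset.mul_sum]; exact Finset.sum_congr rfl fun i _ => by ring, hn, mul_zero])
      refine ⟨x, hx.1.1, b, ?_⟩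
      have hne : x ≠ α x := fun e => fr.al_ne hx e.symm
      have hrx : rep x = x := ((hrepc x hx.1).resolve_left hne).symm
      rw [φn x hx.1, hrx, ex, show cf x = 1 from if_neg hne, mkv_smul, mul_one, smul_smul,
        mul_inv_cancel₀ hb, one_smul]
  · set β := a + b with hβdef
    set a' := β⁻¹ * a with ha'
    set b' := β⁻¹ * b with hb'
    have hab : a' + b' = 1 := by rw [ha', hb', ← mul_add, ← hβdef, inv_mul_cancel₀ hβ]
    obtain ⟨g, hg, eg⟩ := hκsurj (β⁻¹ • u)
    set e := a' + ω with he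
    have hbe : b' = ω * ω + e := by linear_combination hab - hω + (1 - a') * h2
    have hN : hh D p q σ ω g g = e + e ^ 2 := by
      rw [hκH g hg g hg, eg]
      have h3 : a' * a' ^ 2 + b' * b' ^ 2 + ∑ i, (β⁻¹ • u) i * (β⁻¹ • u) i ^ 2 = 0 := by
        simp only [Pi.smul_apply, smul_eq_mul]
        rw [show (∑ i, β⁻¹ * u i * (β⁻¹ * u i) ^ 2) = β⁻¹ ^ 3 * ∑ i, u i * u i ^ 2 by
          rw [Finset.mul_sum]; exact Finset.sum_congr rfl fun i _ => by ring, ha', hb']
        linear_combination β⁻¹ ^ 3 * hv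
      have hae : a' = ω + e := by rw [he]; linear_combination -ω * h2
      have key : a' * a' ^ 2 + b' * b' ^ 2 + e + e ^ 2 = 0 := by
        have hb1 : b' = 1 + a' := by linear_combination hab - a' * h2
        rw [hb1, he]
        linear_combination hω + (a' ^ 3 + 2 * a' ^ 2 + 2 * a' + a' * ω) * h2
      linear_combination h3 - key
    obtain ⟨g', hg', eg', hc'⟩ : ∃ g' ∈ tg D p q, κ g' = β⁻¹ • u ∧ T.chi g' = e := by
      have ht := T.chi_trace hg
      rw [hN] at ht
      rcases mul_eq_zero.1 (show (T.chi g - e) * (1 + T.chi g - e) = 0 by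
        linear_combination ht + (e ^ 2 - T.chi g * e) * h2) with e1 | e1
      · exact ⟨g, hg, eg, sub_eq_zero.1 e1⟩
      · refine ⟨p * g, (tg D p q).mul_mem fr.p_mem hg, ?_, ?_⟩
        · rw [hκmul _ fr.p_mem _ hg, hκp, zero_add, eg]
        · rw [T.chi_mul fr.p_mem hg, T.chi_p, (T.hh_p hg).1, add_zero]
          exact sub_eq_zero.1 e1
    refine ⟨g' * q * g'⁻¹, h.ttg.2.1 g' q hq, β, ?_⟩
    rw [φopp g' hg', hc', eg', mkv_smul, ← hbe, smul_smul, mul_inv_cancel₀ hβ, one_smul,
      show ω + e = a' by rw [he]; linear_combination ω * h2, ha', hb', mul_inv_cancel_left₀ hβ,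
      mul_inv_cancel_left₀ hβ]

end CfsgLib.FischerPolar
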